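import Mathlib
import Cfsg.Agent.Lib.Helper98.O72Defs
import Cfsg.Agent.Lib.Helper98.O72Fix

/-!
# Project O72 (helper98, S5972), piece R2ANISO

An involutory isometry whose `(-1)`-eigenspace is anisotropic: an invariant totally isotropic
subspace `W` lies in the `1`-eigenspace, so `W ⊔ ker (T + 1) ≤ W^⊥` and the dimensions add.
-/

set_option autoImplicit false
set_option linter.unusedSectionVars false
set_option linter.unusedVariables false

namespace Cfsg.Agent.Lib.Helper98.O72

open Module Cfsg.Agent.Lib.Helper96.Sp

section Abstract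

variable {F : Type*} [Field F] [Fintype F] {V : Type*} [AddCommGroup V] [Module F V]
  [FiniteDimensional F V] {B : LinearMap.BilinForm F V}

/-- PIECE R2ANISO: an involutory isometry whose `(-1)`-eigenspace is anisotropic. -/
theorem ti_bound_of_aniso (hS : B.IsSymm) (hchar2 : (2 : F) ≠ 0) (hN : ND B ⊤)
    (T : Module.End F V) (hT : Isom B T) (hT2 : T * T = 1)
    (haniso : ∀ v ∈ LinearMap.ker (T + 1), B v v = 0 → v = 0)
    (W : Submodule F V) (hW : W.map T ≤ W) (hWti : Orth B W W) :
    2 * finrank F W + finrank F (LinearMap.ker (T + 1)) ≤ finrank F V := by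
  have hTT : ∀ w : V, T (T w) = w := by
    intro w
    have h := congrArg (fun f : Module.End F V => f w) hT2
    simpa using h
  have hfix : ∀ w ∈ W, T w = w := by
    intro w hw
    have hTw : T w ∈ W := hW (Submodule.mem_map_of_mem hw)
    have hu : w - T w ∈ W := W.sub_mem hw hTw
    have hk : w - T w ∈ LinearMap.ker (T + 1) := by
      rw [LinearMap.mem_ker, LinearMap.add_apply, Module.End.one_apply, map_sub, hTT]
      abel
    have h0 := haniso _ hk (hWti _ hu _ hu)
    exact (sub_eq_zero.mp h0).symm
  have horth : ∀ w ∈ W, ∀ v ∈ LinearMap.ker (T + 1), B v w = 0 := by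
    intro w hw v hv
    have hv' : T v = -v := by
      rw [LinearMap.mem_ker, LinearMap.add_apply, Module.End.one_apply] at hv
      exact eq_neg_of_add_eq_zero_left hv
    have h1 := hT v w
    rw [hv', hfix w hw, map_neg, LinearMap.neg_apply] at h1
    have h2 : (2 : F) * B v w = 0 := by linear_combination -h1
    exact (mul_eq_zero.mp h2).resolve_left hchar2
  have hle : W ⊔ LinearMap.ker (T + 1) ≤ B.orthogonal W := by
    apply sup_le
    · intro w hw
      rw [mem_perp_iff' hS hchar2]
      exact fun w' hw' => hWti w hw w' hw'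
    · intro v hv
      rw [mem_perp_iff' hS hchar2]
      exact fun w hw => horth w hw v hv
  have hinf : W ⊓ LinearMap.ker (T + 1) = ⊥ := by
    rw [eq_bot_iff]
    rintro v ⟨hv1, hv2⟩
    rw [Submodule.mem_bot]
    exact haniso v hv2 (hWti v hv1 v hv1)
  have h1 := LinearMap.BilinForm.finrank_add_finrank_orthogonal hS.isRefl W
  rw [perp_top hS hchar2 hN, inf_bot_eq, finrank_bot, add_zero] at h1
  have h2 := Submodule.finrank_sup_add_finrank_inf_eq W (LinearMap.ker (T + 1))
  rw [hinf, finrank_bot, add_zero] at h2
  have h3 := Submodule.finrank_mono hle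
  omega

end Abstract

end Cfsg.Agent.Lib.Helper98.O72
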