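import Mathlib
import Cfsg.Agent.Lib.Helper18.TLDefs
import Cfsg.Agent.Lib.Helper1.Coprime

/-! S3797 (helper18, Thompson 2-length one), piece CLASS2: `P' ≤ C(W)` and `P' ≤ C(P)`. -/

set_option autoImplicit false

namespace Cfsg.Agent.Lib.Helper18.TL

open Subgroup
open scoped commutatorElement

universe u

variable {G : Type u} [Group G]

private theorem class2_norm_comm {K A B : Subgroup G} (hA : K ≤ normalizer (A : Set G))
    (hB : K ≤ normalizer (B : Set G)) : K ≤ normalizer ((⁅A, B⁆ : Subgroup G) : Set G) := by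
  intro k hk
  rw [Cfsg.Agent.Lib.Helper1.mem_normalizer_iff_conj_smul,
    Cfsg.Agent.Lib.Helper1.conj_smul_commutator,
    (Cfsg.Agent.Lib.Helper1.mem_normalizer_iff_conj_smul k A).mp (hA hk),
    (Cfsg.Agent.Lib.Helper1.mem_normalizer_iff_conj_smul k B).mp (hB hk)]

-- piece CLASS2
theorem P_class2 [Finite G] {Z Y P W T : Subgroup G} (h : Adm Z Y P W T) (hWT : ⁅W, T⁆ = W)
    (hmin : ∀ P' : Subgroup G, P' ≤ P → P' ≠ P → W ≤ normalizer (P' : Set G) →
      T ≤ normalizer (P' : Set G) → Y ≤ normalizer (P' : Set G) →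
      W ≤ centralizer (P' : Set G))
    (hPW : ⁅P, W⁆ = P) :
    ⁅P, P⁆ ≤ centralizer (W : Set G) ∧ ⁅P, P⁆ ≤ centralizer (P : Set G) := by
  haveI : Fact (Nat.Prime 2) := ⟨Nat.prime_two⟩
  have hPne : P ≠ ⊥ := by
    intro hP
    apply h.nontriv
    rw [hP]
    intro x _
    rw [mem_centralizer_iff]
    intro y hy
    have hy1 : y = 1 := by simpa using hy
    rw [hy1, one_mul, mul_one]
  have hD : ⁅P, P⁆ ≠ P := by
    intro hD
    haveI : Nontrivial P := (Subgroup.nontrivial_iff_ne_bot P).2 hPne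
    haveI : Group.IsNilpotent P := h.pP.isNilpotent
    have hlt := Group.IsSolvable.commutator_lt_top_of_nontrivial P
    have hmap : (_root_.commutator P).map P.subtype = ⁅P, P⁆ := by
      rw [_root_.commutator_def, map_commutator, ← MonoidHom.range_eq_map, range_subtype]
    have : _root_.commutator P = ⊤ := by
      apply map_injective P.subtype_injective
      rw [hmap, hD, ← MonoidHom.range_eq_map, range_subtype]
    exact hlt.ne this
  have hle : ⁅P, P⁆ ≤ P :=
    Cfsg.Agent.Lib.Helper1.commutator_le_of_le_normalizer le_normalizer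
  have hW := class2_norm_comm h.WP h.WP
  have hT := class2_norm_comm h.TP h.TP
  have hY := class2_norm_comm h.YP h.YP
  have hc := hmin ⁅P, P⁆ hle hD hW hT hY
  have hc1 : ⁅P, P⁆ ≤ centralizer (W : Set G) := le_centralizer_iff.1 hc
  refine ⟨hc1, ?_⟩
  have hWD : ⁅W, ⁅P, P⁆⁆ = ⊥ := by
    rw [commutator_eq_bot_iff_le_centralizer]; exact hc
  have hDW : ⁅⁅P, P⁆, W⁆ = ⊥ := by
    rw [commutator_eq_bot_iff_le_centralizer]; exact hc1
  have h1 : ⁅⁅W, ⁅P, P⁆⁆, P⁆ = ⊥ := by rw [hWD, commutator_bot_left]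
  have h2 : ⁅⁅⁅P, P⁆, P⁆, W⁆ = ⊥ := by
    rw [eq_bot_iff, ← hDW]
    exact commutator_mono (commutator_mono hle le_rfl) le_rfl
  have h3 : ⁅⁅P, W⁆, ⁅P, P⁆⁆ = ⊥ := commutator_commutator_eq_bot_of_rotate h1 h2
  rw [hPW, commutator_eq_bot_iff_le_centralizer] at h3
  exact le_centralizer_iff.1 h3

end Cfsg.Agent.Lib.Helper18.TL
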