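import Mathlib
import Cfsg.Agent.Lib.Helper18.TLDefs
import Cfsg.Agent.Lib.Helper72.HHFit

/-! S3797 (helper18, Thompson 2-length one), piece DCENT: `C_T(W)` centralizes `P`. -/

set_option autoImplicit false

namespace Cfsg.Agent.Lib.Helper18.TL

open Subgroup
open scoped commutatorElement

universe u

variable {G : Type u} [Group G]

/-- In a finite 2-subgroup `R` normalizing `P > Z`, some element of `P ∖ Z` has all its
commutators with `R` inside `Z`. -/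
private theorem dcent_exists [Finite G] {Z P R : Subgroup G} (hR : IsPGroup 2 R) (hPR : P ≤ R)
    (hRP : R ≤ normalizer (P : Set G)) (hZP : Z ≤ P) (hne : Z ≠ P) :
    ∃ x ∈ P, x ∉ Z ∧ ∀ r ∈ R, ⁅x, r⁆ ∈ Z := by
  have : Fact (Nat.Prime 2) := ⟨Nat.prime_two⟩
  have hnil : Group.IsNilpotent R := hR.isNilpotent
  obtain ⟨n, hn⟩ := (Subgroup.isNilpotent_iff_lowerCentralSeries R).1 hnil
  obtain ⟨f, hf0, hfs⟩ : ∃ f : ℕ → Subgroup G, f 0 = P ∧ ∀ n, f (n + 1) = ⁅f n, R⁆ :=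
    ⟨fun n => Nat.rec P (fun _ K => ⁅K, R⁆) n, rfl, fun _ => rfl⟩
  have hfP : ∀ n, f n ≤ P := by
    intro n
    induction n with
    | zero => rw [hf0]
    | succ n ih =>
      rw [hfs, Subgroup.commutator_le]
      intro x hx r hr
      have hx' := ih hx
      have h1 : r * x⁻¹ * r⁻¹ ∈ P := (mem_normalizer_iff.1 (hRP hr) x⁻¹).1 (P.inv_mem hx')
      have h2 := P.mul_mem hx' h1
      have e : ⁅x, r⁆ = x * (r * x⁻¹ * r⁻¹) := by
        rw [commutatorElement_def]; group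
      rw [e]; exact h2
  have hfl : ∀ n, f n ≤ R.lowerCentralSeries n := by
    intro n
    induction n with
    | zero => rw [hf0]; exact hPR
    | succ n ih =>
      rw [hfs, Subgroup.lowerCentralSeries_succ]
      exact Subgroup.commutator_mono ih le_rfl
  have hex : ∃ n, f n ≤ Z := ⟨n, by
    refine (hfl n).trans ?_
    rw [hn]; exact bot_le⟩
  classical
  have hmin := @Nat.find_min _ _ hex
  have hspec := Nat.find_spec hex
  obtain ⟨m, hm⟩ : ∃ m, Nat.find hex = m + 1 := by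
    refine Nat.exists_eq_succ_of_ne_zero ?_
    intro h0
    rw [h0, hf0] at hspec
    exact hne (le_antisymm hZP hspec)
  have hm' : ¬ f m ≤ Z := hmin (by omega)
  rw [hm, hfs] at hspec
  obtain ⟨x, hx, hxZ⟩ := SetLike.not_le_iff_exists.1 hm'
  exact ⟨x, hfP m hx, hxZ, fun r hr => hspec (Subgroup.commutator_mem_commutator hx hr)⟩

private theorem dcent_comm {x w d c : G} (hc : x * d = c * d * x) (hcx : c * x = x * c)
    (hcw : c * w = w * c) (hdw : w * d = d * w) :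
    d * ⁅x, w⁆ = ⁅x, w⁆ * d := by
  have hdx : d * x = c⁻¹ * x * d := by
    have : c⁻¹ * x * d = c⁻¹ * (x * d) := by group
    rw [this, hc]; group
  have hcxi : c * x⁻¹ = x⁻¹ * c := by
    have : c * x⁻¹ = x⁻¹ * (x * c) * x⁻¹ := by group
    rw [this, ← hcx]; group
  have hdxi : d * x⁻¹ = c * x⁻¹ * d := by
    have : d * x⁻¹ = x⁻¹ * (x * d) * x⁻¹ := by group
    rw [this, hc, hcxi]; group
  have hdwi : d * w⁻¹ = w⁻¹ * d := by
    have : d * w⁻¹ = w⁻¹ * (w * d) * w⁻¹ := by group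
    rw [this, hdw]; group
  rw [commutatorElement_def]
  calc d * (x * w * x⁻¹ * w⁻¹)
      = d * x * w * x⁻¹ * w⁻¹ := by simp only [mul_assoc]
    _ = c⁻¹ * x * d * w * x⁻¹ * w⁻¹ := by rw [hdx]
    _ = c⁻¹ * x * (d * w) * x⁻¹ * w⁻¹ := by simp only [mul_assoc]
    _ = c⁻¹ * x * (w * d) * x⁻¹ * w⁻¹ := by rw [hdw]
    _ = c⁻¹ * x * w * (d * x⁻¹) * w⁻¹ := by simp only [mul_assoc]
    _ = c⁻¹ * x * w * (c * x⁻¹ * d) * w⁻¹ := by rw [hdxi]
    _ = c⁻¹ * x * w * c * x⁻¹ * (d * w⁻¹) := by simp only [mul_assoc]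
    _ = c⁻¹ * x * w * c * x⁻¹ * (w⁻¹ * d) := by rw [hdwi]
    _ = c⁻¹ * x * (w * c) * x⁻¹ * w⁻¹ * d := by simp only [mul_assoc]
    _ = c⁻¹ * x * (c * w) * x⁻¹ * w⁻¹ * d := by rw [hcw]
    _ = c⁻¹ * (x * c) * w * x⁻¹ * w⁻¹ * d := by simp only [mul_assoc]
    _ = c⁻¹ * (c * x) * w * x⁻¹ * w⁻¹ * d := by rw [hcx]
    _ = x * w * x⁻¹ * w⁻¹ * d := by group

-- piece DCENT
theorem D_cent_P [Finite G] {Z Y P W T : Subgroup G} (hC : Cfg Z Y) (h : Adm Z Y P W T)
    (hPW : ⁅P, W⁆ = P) (hPP : ⁅P, P⁆ = Z) (hPZ : P ≤ centralizer (Z : Set G))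
    (hcPW : P ⊓ centralizer (W : Set G) = Z)
    (hmin : ∀ P' : Subgroup G, P' ≤ P → P' ≠ P → W ≤ normalizer (P' : Set G) →
      T ≤ normalizer (P' : Set G) → Y ≤ normalizer (P' : Set G) →
      W ≤ centralizer (P' : Set G)) :
    T ⊓ centralizer (W : Set G) ≤ centralizer (P : Set G) := by
  have hZP : Z ≤ P := hcPW ▸ inf_le_left
  have hZn : ∀ g z, z ∈ Z → g * z * g⁻¹ ∈ Z := by
    intro g z hz
    rw [hC.amb.memZ] at hz ⊢
    calc (g * z * g⁻¹) ^ 2 = g * z ^ 2 * g⁻¹ := by rw [pow_two, pow_two]; group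
      _ = 1 := by rw [hz]; group
  by_cases hne : Z = P
  · rw [← hne]; exact inf_le_left.trans h.TZ
  obtain ⟨D, hD⟩ : ∃ D : Subgroup G, D = T ⊓ centralizer (W : Set G) := ⟨_, rfl⟩
  rw [← hD]
  have hDT : D ≤ T := hD ▸ inf_le_left
  have hDW : ∀ d ∈ D, ∀ w ∈ W, w * d = d * w := by
    intro d hd w hw
    rw [hD] at hd
    exact mem_centralizer_iff.1 hd.2 w hw
  have hDP : D ≤ normalizer (P : Set G) := hDT.trans h.TP
  have hR : IsPGroup 2 (P ⊔ D : Subgroup G) :=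
    IsPGroup.to_sup_of_normal_left' h.pP (h.pT.to_le hDT) hDP
  obtain ⟨x₀, hx₀P, hx₀Z, hx₀⟩ :=
    dcent_exists hR le_sup_left (sup_le le_normalizer hDP) hZP hne
  -- the subgroup `E` of elements of `P` centralizing `D` modulo `Z`
  obtain ⟨E, hE⟩ : ∃ E : Subgroup G, ∀ x, x ∈ E ↔ (x ∈ P ∧ ∀ d ∈ D, ⁅x, d⁆ ∈ Z) := by
    refine ⟨{ carrier := {x | x ∈ P ∧ ∀ d ∈ D, ⁅x, d⁆ ∈ Z}
              one_mem' := ⟨P.one_mem, fun d _ => by
                rw [commutatorElement_one_left]; exact Z.one_mem⟩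
              mul_mem' := ?_
              inv_mem' := ?_ }, fun x => Iff.rfl⟩
    · rintro a b ⟨ha, ha'⟩ ⟨hb, hb'⟩
      refine ⟨P.mul_mem ha hb, fun d hd => ?_⟩
      have e : ⁅a * b, d⁆ = a * ⁅b, d⁆ * a⁻¹ * ⁅a, d⁆ := by
        simp only [commutatorElement_def]; group
      rw [e]
      exact Z.mul_mem (hZn a _ (hb' d hd)) (ha' d hd)
    · rintro a ⟨ha, ha'⟩
      refine ⟨P.inv_mem ha, fun d hd => ?_⟩
      have e : ⁅a⁻¹, d⁆ = a⁻¹ * ⁅a, d⁆⁻¹ * a⁻¹⁻¹ := by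
        simp only [commutatorElement_def]; group
      rw [e]
      exact hZn _ _ (Z.inv_mem (ha' d hd))
  have hinv : ∀ g, g ∈ normalizer (P : Set G) → (∀ d ∈ D, g⁻¹ * d * g ∈ D) →
      ∀ x ∈ E, g * x * g⁻¹ ∈ E := by
    intro g hg hgD x hx
    rw [hE] at hx ⊢
    refine ⟨(mem_normalizer_iff.1 hg x).1 hx.1, fun d hd => ?_⟩
    have e : ⁅g * x * g⁻¹, d⁆ = g * ⁅x, g⁻¹ * d * g⁆ * g⁻¹ := by
      simp only [commutatorElement_def]; group
    rw [e]
    exact hZn _ _ (hx.2 _ (hgD d hd))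
  have hDinv : ∀ g, g ∈ normalizer (T : Set G) → g ∈ normalizer (W : Set G) →
      ∀ d ∈ D, g⁻¹ * d * g ∈ D := by
    intro g hgT hgW d hd
    rw [hD, Subgroup.mem_inf]
    refine ⟨(mem_normalizer_iff''.1 hgT d).1 (hDT hd), ?_⟩
    rw [mem_centralizer_iff]
    intro w hw
    have hw' : g * w * g⁻¹ ∈ W := (mem_normalizer_iff.1 hgW w).1 hw
    have h3 := hDW d hd _ hw'
    calc w * (g⁻¹ * d * g) = g⁻¹ * (g * w * g⁻¹ * d) * g := by group
      _ = g⁻¹ * (d * (g * w * g⁻¹)) * g := by rw [h3]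
      _ = g⁻¹ * d * g * w := by group
  have hWE : W ≤ normalizer (E : Set G) := by
    apply Cfsg.Agent.Lib.Helper72.HH.le_normalizer_of_conj_mem
    intro w hw x hx
    refine hinv w (h.WP hw) (fun d hd => ?_) x hx
    have h3 := hDW d hd w hw
    have e : w⁻¹ * d * w = d := by rw [mul_assoc, ← h3, inv_mul_cancel_left]
    rw [e]; exact hd
  have hTE : T ≤ normalizer (E : Set G) := by
    apply Cfsg.Agent.Lib.Helper72.HH.le_normalizer_of_conj_mem
    intro t ht x hx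
    exact hinv t (h.TP ht) (hDinv t (le_normalizer ht) (h.TW ht)) x hx
  have hYE : Y ≤ normalizer (E : Set G) := by
    apply Cfsg.Agent.Lib.Helper72.HH.le_normalizer_of_conj_mem
    intro y hy x hx
    exact hinv y (h.YP hy) (hDinv y (h.YT hy) (h.YW hy)) x hx
  have hEP : E ≤ P := fun x hx => ((hE x).1 hx).1
  have hEeq : E = P := by
    by_contra hEne
    have hWcE := hmin E hEP hEne hWE hTE hYE
    have hEZ : E ≤ Z := by
      rw [← hcPW]
      refine le_inf hEP ?_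
      intro x hx
      rw [mem_centralizer_iff]
      intro w hw
      exact (mem_centralizer_iff.1 (hWcE hw) x hx).symm
    exact hx₀Z (hEZ ((hE x₀).2 ⟨hx₀P, fun d hd => hx₀ d (le_sup_right (a := P) hd)⟩))
  have hall : ∀ x ∈ P, ∀ d ∈ D, ⁅x, d⁆ ∈ Z := by
    intro x hx
    have hx' : x ∈ E := hEeq ▸ hx
    exact ((hE x).1 hx').2
  intro d hd
  have hK : P ≤ centralizer ({d} : Set G) := by
    have hK' : ⁅P, W⁆ ≤ centralizer ({d} : Set G) := by
      rw [Subgroup.commutator_le]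
      intro x hx w hw
      rw [mem_centralizer_iff]
      intro d' hd'
      rw [Set.mem_singleton_iff] at hd'
      subst hd'
      have hcZ := hall x hx d' hd
      refine dcent_comm (c := ⁅x, d'⁆) ?_ ?_ ?_ (hDW d' hd w hw)
      · rw [commutatorElement_def]; group
      · exact mem_centralizer_iff.1 (hPZ hx) _ hcZ
      · exact mem_centralizer_iff.1 (h.WZ hw) _ hcZ
    rwa [hPW] at hK'
  rw [mem_centralizer_iff]
  intro x hx
  exact (mem_centralizer_iff.1 (hK hx) d rfl).symm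

end Cfsg.Agent.Lib.Helper18.TL
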