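import Mathlib
import Cfsg.Prelude.Def_Solvable
import Cfsg.Agent.Lib.Helper18.TLDefs
import Cfsg.Agent.Lib.Helper30.Cores
import Cfsg.Agent.Lib.Helper12.CharTwo
import Cfsg.Agent.Lib.Helper79.TLPCZ
import Cfsg.Agent.Lib.Helper79.TLZCENT
import Cfsg.Agent.Lib.Helper72.HHFit
import Cfsg.Agent.Lib.Helper1.Coprime

/-! S3797 (helper18, Thompson 2-length one), piece INIT: the initial admissible triple. -/

set_option autoImplicit false

namespace Cfsg.Agent.Lib.Helper18.TL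

open Subgroup
open scoped commutatorElement Pointwise

universe u

variable {G : Type u} [Group G]

private theorem init_mem_of_coprime_pow (S : Subgroup G) (x : G) (a b : ℕ)
    (hab : Nat.Coprime a b) (ha : x ^ a ∈ S) (hb : x ^ b = 1) : x ∈ S := by
  have h1 : (1 : ℤ) = a * Nat.gcdA a b + b * Nat.gcdB a b := by
    have h2 := Nat.gcd_eq_gcd_ab a b
    rw [Nat.Coprime.gcd_eq_one hab] at h2
    exact_mod_cast h2
  have h2 : x = (x ^ a) ^ (Nat.gcdA a b) * (x ^ b) ^ (Nat.gcdB a b) := by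
    rw [← zpow_natCast x a, ← zpow_natCast x b, ← zpow_mul, ← zpow_mul, ← zpow_add, ← h1,
      zpow_one]
  rw [h2, hb, one_zpow, mul_one]
  exact S.zpow_mem ha _

/-- powers of `a * y` with `a ∈ A` and `y` normalizing `A`. -/
private theorem init_pow_mul {A : Subgroup G} {a y : G} (ha : a ∈ A)
    (hy : y ∈ normalizer (A : Set G)) (n : ℕ) : ∃ a' ∈ A, (a * y) ^ n = a' * y ^ n := by
  induction n with
  | zero => exact ⟨1, A.one_mem, by simp⟩
  | succ n ih =>
    obtain ⟨a', ha', h⟩ := ih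
    have hyn : y ^ n ∈ normalizer (A : Set G) := Subgroup.pow_mem _ hy n
    have h1 : y ^ n * a * (y ^ n)⁻¹ ∈ A := (mem_normalizer_iff.1 hyn a).1 ha
    refine ⟨a' * (y ^ n * a * (y ^ n)⁻¹), A.mul_mem ha' h1, ?_⟩
    rw [pow_succ, h, pow_succ]
    group

-- piece INIT
theorem init_adm [Finite G] {Z L A S1 Y : Subgroup G} (hA : Amb G Z) (hZL : Z ≤ L)
    (htop : Cfsg.pCore 2 G ⊔ L = ⊤) (hAL : A ≤ L) (hSL : S1 ≤ L) (hYL : Y ≤ L)
    (hLA : L ≤ normalizer (A : Set G)) (hoddA : Odd (Nat.card A)) (hS1 : IsPGroup 2 S1)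
    (hoddY : Odd (Nat.card Y)) (hYS : Y ≤ normalizer (S1 : Set G))
    (hsplit : ∀ g ∈ L, ∃ a ∈ A, ∃ s ∈ S1, ∃ y ∈ Y, g = a * s * y)
    (hmax : ∀ Q : Subgroup G, Q ≤ L → IsPGroup 2 Q → L ≤ normalizer (Q : Set G) → Q ≤ S1) :
    (∀ S : Sylow 2 G, (S : Subgroup G).Normal) ∨
      (Cfg Z Y ∧ Adm Z Y (Cfsg.pCore 2 G) A S1) := by
  have : Fact (Nat.Prime 2) := ⟨Nat.prime_two⟩
  have hsolv : Group.IsSolvable G := hA.solv
  have hZn : Z.Normal := pcz_normal hA
  obtain ⟨hZP, hPZ⟩ := pcore_Z hA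
  have hTL : TransOn Z L := trans_L hA htop
  have hZp : IsPGroup 2 Z := by
    intro g
    refine ⟨1, ?_⟩
    have h1 := (hA.memZ g).mp g.2
    apply Subtype.ext
    simpa using h1
  have hred : Cfsg.pPrimeCore 2 G = ⊥ := by
    have := Cfsg.Agent.Lib.Helper30.pPrimeCore_characteristic (G := G) 2
    apply hA.oddcore _ inferInstance
    exact Nat.coprime_two_right.mp (Cfsg.Agent.Lib.Helper30.pPrimeCore_coprime 2)
  have hCO' := Cfsg.Agent.Lib.Helper12.centralizer_pCore_two_le hred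
  have hPn' : (Cfsg.pCore 2 G).Normal := by
    have := Cfsg.Agent.Lib.Helper30.pCore_characteristic (G := G) 2
    infer_instance
  have hPp' : IsPGroup 2 (Cfsg.pCore 2 G) := Cfsg.Agent.Lib.Helper30.pCore_isPGroup 2
  obtain ⟨P, hP⟩ : ∃ P : Subgroup G, P = Cfsg.pCore 2 G := ⟨_, rfl⟩
  rw [← hP] at htop hZP hPZ hCO' hPn' hPp' ⊢
  have hPN : ∀ H : Subgroup G, H ≤ normalizer (P : Set G) := fun H => by
    rw [normalizer_eq_top]; exact le_top
  have hZS1 : Z ≤ S1 := hmax Z hZL hZp (by rw [normalizer_eq_top]; exact le_top)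
  have hcop : ∀ x : G, x ∈ A → (∃ k : ℕ, x ^ (2 ^ k) = 1) → x = 1 := by
    rintro x hx ⟨k, hk⟩
    have h1 : orderOf x ∣ 2 ^ k := orderOf_dvd_of_pow_eq_one hk
    have h2 : orderOf x ∣ Nat.card A := Subgroup.orderOf_dvd_natCard A hx
    have h3 : Nat.Coprime (2 ^ k) (Nat.card A) :=
      Nat.Coprime.pow_left k (Nat.coprime_two_left.2 hoddA)
    have h4 : orderOf x = 1 := Nat.eq_one_of_dvd_coprimes h3 h1 h2
    exact orderOf_eq_one_iff.1 h4
  have hAZ : A ≤ centralizer (Z : Set G) := by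
    intro a ha
    rw [mem_centralizer_iff]
    intro z hz
    have hzA : z * a * z⁻¹ ∈ A := (mem_normalizer_iff.1 (hLA (hZL hz)) a).1 ha
    have h1 : z * a * z⁻¹ * a⁻¹ ∈ A := A.mul_mem hzA (A.inv_mem ha)
    have h2 : z * a * z⁻¹ * a⁻¹ ∈ Z := by
      have h3 := Z.mul_mem hz (hZn.conj_mem z⁻¹ (Z.inv_mem hz) a)
      have e : z * a * z⁻¹ * a⁻¹ = z * (a * z⁻¹ * a⁻¹) := by group
      rw [e]; exact h3
    have h3 := hcop _ h1 ⟨1, by rw [pow_one]; exact (hA.memZ _).1 h2⟩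
    calc z * a = (z * a * z⁻¹ * a⁻¹) * (a * z) := by group
      _ = a * z := by rw [h3, one_mul]
  have hTSY : TransOn Z (S1 ⊔ Y) := by
    intro z hz z' hz' hz1 hz1'
    obtain ⟨g, hg, hgz⟩ := hTL z hz z' hz' hz1 hz1'
    obtain ⟨a, ha, s, hs, y, hy, rfl⟩ := hsplit g hg
    refine ⟨s * y, Subgroup.mul_mem _ (le_sup_left (b := Y) hs) (le_sup_right (a := S1) hy), ?_⟩
    have hc : z' * a = a * z' := mem_centralizer_iff.1 (hAZ ha) z' hz'
    have e1 : a⁻¹ * z' * a = z' := by rw [mul_assoc, hc, inv_mul_cancel_left]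
    calc s * y * z * (s * y)⁻¹ = a⁻¹ * (a * s * y * z * (a * s * y)⁻¹) * a := by group
      _ = a⁻¹ * z' * a := by rw [hgz]
      _ = z' := e1
  have hS1Z : S1 ≤ centralizer (Z : Set G) :=
    Z_cent hA hS1 hZS1 (sup_le le_normalizer hYS) hTSY
  have hTY : TransOn Z Y := by
    intro z hz z' hz' hz1 hz1'
    obtain ⟨g, hg, hgz⟩ := hTL z hz z' hz' hz1 hz1'
    obtain ⟨a, ha, s, hs, y, hy, rfl⟩ := hsplit g hg
    refine ⟨y, hy, ?_⟩
    have hc : z' * a = a * z' := mem_centralizer_iff.1 (hAZ ha) z' hz'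
    have hc' : z' * s = s * z' := mem_centralizer_iff.1 (hS1Z hs) z' hz'
    have e1 : a⁻¹ * z' * a = z' := by rw [mul_assoc, hc, inv_mul_cancel_left]
    have e2 : s⁻¹ * z' * s = z' := by rw [mul_assoc, hc', inv_mul_cancel_left]
    calc y * z * y⁻¹ = s⁻¹ * (a⁻¹ * (a * s * y * z * (a * s * y)⁻¹) * a) * s := by group
      _ = s⁻¹ * (a⁻¹ * z' * a) * s := by rw [hgz]
      _ = z' := by rw [e1, e2]
  by_cases hnt : ⁅A, S1⁆ ≤ centralizer (P : Set G)
  · left
    have hAS : ∀ a ∈ A, ∀ s ∈ S1, a * s = s * a := by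
      intro a ha s hs
      have h1 : ⁅a, s⁆ ∈ P := hCO' (hnt (Subgroup.commutator_mem_commutator ha hs))
      have h2 : ⁅a, s⁆ ∈ A := by
        have h3 := A.mul_mem ha ((mem_normalizer_iff.1 (hLA (hSL hs)) a⁻¹).1 (A.inv_mem ha))
        have e : ⁅a, s⁆ = a * (s * a⁻¹ * s⁻¹) := by
          rw [commutatorElement_def]; group
        rw [e]; exact h3
      have h3 : ⁅a, s⁆ = 1 := hcop _ h2 (by
        obtain ⟨k, hk⟩ := hPp' ⟨_, h1⟩
        exact ⟨k, by simpa using congrArg Subtype.val hk⟩)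
      rw [commutatorElement_eq_one_iff_mul_comm] at h3
      exact h3
    have hAN : A ≤ normalizer (S1 : Set G) := by
      apply Cfsg.Agent.Lib.Helper72.HH.le_normalizer_of_conj_mem
      intro a ha s hs
      have e : a * s * a⁻¹ = s := by rw [hAS a ha s hs, mul_inv_cancel_right]
      rw [e]; exact hs
    have hLS : L ≤ normalizer (S1 : Set G) := by
      intro g hg
      obtain ⟨a, ha, s, hs, y, hy, rfl⟩ := hsplit g hg
      exact Subgroup.mul_mem _ (Subgroup.mul_mem _ (hAN ha) (le_normalizer hs)) (hYS hy)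
    have hS1P : S1 ≤ P := by
      have hQp : IsPGroup 2 (P ⊔ S1 : Subgroup G) :=
        IsPGroup.to_sup_of_normal_left' hPp' hS1 (hPN S1)
      have hQn : (P ⊔ S1 : Subgroup G).Normal := by
        rw [← normalizer_eq_top_iff, eq_top_iff, ← htop]
        refine sup_le (le_sup_left.trans le_normalizer) ?_
        intro g hg
        rw [Cfsg.Agent.Lib.Helper1.mem_normalizer_iff_conj_smul, Subgroup.smul_sup,
          (Cfsg.Agent.Lib.Helper1.mem_normalizer_iff_conj_smul g P).mp (hPN L hg),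
          (Cfsg.Agent.Lib.Helper1.mem_normalizer_iff_conj_smul g S1).mp (hLS hg)]
      have hQle : P ⊔ S1 ≤ P := by
        have := Cfsg.Agent.Lib.Helper30.le_pCore_of_normal hQn hQp
        rwa [← hP] at this
      exact le_sup_right.trans hQle
    intro S
    have hSP : (S : Subgroup G) ≤ P := by
      intro g hg
      have hgmem : g ∈ ((P ⊔ L : Subgroup G) : Set G) := by
        rw [htop]; exact Subgroup.mem_top g
      rw [Subgroup.normal_mul] at hgmem
      obtain ⟨p, hp, l, hl, rfl⟩ := Set.mem_mul.mp hgmem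
      obtain ⟨a, ha, s, hs, y, hy, rfl⟩ := hsplit l hl
      have hp2 : p * (a * s * a⁻¹) ∈ P := P.mul_mem hp (hPn'.conj_mem s (hS1P hs) a)
      have hay : a * y ∈ normalizer (P : Set G) := hPN ⊤ (mem_top _)
      obtain ⟨k, hk⟩ := S.isPGroup' ⟨_, hg⟩
      have e : p * (a * s * y) = p * (a * s * a⁻¹) * (a * y) := by group
      have hk' : (p * (a * s * a⁻¹) * (a * y)) ^ (2 ^ k) = 1 := by
        rw [← e]; simpa using congrArg Subtype.val hk
      obtain ⟨p', hp', h1⟩ := init_pow_mul hp2 hay (2 ^ k)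
      have h2 : (a * y) ^ (2 ^ k) ∈ P := by
        have h3 : (a * y) ^ (2 ^ k) = p'⁻¹ := by
          rw [hk'] at h1
          exact eq_inv_of_mul_eq_one_right h1.symm
        rw [h3]; exact P.inv_mem hp'
      obtain ⟨a', ha', h3⟩ := init_pow_mul ha (hLA (hYL hy)) (Nat.card Y)
      have h4 : y ^ Nat.card Y = 1 := by
        have h5 := congrArg Subtype.val (pow_card_eq_one' (G := Y) (x := ⟨y, hy⟩))
        simpa only [Subgroup.coe_pow, Subgroup.coe_one] using h5
      have h5 : (a * y) ^ (Nat.card Y * Nat.card A) = 1 := by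
        rw [pow_mul, h3, h4, mul_one]
        have h6 := congrArg Subtype.val (pow_card_eq_one' (G := A) (x := ⟨a', ha'⟩))
        simpa only [Subgroup.coe_pow, Subgroup.coe_one] using h6
      have hodd : Nat.Coprime (2 ^ k) (Nat.card Y * Nat.card A) :=
        Nat.Coprime.pow_left k (Nat.coprime_two_left.2 (hoddY.mul hoddA))
      have h6 : a * y ∈ P := init_mem_of_coprime_pow P (a * y) _ _ hodd h2 h5
      rw [e]; exact P.mul_mem hp2 h6
    have hSeq : P = (S : Subgroup G) := S.is_maximal' hPp' hSP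
    rw [← hSeq]; exact hPn'
  · right
    exact ⟨⟨hA, hoddY, hTY⟩, ⟨hPp', hS1, hoddA, hPN Y, hYL.trans hLA, hYS, hPN S1,
      hSL.trans hLA, hPN A, hZS1, hS1Z, hAZ, hnt⟩⟩

end Cfsg.Agent.Lib.Helper18.TL
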