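import Mathlib
import Cfsg.Agent.Lib.Helper18.TLDefs
import Cfsg.Agent.Lib.Helper72.ZGNf
import Cfsg.Agent.Lib.Helper1.Coprime

/-! S3797 (helper18, Thompson 2-length one), piece PCOMM: `[P, W] = P`. -/

set_option autoImplicit false

namespace Cfsg.Agent.Lib.Helper18.TL

open Subgroup
open scoped commutatorElement

universe u

variable {G : Type u} [Group G]

private theorem pcomm_norm_comm {K A B : Subgroup G} (hA : K ≤ normalizer (A : Set G))
    (hB : K ≤ normalizer (B : Set G)) : K ≤ normalizer ((⁅A, B⁆ : Subgroup G) : Set G) := by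
  intro k hk
  rw [Cfsg.Agent.Lib.Helper1.mem_normalizer_iff_conj_smul,
    Cfsg.Agent.Lib.Helper1.conj_smul_commutator,
    (Cfsg.Agent.Lib.Helper1.mem_normalizer_iff_conj_smul k A).mp (hA hk),
    (Cfsg.Agent.Lib.Helper1.mem_normalizer_iff_conj_smul k B).mp (hB hk)]

-- piece PCOMM
theorem P_comm [Finite G] {Z Y P W T : Subgroup G} (h : Adm Z Y P W T) (hWT : ⁅W, T⁆ = W)
    (hmin : ∀ P' : Subgroup G, P' ≤ P → P' ≠ P → W ≤ normalizer (P' : Set G) →
      T ≤ normalizer (P' : Set G) → Y ≤ normalizer (P' : Set G) →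
      W ≤ centralizer (P' : Set G)) :
    ⁅P, W⁆ = P := by
  by_contra hne
  have hle : ⁅P, W⁆ ≤ P := Cfsg.Agent.Lib.Helper1.commutator_le_of_le_normalizer h.WP
  have hW : W ≤ normalizer ((⁅P, W⁆ : Subgroup G) : Set G) :=
    Cfsg.Agent.Lib.Helper1.le_normalizer_commutator h.WP
  have hT := pcomm_norm_comm h.TP h.TW
  have hY := pcomm_norm_comm h.YP h.YW
  have hc := hmin ⁅P, W⁆ hle hne hW hT hY
  have h1 : ⁅⁅P, W⁆, W⁆ = ⊥ := by
    rw [commutator_eq_bot_iff_le_centralizer]
    exact le_centralizer_iff.1 hc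
  haveI : Fact (Nat.Prime 2) := ⟨Nat.prime_two⟩
  have hsolv : Group.IsSolvable P := by
    haveI : Group.IsNilpotent P := h.pP.isNilpotent
    infer_instance
  have hcop : (Nat.card W).Coprime (Nat.card P) := by
    obtain ⟨n, hn⟩ := (IsPGroup.iff_card).1 h.pP
    rw [hn]
    exact Nat.Coprime.pow_right n (Nat.coprime_two_right.2 h.oddW)
  have h2 := Cfsg.Agent.Lib.Helper72.ZG.commutator_commutator_eq h.WP
    (Cfsg.Agent.Lib.Helper72.ZG.le_cent_mul_commutator h.WP hcop (Or.inr hsolv))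
  rw [h2] at h1
  have h4 : W ≤ centralizer (P : Set G) := by
    rw [commutator_eq_bot_iff_le_centralizer] at h1
    exact le_centralizer_iff.1 h1
  apply h.nontriv
  rw [hWT]; exact h4

end Cfsg.Agent.Lib.Helper18.TL
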