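import Mathlib
import Cfsg.Agent.Lib.Helper18.TLDefs
import Cfsg.Agent.Lib.Helper72.Frattini
import Cfsg.Agent.Lib.Helper55.Frat

/-! S3797 (helper18, Thompson 2-length one), piece PSQ: squares of `P` lie in `P'`, `P' ≤ Z`. -/

set_option autoImplicit false

namespace Cfsg.Agent.Lib.Helper18.TL

open Subgroup
open scoped commutatorElement

universe u

variable {G : Type u} [Group G]

-- piece PSQ
theorem P_sq [Finite G] {Z Y P W T : Subgroup G} (hC : Cfg Z Y) (h : Adm Z Y P W T)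
    (hWT : ⁅W, T⁆ = W)
    (hmin : ∀ P' : Subgroup G, P' ≤ P → P' ≠ P → W ≤ normalizer (P' : Set G) →
      T ≤ normalizer (P' : Set G) → Y ≤ normalizer (P' : Set G) →
      W ≤ centralizer (P' : Set G))
    (hPW : ⁅P, W⁆ = P) (hc1 : ⁅P, P⁆ ≤ centralizer (W : Set G))
    (hc2 : ⁅P, P⁆ ≤ centralizer (P : Set G)) :
    (∀ x ∈ P, x ^ 2 ∈ ⁅P, P⁆) ∧ ⁅P, P⁆ ≤ Z := by
  haveI : Fact (Nat.Prime 2) := ⟨Nat.prime_two⟩
  have hPne : P ≠ ⊥ := by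
    intro hP
    apply h.nontriv
    rw [hP]
    intro x _
    rw [mem_centralizer_iff]
    intro y hy
    have hy1 : y = 1 := by simpa using hy
    rw [hy1, one_mul, mul_one]
  -- the Frattini subgroup of `P`
  obtain ⟨Φ, hΦ⟩ : ∃ Φ : Subgroup G, Φ = (frattini P).map P.subtype := ⟨_, rfl⟩
  have hΦP : Φ ≤ P := by
    rw [hΦ]
    rintro _ ⟨y, -, rfl⟩
    exact y.2
  have hΦne : Φ ≠ P := by
    intro hE
    haveI : Nontrivial P := (Subgroup.nontrivial_iff_ne_bot P).2 hPne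
    have htop : frattini P = ⊤ := by
      apply map_injective P.subtype_injective
      rw [← hΦ, hE, ← MonoidHom.range_eq_map, range_subtype]
    rcases eq_top_or_exists_le_coatom (⊥ : Subgroup P) with h0 | ⟨M, hM, -⟩
    · exact bot_ne_top h0
    · have h1 : ∀ x : P, x ∈ M := fun x =>
        Cfsg.Agent.Lib.Helper72.mem_frattini_iff.1 (by rw [htop]; exact mem_top x) M hM
      exact hM.1 (eq_top_iff.2 fun x _ => h1 x)
  have hWΦ : W ≤ normalizer (Φ : Set G) := by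
    rw [hΦ]; exact Cfsg.Agent.Lib.Helper55.le_normalizer_frattini h.WP
  have hTΦ : T ≤ normalizer (Φ : Set G) := by
    rw [hΦ]; exact Cfsg.Agent.Lib.Helper55.le_normalizer_frattini h.TP
  have hYΦ : Y ≤ normalizer (Φ : Set G) := by
    rw [hΦ]; exact Cfsg.Agent.Lib.Helper55.le_normalizer_frattini h.YP
  have hcΦ := hmin Φ hΦP hΦne hWΦ hTΦ hYΦ
  have hsqΦ : ∀ x ∈ P, x ^ 2 ∈ Φ := by
    intro x hx
    rw [hΦ]
    exact ⟨(⟨x, hx⟩ : P) ^ 2, Cfsg.Agent.Lib.Helper72.pow_mem_frattini h.pP _, rfl⟩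
  -- `W` centralizes the squares of `P`
  have hWsq : ∀ x ∈ P, ∀ w ∈ W, w * x ^ 2 * w⁻¹ = x ^ 2 := by
    intro x hx w hw
    have h1 := (mem_centralizer_iff.1 (hcΦ hw)) (x ^ 2) (hsqΦ x hx)
    rw [← h1, mul_inv_cancel_right]
  -- commutators are central in `P`
  have hcen : ∀ c ∈ ⁅P, P⁆, ∀ x ∈ P, x * c = c * x := fun c hc x hx =>
    mem_centralizer_iff.1 (hc2 hc) x hx
  have hPP : ⁅P, P⁆ ≤ P := by
    rw [commutator_le]
    intro a ha b hb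
    exact P.mul_mem (P.mul_mem (P.mul_mem ha hb) (P.inv_mem ha)) (P.inv_mem hb)
  -- the subgroup of the elements of `P` with square in `P'`
  have hmul : ∀ g ∈ P, ∀ g' ∈ P, g ^ 2 ∈ ⁅P, P⁆ → g' ^ 2 ∈ ⁅P, P⁆ → (g * g') ^ 2 ∈ ⁅P, P⁆ := by
    intro g hg g' hg' h1 h2
    have e : (g * g') ^ 2 = g ^ 2 * ⁅g⁻¹, g'⁆ * g' ^ 2 := by
      rw [commutatorElement_def]; simp only [pow_two]; group
    rw [e]
    exact mul_mem (mul_mem h1 (commutator_mem_commutator (P.inv_mem hg) hg')) h2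
  let Q : Subgroup G :=
    { carrier := {g | g ∈ P ∧ g ^ 2 ∈ ⁅P, P⁆}
      mul_mem' := by
        rintro a b ⟨ha, ha2⟩ ⟨hb, hb2⟩
        exact ⟨P.mul_mem ha hb, hmul a ha b hb ha2 hb2⟩
      one_mem' := ⟨P.one_mem, by rw [one_pow]; exact one_mem _⟩
      inv_mem' := by
        rintro a ⟨ha, ha2⟩
        refine ⟨P.inv_mem ha, ?_⟩
        rw [inv_pow]; exact inv_mem ha2 }
  have hQ : ⁅P, W⁆ ≤ Q := by
    rw [commutator_le]
    intro x hx w hw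
    have hy : w * x⁻¹ * w⁻¹ ∈ P :=
      (mem_normalizer_iff.1 (h.WP hw) x⁻¹).1 (P.inv_mem hx)
    have e1 : ⁅x, w⁆ = x * (w * x⁻¹ * w⁻¹) := by rw [commutatorElement_def]; group
    have hy2 : (w * x⁻¹ * w⁻¹) ^ 2 = (x ^ 2)⁻¹ := by
      have e2 : (w * x⁻¹ * w⁻¹) ^ 2 = w * (x⁻¹) ^ 2 * w⁻¹ := by simp only [pow_two]; group
      rw [e2, hWsq x⁻¹ (P.inv_mem hx) w hw, inv_pow]
    refine ⟨by rw [e1]; exact P.mul_mem hx hy, ?_⟩
    have e3 : (x * (w * x⁻¹ * w⁻¹)) ^ 2 =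
        x ^ 2 * ⁅x⁻¹, w * x⁻¹ * w⁻¹⁆ * (w * x⁻¹ * w⁻¹) ^ 2 := by
      rw [commutatorElement_def]; simp only [pow_two]; group
    have hcc : ⁅x⁻¹, w * x⁻¹ * w⁻¹⁆ ∈ ⁅P, P⁆ := commutator_mem_commutator (P.inv_mem hx) hy
    have hx2 : x ^ 2 ∈ P := P.pow_mem hx 2
    have e4 : x ^ 2 * ⁅x⁻¹, w * x⁻¹ * w⁻¹⁆ * (x ^ 2)⁻¹ = ⁅x⁻¹, w * x⁻¹ * w⁻¹⁆ := by
      rw [hcen _ hcc _ hx2, mul_inv_cancel_right]
    rw [e1, e3, hy2, e4]
    exact hcc
  have hsq : ∀ x ∈ P, x ^ 2 ∈ ⁅P, P⁆ := by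
    intro x hx
    have hxQ : x ∈ Q := hQ (by rw [hPW]; exact hx)
    exact hxQ.2
  refine ⟨hsq, ?_⟩
  -- commutators have square one
  have hcsq : ∀ x ∈ P, ∀ y ∈ P, ⁅x, y⁆ ^ 2 = 1 := by
    intro x hx y hy
    have hcc : ⁅x, y⁆ ∈ ⁅P, P⁆ := commutator_mem_commutator hx hy
    have e1 : ⁅x ^ 2, y⁆ = x * ⁅x, y⁆ * x⁻¹ * ⁅x, y⁆ := by
      rw [commutatorElement_def, commutatorElement_def]; simp only [pow_two]; group
    have e2 : x * ⁅x, y⁆ * x⁻¹ = ⁅x, y⁆ := by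
      rw [hcen _ hcc x hx, mul_inv_cancel_right]
    have e3 : ⁅x ^ 2, y⁆ = 1 := by
      have := hcen _ (hsq x hx) y hy
      rw [commutatorElement_def, ← this]; group
    calc ⁅x, y⁆ ^ 2 = ⁅x, y⁆ * ⁅x, y⁆ := pow_two _
      _ = x * ⁅x, y⁆ * x⁻¹ * ⁅x, y⁆ := by rw [e2]
      _ = ⁅x ^ 2, y⁆ := e1.symm
      _ = 1 := e3
  let S2 : Subgroup G :=
    { carrier := {c | c ∈ ⁅P, P⁆ ∧ c ^ 2 = 1}
      mul_mem' := by
        rintro a b ⟨ha, ha2⟩ ⟨hb, hb2⟩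
        refine ⟨mul_mem ha hb, ?_⟩
        have hba : b * a = a * b := hcen a ha b (hPP hb)
        calc (a * b) ^ 2 = a * (b * a) * b := by simp only [pow_two]; group
          _ = a ^ 2 * b ^ 2 := by rw [hba]; simp only [pow_two]; group
          _ = 1 := by rw [ha2, hb2, one_mul]
      one_mem' := ⟨one_mem _, one_pow 2⟩
      inv_mem' := by
        rintro a ⟨ha, ha2⟩
        exact ⟨inv_mem ha, by rw [inv_pow, ha2, inv_one]⟩ }
  have hS2 : ⁅P, P⁆ ≤ S2 := by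
    rw [commutator_le]
    intro x hx y hy
    exact ⟨commutator_mem_commutator hx hy, hcsq x hx y hy⟩
  intro c hc
  exact (hC.amb.memZ c).2 (hS2 hc).2

end Cfsg.Agent.Lib.Helper18.TL
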