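import Mathlib
import Cfsg.Agent.Lib.Helper18.TLDefs
import Cfsg.Agent.Lib.Helper72.Frattini
import Cfsg.Agent.Lib.Helper72.HHFit
import Cfsg.Agent.Lib.Helper55.Frat
import Cfsg.Agent.Lib.Helper1.Coprime

/-! S3797 (helper18, Thompson 2-length one), piece TSQ: squares and commutators of `T`
centralize `W`. -/

set_option autoImplicit false

namespace Cfsg.Agent.Lib.Helper18.TL

open Subgroup
open scoped commutatorElement Pointwise

universe u

variable {G : Type u} [Group G]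

-- piece TSQ
theorem T_sq [Finite G] {Z Y P W T : Subgroup G} (h : Adm Z Y P W T) (hWT : ⁅W, T⁆ = W)
    (hmax : ∀ T' : Subgroup G, Z ≤ T' → T' ≤ T → T' ≠ T → Y ≤ normalizer (T' : Set G) →
      T' ≤ centralizer (W : Set G)) :
    (∀ a ∈ T, a ^ 2 ∈ centralizer (W : Set G)) ∧
      (∀ a ∈ T, ∀ b ∈ T, ⁅a, b⁆ ∈ centralizer (W : Set G)) := by
  haveI : Fact (Nat.Prime 2) := ⟨Nat.prime_two⟩
  obtain ⟨Φ, hΦ⟩ : ∃ Φ : Subgroup G, Φ = (frattini T).map T.subtype := ⟨_, rfl⟩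
  have hΦT : Φ ≤ T := by
    rw [hΦ]
    rintro _ ⟨y, -, rfl⟩
    exact y.2
  have hYΦ : Y ≤ normalizer (Φ : Set G) := by
    rw [hΦ]; exact Cfsg.Agent.Lib.Helper55.le_normalizer_frattini h.YT
  have hsqΦ : ∀ a ∈ T, a ^ 2 ∈ Φ := by
    intro a ha
    rw [hΦ]
    exact ⟨(⟨a, ha⟩ : T) ^ 2, Cfsg.Agent.Lib.Helper72.pow_mem_frattini h.pT _, rfl⟩
  have hcommΦ : ∀ a ∈ T, ∀ b ∈ T, ⁅a, b⁆ ∈ Φ := by
    intro a ha b hb
    rw [hΦ]
    exact ⟨(⟨a, ha⟩ : T) * ⟨b, hb⟩ * (⟨a, ha⟩ : T)⁻¹ * (⟨b, hb⟩ : T)⁻¹,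
      Cfsg.Agent.Lib.Helper72.comm_mem_frattini h.pT _ _, rfl⟩
  -- the `Y`-closure of `Z`
  obtain ⟨ZY, hZY⟩ : ∃ ZY : Subgroup G,
      ZY = closure {g | ∃ y ∈ Y, ∃ z ∈ Z, g = y * z * y⁻¹} := ⟨_, rfl⟩
  have hZZY : Z ≤ ZY := by
    intro z hz
    rw [hZY]
    exact Subgroup.subset_closure ⟨1, Y.one_mem, z, hz, by simp⟩
  have hZYT : ZY ≤ T := by
    rw [hZY, closure_le]
    rintro _ ⟨y, hy, z, hz, rfl⟩
    exact (mem_normalizer_iff.1 (h.YT hy) z).1 (h.ZT hz)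
  have hZYW : ZY ≤ centralizer (W : Set G) := by
    rw [hZY, closure_le]
    rintro _ ⟨y, hy, z, hz, rfl⟩
    rw [SetLike.mem_coe, mem_centralizer_iff]
    intro w hw
    have hw' : y⁻¹ * w * y ∈ W := (mem_normalizer_iff''.1 (h.YW hy) w).1 hw
    have hz' := mem_centralizer_iff.1 (h.WZ hw') z hz
    calc w * (y * z * y⁻¹) = y * ((y⁻¹ * w * y) * z) * y⁻¹ := by group
      _ = y * (z * (y⁻¹ * w * y)) * y⁻¹ := by rw [hz']
      _ = y * z * y⁻¹ * w := by group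
  have hYZY : Y ≤ normalizer (ZY : Set G) := by
    apply Cfsg.Agent.Lib.Helper72.HH.le_normalizer_of_conj_mem
    intro y' hy' g hg
    have hle : ZY ≤ ZY.comap (MulAut.conj y').toMonoidHom := by
      rw [hZY, closure_le]
      rintro _ ⟨y, hy, z, hz, rfl⟩
      rw [SetLike.mem_coe, mem_comap]
      apply Subgroup.subset_closure
      refine ⟨y' * y, Y.mul_mem hy' hy, z, hz, ?_⟩
      simp [MulAut.conj_apply, mul_assoc]
    have := hle hg
    rw [mem_comap] at this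
    simpa [MulAut.conj_apply] using this
  have hYT' : Y ≤ normalizer ((ZY ⊔ Φ : Subgroup G) : Set G) := by
    intro y hy
    rw [Cfsg.Agent.Lib.Helper1.mem_normalizer_iff_conj_smul, Subgroup.smul_sup,
      (Cfsg.Agent.Lib.Helper1.mem_normalizer_iff_conj_smul y ZY).mp (hYZY hy),
      (Cfsg.Agent.Lib.Helper1.mem_normalizer_iff_conj_smul y Φ).mp (hYΦ hy)]
  have hT'T : ZY ⊔ Φ ≤ T := sup_le hZYT hΦT
  by_cases hT' : ZY ⊔ Φ = T
  · have h1 : ZY.subgroupOf T ⊔ frattini T = ⊤ := by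
      apply map_injective T.subtype_injective
      rw [Subgroup.map_sup, map_subgroupOf_eq_of_le hZYT, ← hΦ, hT', ← MonoidHom.range_eq_map,
        range_subtype]
    have h2 : ZY.subgroupOf T = ⊤ := frattini_nongenerating h1
    have h3 : T ≤ ZY := subgroupOf_eq_top.1 h2
    have h4 : T ≤ centralizer (W : Set G) := h3.trans hZYW
    refine ⟨fun a ha => h4 (T.pow_mem ha 2), fun a ha b hb => h4 ?_⟩
    rw [commutatorElement_def]
    exact T.mul_mem (T.mul_mem (T.mul_mem ha hb) (T.inv_mem ha)) (T.inv_mem hb)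
  · have h1 := hmax (ZY ⊔ Φ) (hZZY.trans le_sup_left) hT'T hT' hYT'
    have h2 : Φ ≤ centralizer (W : Set G) := le_sup_right.trans h1
    exact ⟨fun a ha => h2 (hsqΦ a ha), fun a ha b hb => h2 (hcommΦ a ha b hb)⟩

end Cfsg.Agent.Lib.Helper18.TL
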