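import Mathlib
import Cfsg.Agent.Lib.Helper52.LPDefs
set_option autoImplicit false
namespace Cfsg.Agent.Lib.Helper88.LP4
open Module QuadraticMap Matrix
open Cfsg Cfsg.Agent.Lib.Helper51 Cfsg.Agent.Lib.Helper52 Cfsg.Agent.Lib.Helper54
open Cfsg.Agent.Lib.Helper52.LP

/-- finite-field arithmetic: two irreducible polynomials `t² + t + ζ`, `t² + t + ζ'` are
related by a rational substitution. -/
theorem exists_pq {K : Type*} [Field K] [Finite K] (ζ ζ' : K)
    (h : ∀ t : K, t ^ 2 + t + ζ ≠ 0) (h' : ∀ t : K, t ^ 2 + t + ζ' ≠ 0) :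
    ∃ p q : K, q ≠ 0 ∧ 2 * p + q = 1 ∧ p ^ 2 + p * q + ζ * q ^ 2 = ζ' := by
  by_cases h2 : (2 : K) = 0
  · have hadd : ∀ x y : K, (x + y) ^ 2 = x ^ 2 + y ^ 2 := by
      intro x y
      linear_combination (x * y) * h2
    let φ : K →+ K :=
      { toFun := fun x => x ^ 2 + x
        map_zero' := by simp
        map_add' := by
          intro x y
          rw [hadd]
          ring }
    have hφ : ∀ x, φ x = x ^ 2 + x := fun _ => rfl
    have hker : Nat.card φ.ker = 2 := by
      rw [Nat.card_eq_two_iff]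
      refine ⟨⟨0, by simp⟩, ⟨1, ?_⟩, ?_, ?_⟩
      · rw [AddMonoidHom.mem_ker, hφ]
        linear_combination h2
      · intro h01
        have := congrArg Subtype.val h01
        simp at this
      · ext ⟨x, hx⟩
        simp only [Set.mem_insert_iff, Set.mem_singleton_iff, Set.mem_univ, iff_true,
          Subtype.mk.injEq]
        rw [AddMonoidHom.mem_ker, hφ] at hx
        have h3 : x * (x + 1) = 0 := by linear_combination hx
        rcases mul_eq_zero.mp h3 with h4 | h4
        · exact Or.inl h4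
        · right
          linear_combination h4 - h2
    have hidx : φ.range.index = 2 := by
      have h1 := AddSubgroup.card_mul_index φ.ker
      rw [AddSubgroup.index_ker, hker] at h1
      have h3 := AddSubgroup.card_mul_index φ.range
      have hpos : 0 < Nat.card φ.range := Nat.card_pos
      have : Nat.card φ.range * φ.range.index = Nat.card φ.range * 2 := by
        rw [h3, ← h1, mul_comm]
      exact Nat.eq_of_mul_eq_mul_left hpos this
    have hζ : ζ ∉ φ.range := by
      rintro ⟨t, ht⟩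
      rw [hφ] at ht
      exact h t (by linear_combination ht + ζ * h2)
    have hζ' : ζ' ∉ φ.range := by
      rintro ⟨t, ht⟩
      rw [hφ] at ht
      exact h' t (by linear_combination ht + ζ' * h2)
    have hmem : ζ + ζ' ∈ φ.range :=
      (AddSubgroup.add_mem_iff_of_index_two hidx).mpr (iff_of_false hζ hζ')
    obtain ⟨p, hp⟩ := hmem
    rw [hφ] at hp
    refine ⟨p, 1, one_ne_zero, by linear_combination p * h2, ?_⟩
    linear_combination hp + ζ * h2
  · have : Fintype K := Fintype.ofFinite K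
    classical
    have h4 : (4 : K) ≠ 0 := by
      have : (4 : K) = 2 * 2 := by norm_num
      rw [this]
      exact mul_ne_zero h2 h2
    have hD : ¬ IsSquare (1 - 4 * ζ) := by
      rintro ⟨s, hs⟩
      apply h ((s - 1) / 2)
      field_simp
      linear_combination (-1 : K) * hs
    have hD' : ¬ IsSquare (1 - 4 * ζ') := by
      rintro ⟨s, hs⟩
      apply h' ((s - 1) / 2)
      field_simp
      linear_combination (-1 : K) * hs
    have hD0 : (1 - 4 * ζ) ≠ 0 := by
      intro h0
      exact hD (h0 ▸ ⟨0, by simp⟩)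
    have hD0' : (1 - 4 * ζ') ≠ 0 := by
      intro h0
      exact hD' (h0 ▸ ⟨0, by simp⟩)
    have hsq : IsSquare ((1 - 4 * ζ) * (1 - 4 * ζ')) := by
      rw [← quadraticChar_one_iff_isSquare (mul_ne_zero hD0 hD0'), map_mul,
        quadraticChar_neg_one_iff_not_isSquare.mpr hD,
        quadraticChar_neg_one_iff_not_isSquare.mpr hD']
      norm_num
    obtain ⟨s0, hs0⟩ := hsq
    have hs00 : s0 ≠ 0 := by
      rintro rfl
      simp at hs0
      rcases hs0 with h0 | h0
      · exact hD0 h0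
      · exact hD0' h0
    set s := s0 / (1 - 4 * ζ) with hsdef
    have hs : s ^ 2 * (1 - 4 * ζ) = 1 - 4 * ζ' := by
      rw [hsdef]
      field_simp
      linear_combination (-1 : K) * hs0
    have hsne : s ≠ 0 := div_ne_zero hs00 hD0
    refine ⟨(1 + s) / 2, -s, neg_ne_zero.mpr hsne, by field_simp; ring, ?_⟩
    field_simp
    linear_combination (-1 : K) * hs

set_option linter.unusedSectionVars false

variable {ι : Type} [Fintype ι] [DecidableEq ι] {F : Type*} [Field F]
local notation "mt(" g ")" => ((g : Matrix.GeneralLinearGroup ι F) : Matrix ι ι F)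

/-- A linear equivalence commuting with `σ` is given by a `σ`-fixed invertible matrix. -/
theorem exists_mat_of_equiv (σ : F ≃+* F) (T : (ι → F) ≃ₗ[F] (ι → F))
    (hT : ∀ v : ι → F, T (fun i => σ (v i)) = fun i => σ (T v i)) :
    ∃ R : GL ι F, (mt(R)).map σ = mt(R) ∧ ∀ v : ι → F, mt(R) *ᵥ v = T v := by
  refine ⟨⟨LinearMap.toMatrix' T.toLinearMap, LinearMap.toMatrix' T.symm.toLinearMap, ?_, ?_⟩,
    ?_, ?_⟩
  · rw [← LinearMap.toMatrix'_comp]
    simp
  · rw [← LinearMap.toMatrix'_comp]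
    simp
  · ext i j
    simp only [Matrix.map_apply, LinearMap.toMatrix'_apply]
    have h1 := congrFun (hT (Pi.single j 1)) i
    have h2 : (fun i => σ ((Pi.single j (1 : F) : ι → F) i)) = Pi.single j (1 : F) := by
      funext i
      by_cases hij : i = j
      · subst hij
        simp
      · simp [hij]
    rw [h2] at h1
    exact h1.symm
  · intro v
    show LinearMap.toMatrix' T.toLinearMap *ᵥ v = T v
    rw [← Matrix.toLin'_apply, Matrix.toLin'_toMatrix']
    rfl

theorem symm_comm {E : Type} (σ : F ≃+* F) (L : (E → F) ≃ₗ[F] (ι → F))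
    (hL : ∀ v : E → F, L (fun i => σ (v i)) = fun i => σ (L v i)) (w : ι → F) :
    L.symm (fun i => σ (w i)) = fun i => σ (L.symm w i) := by
  apply L.injective
  rw [hL, L.apply_symm_apply, L.apply_symm_apply]

theorem split_sim {m : ℕ} (σ : F ≃+* F) (Q1 Q1' : QuadraticForm F (ι → F))
    (h : IsSplit m σ Q1) (h' : IsSplit m σ Q1') :
    ∃ (R : GL ι F) (c : Fˣ), (mt(R)).map σ = mt(R) ∧
      ∀ v : ι → F, Q1 (mt(R) *ᵥ v) = (c : F) * Q1' v := by
  obtain ⟨L, c, hLσ, hQ⟩ := h
  obtain ⟨L', c', hLσ', hQ'⟩ := h'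
  obtain ⟨R, hR1, hR2⟩ := exists_mat_of_equiv σ (L'.symm.trans L) (by
    intro v
    rw [LinearEquiv.trans_apply, symm_comm σ L' hLσ', hLσ]
    rfl)
  refine ⟨R, c * c'⁻¹, hR1, ?_⟩
  intro v
  rw [hR2, LinearEquiv.trans_apply, hQ]
  have h1 : Q1' v = (c' : F) * Cfsg.quadFormPlus m F (L'.symm v) := by
    rw [← hQ', L'.apply_symm_apply]
  rw [h1]
  push_cast
  field_simp

section ell

variable (k : ℕ) (p q : F)

/-- the linear map `(z₁, z₂) ↦ (z₁ + p z₂, q z₂)` on the binary part -/
def shearMap : ((Fin k ⊕ Fin k) ⊕ Fin 2 → F) →ₗ[F] ((Fin k ⊕ Fin k) ⊕ Fin 2 → F) :=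
  LinearMap.pi (fun e => Sum.elim (fun x => LinearMap.proj (Sum.inl x))
    (fun j => if j = 0 then LinearMap.proj (Sum.inr 0) + p • LinearMap.proj (Sum.inr 1)
      else q • LinearMap.proj (Sum.inr 1)) e)

theorem shearMap_inl (v : (Fin k ⊕ Fin k) ⊕ Fin 2 → F) (x : Fin k ⊕ Fin k) :
    shearMap k p q v (Sum.inl x) = v (Sum.inl x) := rfl

theorem shearMap_zero (v : (Fin k ⊕ Fin k) ⊕ Fin 2 → F) :
    shearMap k p q v (Sum.inr 0) = v (Sum.inr 0) + p * v (Sum.inr 1) := by
  simp [shearMap]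

theorem shearMap_one (v : (Fin k ⊕ Fin k) ⊕ Fin 2 → F) :
    shearMap k p q v (Sum.inr 1) = q * v (Sum.inr 1) := by
  simp [shearMap]

/-- the shear as a linear equivalence -/
def shearEquiv (hq : q ≠ 0) :
    ((Fin k ⊕ Fin k) ⊕ Fin 2 → F) ≃ₗ[F] ((Fin k ⊕ Fin k) ⊕ Fin 2 → F) :=
  LinearEquiv.ofLinearMap (shearMap k p q) (shearMap k (-p * q⁻¹) q⁻¹)
    (by
      apply LinearMap.ext
      intro v
      funext e
      rcases e with x | j
      · rfl
      · fin_cases j
        · show shearMap k p q (shearMap k (-p * q⁻¹) q⁻¹ v) (Sum.inr 0) = v (Sum.inr 0)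
          rw [shearMap_zero, shearMap_zero, shearMap_one]
          field_simp
          ring
        · show shearMap k p q (shearMap k (-p * q⁻¹) q⁻¹ v) (Sum.inr 1) = v (Sum.inr 1)
          rw [shearMap_one, shearMap_one]
          field_simp)
    (by
      apply LinearMap.ext
      intro v
      funext e
      rcases e with x | j
      · rfl
      · fin_cases j
        · show shearMap k (-p * q⁻¹) q⁻¹ (shearMap k p q v) (Sum.inr 0) = v (Sum.inr 0)
          rw [shearMap_zero, shearMap_zero, shearMap_one]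
          field_simp
          ring
        · show shearMap k (-p * q⁻¹) q⁻¹ (shearMap k p q v) (Sum.inr 1) = v (Sum.inr 1)
          rw [shearMap_one, shearMap_one]
          field_simp)

theorem shearEquiv_apply (hq : q ≠ 0) (v : (Fin k ⊕ Fin k) ⊕ Fin 2 → F) :
    shearEquiv k p q hq v = shearMap k p q v := rfl

theorem shear_sigma (σ : F ≃+* F) (hp : σ p = p) (hq : σ q = q)
    (v : (Fin k ⊕ Fin k) ⊕ Fin 2 → F) :
    shearMap k p q (fun i => σ (v i)) = fun i => σ (shearMap k p q v i) := by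
  funext e
  rcases e with x | j
  · rfl
  · fin_cases j
    · show shearMap k p q (fun i => σ (v i)) (Sum.inr 0) = σ (shearMap k p q v (Sum.inr 0))
      rw [shearMap_zero, shearMap_zero, map_add, map_mul, hp]
    · show shearMap k p q (fun i => σ (v i)) (Sum.inr 1) = σ (shearMap k p q v (Sum.inr 1))
      rw [shearMap_one, shearMap_one, map_mul, hq]

theorem shear_form (ζ ζ' : F) (h1 : 2 * p + q = 1) (h2 : p ^ 2 + p * q + ζ * q ^ 2 = ζ')
    (v : (Fin k ⊕ Fin k) ⊕ Fin 2 → F) :
    Cfsg.quadFormMinus k F 1 ζ (shearMap k p q v) = Cfsg.quadFormMinus k F 1 ζ' v := by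
  unfold Cfsg.quadFormMinus
  rw [shearMap_zero, shearMap_one]
  simp only [shearMap_inl]
  linear_combination (v (Sum.inr 0) * v (Sum.inr 1)) * h1 + (v (Sum.inr 1)) ^ 2 * h2

end ell

theorem ell_sim [Fintype F] (k : ℕ) (σ : F ≃+* F) (Q1 Q1' : QuadraticForm F (ι → F))
    (h : IsEll k σ Q1) (h' : IsEll k σ Q1') :
    ∃ (R : GL ι F) (c : Fˣ), (mt(R)).map σ = mt(R) ∧
      ∀ v : ι → F, Q1 (mt(R) *ᵥ v) = (c : F) * Q1' v := by
  obtain ⟨L, c, ζ, hLσ, hζ, hroot, hQ⟩ := h
  obtain ⟨L', c', ζ', hLσ', hζ', hroot', hQ'⟩ := h'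
  -- the fixed field
  let K : Subfield F := (σ : F →+* F).eqLocusField (RingHom.id F)
  have hK : ∀ x : F, x ∈ K ↔ σ x = x := fun _ => Iff.rfl
  obtain ⟨p0, q0, hq0, h1, h2⟩ := exists_pq (K := K) ⟨ζ, (hK ζ).mpr hζ⟩ ⟨ζ', (hK ζ').mpr hζ'⟩
    (by
      intro t ht
      apply hroot (t : F) ((hK _).mp t.2)
      have := congrArg Subtype.val ht
      simpa using this)
    (by
      intro t ht
      apply hroot' (t : F) ((hK _).mp t.2)
      have := congrArg Subtype.val ht
      simpa using this)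
  have hq : (q0 : F) ≠ 0 := by
    intro h0
    apply hq0
    exact Subtype.ext h0
  have e2 : ((2 : K) : F) = 2 := rfl
  have h1' : 2 * (p0 : F) + (q0 : F) = 1 := by
    have := congrArg Subtype.val h1
    rw [← e2]
    simpa using this
  have h2' : (p0 : F) ^ 2 + (p0 : F) * (q0 : F) + ζ * (q0 : F) ^ 2 = ζ' := by
    have := congrArg Subtype.val h2
    simpa using this
  obtain ⟨R, hR1, hR2⟩ := exists_mat_of_equiv σ
    ((L'.symm.trans (shearEquiv k (p0 : F) (q0 : F) hq)).trans L) (by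
    intro v
    rw [LinearEquiv.trans_apply, LinearEquiv.trans_apply, symm_comm σ L' hLσ',
      shearEquiv_apply, shear_sigma k _ _ σ ((hK _).mp p0.2) ((hK _).mp q0.2), hLσ]
    rfl)
  refine ⟨R, c * c'⁻¹, hR1, ?_⟩
  intro v
  rw [hR2, LinearEquiv.trans_apply, LinearEquiv.trans_apply, hQ, shearEquiv_apply,
    shear_form k _ _ ζ ζ' h1' h2']
  have h3 : Q1' v = (c' : F) * Cfsg.quadFormMinus k F 1 ζ' (L'.symm v) := by
    rw [← hQ', L'.apply_symm_apply]
  rw [h3]
  push_cast
  field_simp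

end Cfsg.Agent.Lib.Helper88.LP4
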