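import Mathlib
import Cfsg.Agent.Lib.Helper79.DOCL2
import Cfsg.Agent.Lib.Helper81.PSolv2

set_option autoImplicit false

namespace Cfsg.Agent.Lib.Helper88.DG

open Cfsg

variable {G : Type*} [Group G] [Fintype G]

/-- PIECE KSUB -/
theorem exists_K (p : ℕ) [Fact p.Prime] (P : Sylow p G) (hP : Nat.card P = p)
    (z : G) (hz : z ∈ (P : Subgroup G)) (hz1 : z ≠ 1) :
    ∃ K : Subgroup G, ∀ y : G, y ∈ K ↔ (y * z = z * y ∧ ¬ p ∣ orderOf y) := by
  classical
  have hp : p.Prime := Fact.out
  have hzord : orderOf z = p := by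
    have h1 : orderOf (⟨z, hz⟩ : (P : Subgroup G)) ∣ p := by
      have h0 := orderOf_dvd_natCard (⟨z, hz⟩ : (P : Subgroup G))
      rw [hP] at h0
      exact h0
    have h2 : orderOf (⟨z, hz⟩ : (P : Subgroup G)) = orderOf z := by
      rw [← Subgroup.orderOf_coe]
    rw [h2] at h1
    rcases (Nat.dvd_prime hp).mp h1 with h3 | h3
    · exact absurd (orderOf_eq_one_iff.mp h3) hz1
    · exact h3
  have hidx := Cfsg.Agent.Lib.Helper79.DO.centralizer_pPrimeCore_index P hP z hz hzord
  rw [pow_one] at hidx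
  have hnorm : (pPrimeCore p ↥(Subgroup.centralizer ({z} : Set G))).Normal :=
    Cfsg.Agent.Lib.Helper81.pPrimeCore_normal p
  have hcop : (Nat.card (pPrimeCore p ↥(Subgroup.centralizer ({z} : Set G)))).Coprime p :=
    Cfsg.Agent.Lib.Helper81.pPrimeCore_coprime p
  refine ⟨(pPrimeCore p ↥(Subgroup.centralizer ({z} : Set G))).map
    (Subgroup.centralizer ({z} : Set G)).subtype, ?_⟩
  intro y
  constructor
  · rintro ⟨q, hq, rfl⟩
    refine ⟨?_, ?_⟩
    · have h1 := q.2
      rw [Subgroup.mem_centralizer_iff] at h1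
      exact (h1 z rfl).symm
    · intro hdvd
      have h1 : orderOf (⟨q, hq⟩ : pPrimeCore p ↥(Subgroup.centralizer ({z} : Set G)))
          ∣ Nat.card (pPrimeCore p ↥(Subgroup.centralizer ({z} : Set G))) :=
        orderOf_dvd_natCard _
      have h2 : orderOf (⟨q, hq⟩ : pPrimeCore p ↥(Subgroup.centralizer ({z} : Set G)))
          = orderOf ((Subgroup.centralizer ({z} : Set G)).subtype q) := by
        rw [← Subgroup.orderOf_coe]
        exact (Subgroup.orderOf_coe q).symm
      rw [h2] at h1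
      have h3 : p ∣ Nat.card (pPrimeCore p ↥(Subgroup.centralizer ({z} : Set G))) :=
        hdvd.trans h1
      have h4 := Nat.Coprime.eq_one_of_dvd hcop.symm h3
      exact hp.one_lt.ne' h4
  · rintro ⟨hyz, hy⟩
    have hyC : y ∈ Subgroup.centralizer ({z} : Set G) := by
      rw [Subgroup.mem_centralizer_iff]
      intro w hw
      rw [Set.mem_singleton_iff] at hw
      subst hw
      exact hyz.symm
    refine ⟨⟨y, hyC⟩, ?_, rfl⟩
    have h1 : orderOf (QuotientGroup.mk' (pPrimeCore p ↥(Subgroup.centralizer ({z} : Set G)))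
        ⟨y, hyC⟩) ∣ orderOf (⟨y, hyC⟩ : ↥(Subgroup.centralizer ({z} : Set G))) :=
      orderOf_map_dvd _ _
    have h2 : orderOf (⟨y, hyC⟩ : ↥(Subgroup.centralizer ({z} : Set G))) = orderOf y := by
      rw [← Subgroup.orderOf_coe]
    rw [h2] at h1
    have h3 : orderOf (QuotientGroup.mk' (pPrimeCore p ↥(Subgroup.centralizer ({z} : Set G)))
        ⟨y, hyC⟩) ∣ p := by
      have h0 := orderOf_dvd_natCard (QuotientGroup.mk'
        (pPrimeCore p ↥(Subgroup.centralizer ({z} : Set G))) ⟨y, hyC⟩)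
      have h00 : Nat.card (↥(Subgroup.centralizer ({z} : Set G)) ⧸
          pPrimeCore p ↥(Subgroup.centralizer ({z} : Set G))) = p := hidx
      rw [h00] at h0
      exact h0
    have h4 : orderOf (QuotientGroup.mk' (pPrimeCore p ↥(Subgroup.centralizer ({z} : Set G)))
        ⟨y, hyC⟩) = 1 := by
      rcases (Nat.dvd_prime hp).mp h3 with h5 | h5
      · exact h5
      · exfalso
        apply hy
        rw [← h5]
        exact h1
    have h5 := orderOf_eq_one_iff.mp h4
    exact (QuotientGroup.eq_one_iff _).mp h5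

end Cfsg.Agent.Lib.Helper88.DG
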