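import Mathlib
import Cfsg.Agent.Lib.Helper26.Gross2DefsA
import Cfsg.Agent.Lib.Helper30.Basic

/-!
# Gross `p = 2`, piece FIT3 (S3795)

An `s`-element of `F₂(K)` which centralises every element of prime power order of `F(K)` for
the primes `q ≠ s` lies in `F(K)`.
-/

set_option autoImplicit false

namespace Cfsg.Agent.Lib.Helper88.Gross2FIT3

universe u

open Cfsg.Agent.Lib.Helper26.Gross2

/-- in a finite nilpotent group, an element of `s`-power order lies in every Sylow
`s`-subgroup -/
theorem mem_sylow_of_nilpotent {H : Type*} [Group H] [Finite H] (hH : Group.IsNilpotent H)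
    (s : ℕ) [Fact s.Prime] (S : Sylow s H) (x : H) (hx : ∃ j : ℕ, x ^ s ^ j = 1) :
    x ∈ (S : Subgroup H) := by
  have hn : ∀ (p : ℕ) (_hp : Fact p.Prime) (P : Sylow p H), (↑P : Subgroup H).Normal :=
    ((Group.isNilpotent_of_finite_tfae (G := H)).out 0 3).1 hH
  haveI hSn : (S : Subgroup H).Normal := hn s inferInstance S
  have hz : IsPGroup s (Subgroup.zpowers x) := by
    obtain ⟨j, hj⟩ := hx
    rintro ⟨y, hy⟩
    obtain ⟨k, rfl⟩ := Subgroup.mem_zpowers_iff.1 hy
    refine ⟨j, Subtype.ext ?_⟩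
    simp only [Subgroup.coe_pow, Subgroup.coe_one]
    rw [← zpow_natCast, ← zpow_mul, mul_comm, zpow_mul, zpow_natCast, hj, one_zpow]
  obtain ⟨P, hP⟩ := hz.exists_le_sylow
  obtain ⟨g, hg⟩ := MulAction.exists_smul_eq H S P
  rw [Sylow.smul_eq_of_normal] at hg
  rw [hg]
  exact hP (Subgroup.mem_zpowers x)

theorem gross2_fit3 : Fit3Stmt.{u} := by
  intro K _ _ A hA hFA hk s hs c hcA hcs hcomm
  classical
  haveI : Fact s.Prime := ⟨hs⟩
  set F := Cfsg.fittingSubgroup K with hFdef
  haveI hFn : F.Normal := Cfsg.Agent.Lib.Helper30.fitting_normal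
  -- generating set of `T = O_{s'}(F)`
  let gens : Set K := {x | x ∈ F ∧ ∃ q : ℕ, q.Prime ∧ q ≠ s ∧ ∃ j : ℕ, x ^ q ^ j = 1}
  have hgens_conj : ∀ x ∈ gens, ∀ g : K, g * x * g⁻¹ ∈ gens := by
    rintro x ⟨hxF, q, hq, hqs, j, hj⟩ g
    refine ⟨hFn.conj_mem x hxF g, q, hq, hqs, j, ?_⟩
    rw [conj_pow, hj, mul_one, mul_inv_cancel]
  let T : Subgroup K := Subgroup.normalClosure gens
  haveI hTn : T.Normal := Subgroup.normalClosure_normal
  have hTF : T ≤ F := Subgroup.normalClosure_le_normal (fun x hx => hx.1)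
  let X : Subgroup K := Subgroup.normalClosure {c}
  haveI hXn : X.Normal := Subgroup.normalClosure_normal
  have hXA : X ≤ A := by
    haveI := hA
    exact Subgroup.normalClosure_le_normal (Set.singleton_subset_iff.2 hcA)
  have hcX : c ∈ X := Subgroup.subset_normalClosure (Set.mem_singleton c)
  -- (b) `X` centralises `T`
  have hconj_comm : ∀ (g : K), ∀ x ∈ gens, (g * c * g⁻¹) * x = x * (g * c * g⁻¹) := by
    intro g x hx
    have hx' := hgens_conj x hx g⁻¹
    obtain ⟨hxF, q, hq, hqs, j, hj⟩ := hx'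
    have h1 := hcomm q hq hqs _ hxF ⟨j, hj⟩
    rw [inv_inv] at h1
    calc g * c * g⁻¹ * x = g * (c * (g⁻¹ * x * g)) * g⁻¹ := by group
      _ = g * ((g⁻¹ * x * g) * c) * g⁻¹ := by rw [h1]
      _ = x * (g * c * g⁻¹) := by group
  have hX_closure : ∀ R : Subgroup K, (∀ g : K, g * c * g⁻¹ ∈ R) → X ≤ R := by
    intro R hR
    show Subgroup.normalClosure {c} ≤ R
    rw [Subgroup.normalClosure, Subgroup.closure_le]
    intro a ha
    rw [Group.mem_conjugatesOfSet_iff] at ha
    obtain ⟨b, hb, hba⟩ := ha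
    rw [Set.mem_singleton_iff] at hb
    subst hb
    obtain ⟨g, rfl⟩ := isConj_iff.1 hba
    exact hR g
  have hX_comm : ∀ y ∈ X, ∀ x ∈ gens, y * x = x * y := by
    intro y hy x hx
    have hle : X ≤ Subgroup.centralizer ({x} : Set K) := by
      apply hX_closure
      intro g
      rw [Subgroup.mem_centralizer_iff]
      intro z hz
      rw [Set.mem_singleton_iff] at hz
      subst hz
      exact (hconj_comm g z hx).symm
    have := hle hy
    rw [Subgroup.mem_centralizer_iff] at this
    exact (this x (Set.mem_singleton x)).symm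
  have hT_cent : T ≤ Subgroup.centralizer (X : Set K) := by
    apply Subgroup.normalClosure_le_normal
    intro x hx
    rw [SetLike.mem_coe, Subgroup.mem_centralizer_iff]
    intro y hy
    exact hX_comm y hy x hx
  -- (c1) `X F / F` is an `s`-group
  have hc1 : ∀ y ∈ X, ∃ j : ℕ, y ^ s ^ j ∈ F := by
    let π := QuotientGroup.mk' F
    let Ab : Subgroup (K ⧸ F) := A.map π
    have hAbnil : Group.IsNilpotent Ab := by
      rw [Subgroup.isNilpotent_iff_lowerCentralSeries]
      obtain ⟨k, hk⟩ := hk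
      refine ⟨k, ?_⟩
      rw [← Subgroup.map_lowerCentralSeries, eq_bot_iff]
      calc (A.lowerCentralSeries k).map π ≤ F.map π := Subgroup.map_mono hk
        _ = ⊥ := by rw [Subgroup.map_eq_bot_iff, QuotientGroup.ker_mk']
    let S : Sylow s Ab := default
    let R : Subgroup K := ((S : Subgroup Ab).map Ab.subtype).comap π
    have hconjR : ∀ g : K, g * c * g⁻¹ ∈ R := by
      intro g
      have hmem : π (g * c * g⁻¹) ∈ Ab := Subgroup.mem_map_of_mem π (hA.conj_mem c hcA g)
      rw [Subgroup.mem_comap, Subgroup.mem_map]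
      refine ⟨⟨π (g * c * g⁻¹), hmem⟩, ?_, rfl⟩
      apply mem_sylow_of_nilpotent hAbnil s S
      obtain ⟨j, hj⟩ := hcs
      refine ⟨j, Subtype.ext ?_⟩
      simp only [Subgroup.coe_pow, Subgroup.coe_one]
      rw [← map_pow, conj_pow, hj, mul_one, mul_inv_cancel, map_one]
    have hXR : X ≤ R := hX_closure R hconjR
    intro y hy
    have hyR := hXR hy
    rw [Subgroup.mem_comap, Subgroup.mem_map] at hyR
    obtain ⟨z, hz, hzy⟩ := hyR
    obtain ⟨j, hj⟩ := S.isPGroup' ⟨z, hz⟩
    refine ⟨j, ?_⟩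
    have hz1 : z ^ s ^ j = 1 := by
      have := congrArg (fun w : (S : Subgroup Ab) => (w : Ab)) hj
      simpa using this
    have h2 : π (y ^ s ^ j) = 1 := by
      rw [map_pow, ← hzy, ← map_pow, hz1, map_one]
    exact (QuotientGroup.eq_one_iff _).1 h2
  -- (c2) `F / T` is an `s`-group
  have hc2 : ∃ a : ℕ, ∀ z ∈ F, z ^ s ^ a ∈ T := by
    let TF : Subgroup F := T.subgroupOf F
    haveI : TF.Normal := hTn.subgroupOf F
    have hidx : TF.index ≠ 0 := Subgroup.index_ne_zero_of_finite
    have hpow : TF.index = s ^ (TF.index.primeFactorsList.length) := by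
      apply Nat.eq_prime_pow_of_unique_prime_dvd hidx
      intro d hd hdvd
      by_contra hds
      haveI : Fact d.Prime := ⟨hd⟩
      let Q : Sylow d F := default
      have hQ : (Q : Subgroup F) ≤ TF := by
        intro x hx
        obtain ⟨j, hj⟩ := Q.isPGroup' ⟨x, hx⟩
        rw [Subgroup.mem_subgroupOf]
        apply Subgroup.subset_normalClosure
        refine ⟨x.2, d, hd, hds, j, ?_⟩
        have := congrArg (fun w : (Q : Subgroup F) => ((w : F) : K)) hj
        simpa using this
      exact Q.not_dvd_index (dvd_trans hdvd (Subgroup.index_dvd_of_le hQ))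
    refine ⟨TF.index.primeFactorsList.length, fun z hz => ?_⟩
    have h1 := Subgroup.pow_index_mem TF (⟨z, hz⟩ : F)
    rw [hpow, Subgroup.mem_subgroupOf] at h1
    simpa using h1
  -- (c) `X` is nilpotent
  have hXnil : Group.IsNilpotent X := by
    let Z₀ : Subgroup X := T.subgroupOf X
    have hZ₀c : Z₀ ≤ Subgroup.center X := by
      intro z hz
      rw [Subgroup.mem_center_iff]
      intro g
      have hzT : (z : K) ∈ T := Subgroup.mem_subgroupOf.1 hz
      have h1 := hT_cent hzT
      rw [Subgroup.mem_centralizer_iff] at h1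
      exact Subtype.ext (h1 g g.2)
    haveI : Z₀.Normal := hTn.subgroupOf X
    have hker : (QuotientGroup.mk' Z₀).ker ≤ Subgroup.center X := by
      rw [QuotientGroup.ker_mk']; exact hZ₀c
    have hP : IsPGroup s (X ⧸ Z₀) := by
      obtain ⟨a, ha⟩ := hc2
      intro q
      obtain ⟨y, rfl⟩ := QuotientGroup.mk_surjective q
      obtain ⟨j, hj⟩ := hc1 y y.2
      refine ⟨j + a, ?_⟩
      rw [← QuotientGroup.mk_pow, QuotientGroup.eq_one_iff, Subgroup.mem_subgroupOf]
      simp only [Subgroup.coe_pow]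
      rw [pow_add, pow_mul]
      exact ha _ hj
    haveI := hP.isNilpotent
    exact Subgroup.isNilpotent_of_ker_le_center (QuotientGroup.mk' Z₀) hker
  exact (le_sSup (show X ∈ {N : Subgroup K | N.Normal ∧ Group.IsNilpotent N} from
    ⟨hXn, hXnil⟩)) hcX

end Cfsg.Agent.Lib.Helper88.Gross2FIT3
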