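import Mathlib
import Cfsg.Agent.Lib.Helper26.Gross2DefsC
import Cfsg.Agent.Lib.Helper26.GrossLin
import Cfsg.Agent.Lib.Helper26.GrossHH1

/-!
# Gross `p = 2`, piece DIH (S3795): the dihedral lemma

`x` of odd prime order `ℓ` inverted by the involution `ψ`, and `h` conjugating `x` to `ζ • x`
with `ζ ≠ 1`: then `2 ℓ dim C(ψ) = 2 ℓ dim (C(ψ) ∩ C(x)) + (ℓ - 1) dim Y`.
-/

set_option autoImplicit false
set_option linter.unusedSectionVars false

namespace Cfsg.Agent.Lib.Helper88.Gross2DIH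

open Cfsg.Agent.Lib.Helper26 Cfsg.Agent.Lib.Helper26.Gross2

universe u

section

variable {k : Type*} [Field k] {W : Type*} [AddCommGroup W] [Module k W]

theorem pow_apply_eig (f : Module.End k W) (c : k) (m : W) (h : f m = c • m) (n : ℕ) :
    (f ^ n) m = c ^ n • m := by
  induction n with
  | zero => simp
  | succ n ih =>
    rw [pow_succ, Module.End.mul_apply, h, map_smul, ih, smul_smul, pow_succ, mul_comm]

/-- eigenspace decomposition of an operator of finite order `a` when the field contains a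
primitive `a`-th root of unity and `a` is invertible -/
theorem finrank_eq_sum_eig [Module.Finite k W] (t : (Module.End k W)ˣ) (a : ℕ) (ha : 1 < a)
    (ht : t ^ a = 1) (ζ : k) (hζ : IsPrimitiveRoot ζ a) (hak : (a : k) ≠ 0) :
    Module.finrank k W = ∑ i : Fin a,
      Module.finrank k (Module.End.eigenspace (t : Module.End k W) (ζ ^ i.val)) := by
  classical
  haveI : NeZero a := ⟨by omega⟩
  haveI : Fact (1 < a) := ⟨ha⟩
  have hζa : ζ ^ a = 1 := hζ.pow_eq_one
  have hζ0 : ζ ≠ 0 := hζ.ne_zero (by omega)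
  obtain ⟨act, hact⟩ : ∃ act : Multiplicative (ZMod a) →* Module.End k W,
      act = grossCyc t a ht := ⟨_, rfl⟩
  obtain ⟨α, hα⟩ : ∃ α : Fin a → Multiplicative (ZMod a) → k,
      α = fun j y => ζ ^ (j.val * (Multiplicative.toAdd y).val) := ⟨_, rfl⟩
  have hαv : ∀ j y, α j y = ζ ^ (j.val * (Multiplicative.toAdd y).val) := by
    intro j y; rw [hα]
  have hmul : ∀ i y y', α i (y * y') = α i y * α i y' := by
    intro i y y'
    rw [hαv, hαv, hαv, toAdd_mul, ZMod.val_add, ← pow_add, ← mul_add, mul_comm i.val,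
      mul_comm i.val, pow_mul, pow_mul, ← pow_eq_pow_mod _ hζa]
  have hne : ∀ i y, α i y ≠ 0 := fun i y => by rw [hαv]; exact pow_ne_zero _ hζ0
  have hy1 : (Multiplicative.toAdd (Multiplicative.ofAdd (1 : ZMod a))).val = 1 :=
    ZMod.val_one a
  have hdist : ∀ i j, i ≠ j → ∃ y, α i y ≠ α j y := by
    intro i j hij
    refine ⟨Multiplicative.ofAdd (1 : ZMod a), ?_⟩
    rw [hαv, hαv, hy1, mul_one, mul_one]
    intro h
    exact hij (Fin.ext (hζ.pow_inj i.2 j.2 h))
  have hcardY : Fintype.card (Multiplicative (ZMod a)) = a := by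
    rw [Fintype.card_multiplicative, ZMod.card]
  have hcard : (Fintype.card (Multiplicative (ZMod a)) : k) ≠ 0 := by rw [hcardY]; exact hak
  have hsum0 : ∀ y : Multiplicative (ZMod a), y ≠ 1 → ∑ i : Fin a, (α i y)⁻¹ = 0 := by
    intro y hy
    have hi0 : (Multiplicative.toAdd y).val ≠ 0 := by
      intro h
      apply hy
      have h1 := (ZMod.val_eq_zero (Multiplicative.toAdd y)).mp h
      exact toAdd_eq_zero.mp h1
    have hilt : (Multiplicative.toAdd y).val < a := ZMod.val_lt _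
    have hr1 : (ζ ^ (Multiplicative.toAdd y).val)⁻¹ ≠ 1 := by
      intro h
      exact hζ.pow_ne_one_of_pos_of_lt hi0 hilt (inv_eq_one.mp h)
    have hra : ((ζ ^ (Multiplicative.toAdd y).val)⁻¹) ^ a = 1 := by
      rw [inv_pow, ← pow_mul, mul_comm, pow_mul, hζa, one_pow, inv_one]
    have h2 : ∑ j : Fin a, (α j y)⁻¹ =
        ∑ j ∈ Finset.range a, ((ζ ^ (Multiplicative.toAdd y).val)⁻¹) ^ j := by
      rw [← Fin.sum_univ_eq_sum_range (fun j => ((ζ ^ (Multiplicative.toAdd y).val)⁻¹) ^ j) a]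
      apply Finset.sum_congr rfl
      intro j _
      rw [hαv, inv_pow, ← pow_mul, mul_comm]
    rw [h2, geom_sum_eq hr1, hra, sub_self, zero_div]
  have horth : ∑ y : Multiplicative (ZMod a), (∑ i : Fin a, (α i y)⁻¹) • act y =
      (Fintype.card (Multiplicative (ZMod a)) : k) • (1 : Module.End k W) := by
    rw [Finset.sum_eq_single (1 : Multiplicative (ZMod a))]
    · rw [map_one, hcardY]
      congr 1
      have h3 : ∀ i : Fin a, (α i 1)⁻¹ = 1 := by
        intro i
        rw [hαv, toAdd_one, ZMod.val_zero, mul_zero, pow_zero, inv_one]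
      rw [Finset.sum_congr rfl (fun i _ => h3 i), Finset.sum_const, Finset.card_univ,
        Fintype.card_fin, nsmul_eq_mul, mul_one]
    · intro y _ hy
      rw [hsum0 y hy, zero_smul]
    · intro h; exact absurd (Finset.mem_univ _) h
  have hdec := gross_dec_finrank act α hmul hne hdist hcard horth
  have hact1 : act (Multiplicative.ofAdd (1 : ZMod a)) = (t : Module.End k W) := by
    rw [hact, grossCyc_apply, hy1, pow_one]
  rw [hdec]
  apply Finset.sum_congr rfl
  intro i _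
  have hEq : grossEig (fun y => act y) (α i) =
      Module.End.eigenspace (t : Module.End k W) (ζ ^ i.val) := by
    ext m
    rw [mem_grossEig, Module.End.mem_eigenspace_iff]
    constructor
    · intro h
      have h1 := h (Multiplicative.ofAdd (1 : ZMod a))
      rw [hact1, hαv, hy1, mul_one] at h1
      exact h1
    · intro h y
      rw [hact, grossCyc_apply, hαv, Units.val_pow_eq_pow_val, pow_apply_eig _ _ _ h, ← pow_mul]
  rw [hEq]

/-- rank–nullity for an operator restricted to a subspace `A` with image `R` -/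
theorem finrank_eq_add_of_image [Module.Finite k W] (f : Module.End k W) (A R : Submodule k W)
    (h1 : ∀ v ∈ A, f v ∈ R) (h2 : ∀ w ∈ R, ∃ v ∈ A, f v = w) :
    Module.finrank k A = Module.finrank k R + Module.finrank k ↥(A ⊓ LinearMap.ker f) := by
  let g : A →ₗ[k] W := f.domRestrict A
  have hr : LinearMap.range g = R := by
    ext w
    constructor
    · rintro ⟨v, rfl⟩
      exact h1 v.1 v.2
    · intro hw
      obtain ⟨v, hv, rfl⟩ := h2 w hw
      exact ⟨⟨v, hv⟩, rfl⟩
  have hk : (LinearMap.ker g).map A.subtype = A ⊓ LinearMap.ker f := by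
    ext w
    constructor
    · rintro ⟨v, hv, rfl⟩
      exact ⟨v.2, LinearMap.mem_ker.2 (LinearMap.mem_ker.1 hv)⟩
    · rintro ⟨hwA, hwf⟩
      exact ⟨⟨w, hwA⟩, LinearMap.mem_ker.2 (LinearMap.mem_ker.1 hwf), rfl⟩
  have h3 := LinearMap.finrank_range_add_finrank_ker g
  rw [hr] at h3
  have h4 : Module.finrank k ↥((LinearMap.ker g).map A.subtype) =
      Module.finrank k ↥(LinearMap.ker g) :=
    Submodule.finrank_map_subtype_eq A (LinearMap.ker g)
  rw [hk] at h4
  omega

/-- an operator mapping `A` into `B`, injective on `A`, gives `dim A ≤ dim B` -/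
theorem finrank_le_of_inj [Module.Finite k W] (d : Module.End k W) (A B : Submodule k W)
    (h1 : ∀ v ∈ A, d v ∈ B) (h2 : ∀ v ∈ A, d v = 0 → v = 0) :
    Module.finrank k A ≤ Module.finrank k B := by
  apply LinearMap.finrank_le_finrank_of_injective (f := d.restrict h1)
  rw [injective_iff_map_eq_zero]
  rintro ⟨v, hv⟩ h0
  have h3 : d v = 0 := by
    have := congrArg Subtype.val h0
    simpa using this
  exact Subtype.ext (h2 v hv h3)

end

theorem gross2_dih : DihStmt.{u} := by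
  intro k _ Y _ _ _ ℓ hℓ hℓ2 hℓk h2k x ψ h ζ hx hψ hψx hζ1 hζℓ hh
  classical
  obtain ⟨X, hXdef⟩ : ∃ X : Module.End k Y, X = (x : Module.End k Y) := ⟨_, rfl⟩
  obtain ⟨Xi, hXidef⟩ : ∃ Xi : Module.End k Y, Xi = ((x⁻¹ : (Module.End k Y)ˣ) : Module.End k Y) :=
    ⟨_, rfl⟩
  obtain ⟨Ψ, hΨdef⟩ : ∃ Ψ : Module.End k Y, Ψ = (ψ : Module.End k Y) := ⟨_, rfl⟩
  obtain ⟨H, hHdef⟩ : ∃ H : Module.End k Y, H = (h : Module.End k Y) := ⟨_, rfl⟩
  obtain ⟨Hi, hHidef⟩ : ∃ Hi : Module.End k Y, Hi = ((h⁻¹ : (Module.End k Y)ˣ) : Module.End k Y) :=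
    ⟨_, rfl⟩
  have hXXi : X * Xi = 1 := by rw [hXdef, hXidef]; exact Units.mul_inv x
  have hXiX : Xi * X = 1 := by rw [hXdef, hXidef]; exact Units.inv_mul x
  have hHiH : Hi * H = 1 := by rw [hHdef, hHidef]; exact Units.inv_mul h
  have hΨΨ : Ψ * Ψ = 1 := by
    have := congrArg Units.val hψ
    rw [pow_two, Units.val_mul, Units.val_one] at this
    rw [hΨdef]; exact this
  have hXℓ : X ^ ℓ = 1 := by
    have := congrArg Units.val hx
    rw [Units.val_pow_eq_pow_val, Units.val_one] at this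
    rw [hXdef]; exact this
  have hu1 : ψ * x = x⁻¹ * ψ := by
    rw [← hψx]; group
  have hu2 : ψ * x⁻¹ = x * ψ := by
    calc ψ * x⁻¹ = x * (x⁻¹ * ψ) * x⁻¹ := by group
      _ = x * (ψ * x) * x⁻¹ := by rw [hu1]
      _ = x * ψ := by group
  have hΨX : Ψ * X = Xi * Ψ := by
    have := congrArg Units.val hu1
    rw [Units.val_mul, Units.val_mul] at this
    rw [hΨdef, hXdef, hXidef]; exact this
  have hΨXi : Ψ * Xi = X * Ψ := by
    have := congrArg Units.val hu2
    rw [Units.val_mul, Units.val_mul] at this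
    rw [hΨdef, hXdef, hXidef]; exact this
  have hζ0 : ζ ≠ 0 := by
    intro h0
    rw [h0, zero_pow hℓ.ne_zero] at hζℓ
    exact zero_ne_one hζℓ
  -- the sum `S` of the powers of `X`
  obtain ⟨S, hSdef⟩ : ∃ S : Module.End k Y, S = ∑ j ∈ Finset.range ℓ, X ^ j := ⟨_, rfl⟩
  have hshift : ∑ j ∈ Finset.range ℓ, X ^ (j + 1) = ∑ j ∈ Finset.range ℓ, X ^ j := by
    have h1 := Finset.sum_range_succ' (fun j => X ^ j) ℓ
    have h2 := Finset.sum_range_succ (fun j => X ^ j) ℓ
    rw [h2, hXℓ, pow_zero] at h1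
    exact (add_right_cancel h1).symm
  have hXS : X * S = S := by
    rw [hSdef, Finset.mul_sum]
    rw [← hshift]
    apply Finset.sum_congr rfl
    intro j _
    rw [pow_succ']
  have hSX : S * X = S := by
    rw [hSdef, Finset.sum_mul]
    rw [← hshift]
    apply Finset.sum_congr rfl
    intro j _
    rw [pow_succ]
  have hXiS : Xi * S = S := by
    calc Xi * S = Xi * (X * S) := by rw [hXS]
      _ = (Xi * X) * S := by rw [mul_assoc]
      _ = S := by rw [hXiX, one_mul]
  have hSXi : S * Xi = S := by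
    calc S * Xi = (S * X) * Xi := by rw [hSX]
      _ = S * (X * Xi) := by rw [mul_assoc]
      _ = S := by rw [hXXi, mul_one]
  have hg1 : ∀ A : Module.End k Y, X * A = A → S * A = (ℓ : k) • A := by
    intro A hA
    have hp : ∀ j : ℕ, X ^ j * A = A := by
      intro j
      induction j with
      | zero => rw [pow_zero, one_mul]
      | succ j ih => rw [pow_succ, mul_assoc, hA, ih]
    rw [hSdef, Finset.sum_mul, Finset.sum_congr rfl (fun j _ => hp j), Finset.sum_const,
      Finset.card_range, Nat.cast_smul_eq_nsmul]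
  have hg2 : ∀ A : Module.End k Y, A * X = A → A * S = (ℓ : k) • A := by
    intro A hA
    have hp : ∀ j : ℕ, A * X ^ j = A := by
      intro j
      induction j with
      | zero => rw [pow_zero, mul_one]
      | succ j ih => rw [pow_succ', ← mul_assoc, hA, ih]
    rw [hSdef, Finset.mul_sum, Finset.sum_congr rfl (fun j _ => hp j), Finset.sum_const,
      Finset.card_range, Nat.cast_smul_eq_nsmul]
  have hΨS : Ψ * S = S * Ψ := by
    have hS'X : (Ψ * S * Ψ) * X = Ψ * S * Ψ := by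
      calc (Ψ * S * Ψ) * X = Ψ * S * (Ψ * X) := by rw [mul_assoc]
        _ = Ψ * (S * Xi) * Ψ := by rw [hΨX]; simp only [mul_assoc]
        _ = Ψ * S * Ψ := by rw [hSXi]
    have h1 : (Ψ * S * Ψ) * S = (ℓ : k) • (Ψ * S * Ψ) := hg2 _ hS'X
    have hB : X * (Ψ * S) = Ψ * S := by
      have hXiB : Xi * (Ψ * S) = Ψ * S := by
        calc Xi * (Ψ * S) = (Xi * Ψ) * S := by rw [mul_assoc]
          _ = Ψ * (X * S) := by rw [← hΨX, mul_assoc]
          _ = Ψ * S := by rw [hXS]
      calc X * (Ψ * S) = X * (Xi * (Ψ * S)) := by rw [hXiB]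
        _ = (X * Xi) * (Ψ * S) := by rw [mul_assoc]
        _ = Ψ * S := by rw [hXXi, one_mul]
    have h2 : S * (Ψ * S) = (ℓ : k) • (Ψ * S) := hg1 _ hB
    have h3 : (Ψ * S * Ψ) * S = (ℓ : k) • S := by
      calc (Ψ * S * Ψ) * S = Ψ * (S * (Ψ * S)) := by simp only [mul_assoc]
        _ = Ψ * ((ℓ : k) • (Ψ * S)) := by rw [h2]
        _ = (ℓ : k) • ((Ψ * Ψ) * S) := by rw [mul_smul_comm, mul_assoc]
        _ = (ℓ : k) • S := by rw [hΨΨ, one_mul]
    have h4 : Ψ * S * Ψ = S := by
      have := h1.symm.trans h3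
      exact smul_right_injective _ hℓk this
    calc Ψ * S = Ψ * S * (Ψ * Ψ) := by rw [hΨΨ, mul_one]
      _ = (Ψ * S * Ψ) * Ψ := by simp only [mul_assoc]
      _ = S * Ψ := by rw [h4]
  -- the projection `e0`
  obtain ⟨e0, he0def⟩ : ∃ e0 : Module.End k Y, e0 = (ℓ : k)⁻¹ • S := ⟨_, rfl⟩
  have he0_apply : ∀ v, e0 v = (ℓ : k)⁻¹ • S v := by
    intro v; rw [he0def, LinearMap.smul_apply]
  have ha : ∀ v, X (e0 v) = e0 v := by
    intro v
    rw [he0_apply, map_smul, ← Module.End.mul_apply, hXS]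
  have hb : ∀ v, X v = v → e0 v = v := by
    intro v hv
    have hp : ∀ j : ℕ, (X ^ j) v = v := by
      intro j
      have := pow_apply_eig X 1 v (by rw [hv, one_smul]) j
      rw [this, one_pow, one_smul]
    rw [he0_apply, hSdef, LinearMap.sum_apply, Finset.sum_congr rfl (fun j _ => hp j),
      Finset.sum_const, Finset.card_range, ← Nat.cast_smul_eq_nsmul k, smul_smul,
      inv_mul_cancel₀ hℓk, one_smul]
  have hc : ∀ v, Ψ (e0 v) = e0 (Ψ v) := by
    intro v
    rw [he0_apply, he0_apply, map_smul, ← Module.End.mul_apply, hΨS, Module.End.mul_apply]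
  have hd0 : ∀ v, e0 ((X - Xi) v) = 0 := by
    intro v
    rw [he0_apply, ← Module.End.mul_apply, mul_sub, hSX, hSXi, sub_self, LinearMap.zero_apply,
      smul_zero]
  have he : ∀ v, Ψ ((X - Xi) v) = -((X - Xi) (Ψ v)) := by
    intro v
    rw [← Module.End.mul_apply, ← Module.End.mul_apply, mul_sub, sub_mul, hΨX, hΨXi,
      LinearMap.sub_apply, LinearMap.sub_apply, neg_sub]
  obtain ⟨m, hm⟩ := hℓ.eq_two_or_odd'.resolve_left hℓ2
  have hf : ∀ v, (X - Xi) v = 0 → X v = v := by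
    intro v hv
    rw [LinearMap.sub_apply, sub_eq_zero] at hv
    have h2 : ∀ w : Y, X (X w) = w → ∀ j : ℕ, (X ^ (2 * j)) w = w := by
      intro w hw j
      induction j with
      | zero => simp
      | succ j ih =>
        rw [show 2 * (j + 1) = 2 * j + 1 + 1 by ring, pow_succ, pow_succ, mul_assoc,
          Module.End.mul_apply, Module.End.mul_apply, hw, ih]
    have hXX : X (X v) = v := by
      rw [hv, ← Module.End.mul_apply, hXXi, Module.End.one_apply]
    have hXXX : X (X (X v)) = X v := by rw [hXX]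
    have h3 := h2 (X v) hXXX m
    have h4 : (X ^ ℓ) v = v := by rw [hXℓ, Module.End.one_apply]
    rw [hm, pow_succ, Module.End.mul_apply, h3] at h4
    exact h4
  -- the subspaces
  have hF : ∀ v, v ∈ LinearMap.ker (Ψ - 1) ↔ Ψ v = v := by
    intro v
    rw [LinearMap.mem_ker, LinearMap.sub_apply, Module.End.one_apply, sub_eq_zero]
  have hE0 : ∀ v, v ∈ LinearMap.ker (X - 1) ↔ X v = v := by
    intro v
    rw [LinearMap.mem_ker, LinearMap.sub_apply, Module.End.one_apply, sub_eq_zero]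
  have hFm : ∀ v, v ∈ LinearMap.ker (Ψ + 1) ↔ Ψ v = -v := by
    intro v
    rw [LinearMap.mem_ker, LinearMap.add_apply, Module.End.one_apply, add_eq_zero_iff_eq_neg]
  -- (1) `dim F = dim (F ⊓ E0) + dim (F ⊓ ker e0)`
  have c1 := finrank_eq_add_of_image e0 (LinearMap.ker (Ψ - 1))
    (LinearMap.ker (Ψ - 1) ⊓ LinearMap.ker (X - 1))
    (by
      intro v hv
      refine ⟨(hF _).2 ?_, (hE0 _).2 (ha v)⟩
      rw [hc, (hF v).1 hv])
    (by
      rintro w ⟨hw1, hw2⟩
      exact ⟨w, hw1, hb w ((hE0 w).1 hw2)⟩)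
  -- (2) `dim Y = dim E0 + dim ker e0`
  have c2 := finrank_eq_add_of_image e0 ⊤ (LinearMap.ker (X - 1))
    (fun v _ => (hE0 _).2 (ha v))
    (fun w hw => ⟨w, Submodule.mem_top, hb w ((hE0 w).1 hw)⟩)
  rw [finrank_top, top_inf_eq] at c2
  -- (3) `dim ker e0 = dim (F ⊓ ker e0) + dim (ker e0 ⊓ F⁻)`
  have c3 := finrank_eq_add_of_image (Ψ + 1) (LinearMap.ker e0)
    (LinearMap.ker (Ψ - 1) ⊓ LinearMap.ker e0)
    (by
      intro v hv
      rw [LinearMap.mem_ker] at hv
      refine ⟨(hF _).2 ?_, ?_⟩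
      · rw [LinearMap.add_apply, Module.End.one_apply, map_add, ← Module.End.mul_apply, hΨΨ,
          Module.End.one_apply, add_comm]
      · refine LinearMap.mem_ker.2 ?_
        rw [LinearMap.add_apply, Module.End.one_apply, map_add, ← hc, hv,
          map_zero, add_zero])
    (by
      rintro w ⟨hw1, hw2⟩
      refine ⟨(2 : k)⁻¹ • w, Submodule.smul_mem _ _ hw2, ?_⟩
      rw [map_smul, LinearMap.add_apply, Module.End.one_apply, (hF w).1 hw1, ← two_smul k w,
        smul_smul, inv_mul_cancel₀ h2k, one_smul])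
  -- (4) the two eigenspaces of `Ψ` on `ker e0` have the same dimension
  have hinj : ∀ v ∈ LinearMap.ker e0, (X - Xi) v = 0 → v = 0 := by
    intro v hv h0
    rw [LinearMap.mem_ker] at hv
    rw [← hb v (hf v h0), hv]
  have c4a : Module.finrank k ↥(LinearMap.ker (Ψ - 1) ⊓ LinearMap.ker e0) ≤
      Module.finrank k ↥(LinearMap.ker e0 ⊓ LinearMap.ker (Ψ + 1)) :=
    finrank_le_of_inj (X - Xi) _ _
      (by
        rintro v ⟨hv1, hv2⟩
        refine ⟨LinearMap.mem_ker.2 (hd0 v), (hFm _).2 ?_⟩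
        rw [he, (hF v).1 hv1])
      (fun v hv => hinj v hv.2)
  have c4b : Module.finrank k ↥(LinearMap.ker e0 ⊓ LinearMap.ker (Ψ + 1)) ≤
      Module.finrank k ↥(LinearMap.ker (Ψ - 1) ⊓ LinearMap.ker e0) :=
    finrank_le_of_inj (X - Xi) _ _
      (by
        rintro v ⟨hv1, hv2⟩
        refine ⟨(hF _).2 ?_, LinearMap.mem_ker.2 (hd0 v)⟩
        rw [he, (hFm v).1 hv2, map_neg, neg_neg])
      (fun v hv => hinj v hv.1)
  -- (5) `ℓ dim E0 = dim Y`
  have hprim : IsPrimitiveRoot ζ ℓ := by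
    have h1 : orderOf ζ ∣ ℓ := orderOf_dvd_of_pow_eq_one hζℓ
    rcases (Nat.dvd_prime hℓ).1 h1 with h2 | h2
    · exact absurd (orderOf_eq_one_iff.1 h2) hζ1
    · have := IsPrimitiveRoot.orderOf ζ
      rwa [h2] at this
  have hstep : ∀ (c : k) (u : Y), X u = c • u → X (H u) = (ζ⁻¹ * c) • H u := by
    intro c u hu
    have h1 := hh (H u)
    rw [Units.val_mul, Units.val_mul, ← hHdef, ← hXdef, ← hHidef, Module.End.mul_apply,
      Module.End.mul_apply, ← Module.End.mul_apply Hi H, hHiH, Module.End.one_apply, hu,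
      map_smul] at h1
    rw [mul_smul, h1, smul_smul, inv_mul_cancel₀ hζ0, one_smul]
  have hpow : ∀ (j : ℕ) (c : k) (u : Y), X u = c • u →
      X (((h ^ j : (Module.End k Y)ˣ) : Module.End k Y) u) =
        (ζ⁻¹ ^ j * c) • ((h ^ j : (Module.End k Y)ˣ) : Module.End k Y) u := by
    intro j
    induction j with
    | zero => intro c u hu; simpa using hu
    | succ j ih =>
      intro c u hu
      have h1 := ih (ζ⁻¹ * c) (H u) (hstep c u hu)
      rw [pow_succ, Units.val_mul, Module.End.mul_apply, ← hHdef, h1, pow_succ, mul_assoc]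
  have hle : ∀ (j : ℕ) (c : k), Module.finrank k ↥(Module.End.eigenspace X c) ≤
      Module.finrank k ↥(Module.End.eigenspace X (ζ⁻¹ ^ j * c)) := by
    intro j c
    apply finrank_le_of_inj ((h ^ j : (Module.End k Y)ˣ) : Module.End k Y)
    · intro v hv
      rw [Module.End.mem_eigenspace_iff] at hv ⊢
      exact hpow j c v hv
    · intro v _ h0
      have := congrArg (((h ^ j)⁻¹ : (Module.End k Y)ˣ) : Module.End k Y) h0
      rw [← Module.End.mul_apply, ← Units.val_mul, inv_mul_cancel, Units.val_one,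
        Module.End.one_apply, map_zero] at this
      exact this
  have hE1 : Module.End.eigenspace X 1 = LinearMap.ker (X - 1) := by
    ext v
    rw [Module.End.mem_eigenspace_iff, hE0, one_smul]
  have c5 : ℓ * Module.finrank k ↥(LinearMap.ker (X - 1)) = Module.finrank k Y := by
    have h1 := finrank_eq_sum_eig x ℓ hℓ.one_lt hx ζ hprim hℓk
    rw [← hXdef] at h1
    have h2 : ∀ i : Fin ℓ, Module.finrank k ↥(Module.End.eigenspace X (ζ ^ i.val)) =
        Module.finrank k ↥(LinearMap.ker (X - 1)) := by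
      intro i
      rw [← hE1]
      apply le_antisymm
      · have := hle i.val (ζ ^ i.val)
        rwa [inv_pow, inv_mul_cancel₀ (pow_ne_zero _ hζ0)] at this
      · have := hle (ℓ - i.val) 1
        have h3 : ζ⁻¹ ^ (ℓ - i.val) * 1 = ζ ^ i.val := by
          rw [mul_one, inv_pow]
          apply inv_eq_of_mul_eq_one_left
          rw [← pow_add, Nat.add_sub_cancel' i.2.le, hζℓ]
        rwa [h3] at this
    rw [h1, Finset.sum_congr rfl (fun i _ => h2 i), Finset.sum_const, Finset.card_univ,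
      Fintype.card_fin, smul_eq_mul]
  -- arithmetic
  have hΨ' : (ψ : Module.End k Y) = Ψ := hΨdef.symm
  have hX' : (x : Module.End k Y) = X := hXdef.symm
  rw [hΨ', hX']
  obtain ⟨a, ha'⟩ : ∃ a, a = Module.finrank k ↥(LinearMap.ker (Ψ - 1)) := ⟨_, rfl⟩
  obtain ⟨b, hb'⟩ : ∃ b, b = Module.finrank k ↥(LinearMap.ker (Ψ - 1) ⊓ LinearMap.ker (X - 1)) :=
    ⟨_, rfl⟩
  obtain ⟨c, hc'⟩ : ∃ c, c = Module.finrank k ↥(LinearMap.ker (Ψ - 1) ⊓ LinearMap.ker e0) :=
    ⟨_, rfl⟩
  obtain ⟨c', hc''⟩ : ∃ c', c' = Module.finrank k ↥(LinearMap.ker e0 ⊓ LinearMap.ker (Ψ + 1)) :=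
    ⟨_, rfl⟩
  obtain ⟨D, hD⟩ : ∃ D, D = Module.finrank k Y := ⟨_, rfl⟩
  obtain ⟨n0, hn0⟩ : ∃ n0, n0 = Module.finrank k ↥(LinearMap.ker (X - 1)) := ⟨_, rfl⟩
  obtain ⟨K, hK⟩ : ∃ K, K = Module.finrank k ↥(LinearMap.ker e0) := ⟨_, rfl⟩
  rw [← ha', ← hb', ← hc'] at c1
  rw [← hD, ← hn0, ← hK] at c2
  rw [← hK, ← hc', ← hc''] at c3
  rw [← hc', ← hc''] at c4a c4b
  rw [← hn0, ← hD] at c5
  rw [← ha', ← hb', ← hD]
  have hcc : c = c' := le_antisymm c4a c4b
  subst hcc
  rw [hm] at c5 ⊢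
  have e1 : (2 * m + 1) * n0 = 2 * (m * n0) + n0 := by ring
  have e2 : 2 * (2 * m + 1) * a = 4 * (m * a) + 2 * a := by ring
  have e3 : 2 * (2 * m + 1) * b = 4 * (m * b) + 2 * b := by ring
  have e4 : (2 * m + 1 - 1) * D = 2 * (m * D) := by
    rw [Nat.add_sub_cancel]; ring
  have e5 : m * a = m * b + m * c := by rw [c1]; ring
  have e6 : m * D = m * n0 + m * K := by rw [c2]; ring
  have e7 : m * K = 2 * (m * c) := by rw [c3]; ring
  rw [e2, e3, e4]
  omega

end Cfsg.Agent.Lib.Helper88.Gross2DIH
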