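import Cfsg.Agent.Lib.Helper88.NormChiD

set_option autoImplicit false
open Cfsg

namespace Cfsg.Agent.Lib.Helper88.PIdx

open Cfsg.FusionSystem Cfsg.Agent.Lib.Helper90 Cfsg.Agent.Lib.Helper91 Cfsg.Agent.Lib.Helper88
open Cfsg.Agent.S5114 (opP Inv Good aF_mul aF_one aF_conj aF_mor opP_map)

variable {Ω : Type*} [Group Ω] {S T : Subgroup Ω} {F : FusionSystem S} {E : FusionSystem T}
  {p : ℕ} {P Q V M : Subgroup Ω} {f g : Ω → Ω}

/-! ### Group-theoretic preliminaries -/

theorem mem_of_pow_coprime {G : Type*} [Group G] (N : Subgroup G) {a : G} {m q : ℕ}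
    (hc : Nat.Coprime m q) (hm : a ^ m ∈ N) (hq : a ^ q ∈ N) : a ∈ N := by
  have hz : (1 : ℤ) = (m : ℤ) * Nat.gcdA m q + (q : ℤ) * Nat.gcdB m q := by
    have h1 := Nat.gcd_eq_gcd_ab m q
    rw [hc.gcd_eq_one] at h1
    exact_mod_cast h1
  have h1 : a = (a ^ m) ^ (Nat.gcdA m q) * (a ^ q) ^ (Nat.gcdB m q) := by
    rw [← zpow_natCast a m, ← zpow_natCast a q, ← zpow_mul, ← zpow_mul, ← zpow_add, ← hz,
      zpow_one]
  rw [h1]
  exact N.mul_mem (N.zpow_mem hm _) (N.zpow_mem hq _)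

/-- In a finite subgroup, a fixed power prime to `p` turns every element into a `p`-element. -/
theorem exists_pprime_exp {G : Type*} [Group G] (p : ℕ) [hp : Fact p.Prime] (H : Subgroup G)
    [Finite H] : ∃ m : ℕ, m.Coprime p ∧ ∀ a ∈ H, ∃ j : ℕ, orderOf (a ^ m) = p ^ j := by
  have hn : Nat.card H ≠ 0 := Nat.card_pos.ne'
  obtain ⟨k, m, hm, hkm⟩ := Nat.exists_eq_pow_mul_and_not_dvd hn p hp.out.ne_one
  refine ⟨m, ((Nat.Prime.coprime_iff_not_dvd hp.out).mpr hm).symm, fun a ha => ?_⟩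
  have h1 : (⟨a, ha⟩ : H) ^ Nat.card H = 1 := pow_card_eq_one'
  have h2 : a ^ Nat.card H = 1 := congrArg Subtype.val h1
  have h3 : (a ^ m) ^ (p ^ k) = 1 := by
    rw [← pow_mul, mul_comm, ← hkm]
    exact h2
  obtain ⟨j, -, hj⟩ := (Nat.dvd_prime_pow hp.out).mp (orderOf_dvd_of_pow_eq_one h3)
  exact ⟨j, hj⟩

/-! ### A setup for every invariant saturated subsystem -/

/-- `Aut_E(T) · O^{p'}(Aut_F(T))`. -/
def N0 (F : FusionSystem S) (E : FusionSystem T) (p : ℕ) : Subgroup (MulAut T) :=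
  E.autGroup T ⊔ opP p (F.autGroup T)

theorem autGroup_mono_of_subsystem (hsub : E.IsSubsystemOf F) (P : Subgroup Ω) :
    E.autGroup P ≤ F.autGroup P := by
  have hs : {β : MulAut P | P.subtype.comp β.toMonoidHom ∈ E.Hom P} ⊆
      {β : MulAut P | P.subtype.comp β.toMonoidHom ∈ F.Hom P} := fun β hβ => hsub P hβ
  exact Subgroup.closure_mono hs

theorem autFun_conj_eq (α β : MulAut T) {x : Ω} (hx : x ∈ T) :
    autFun T (α * β * α⁻¹) x = autFun T α (autFun T β (autFun T α⁻¹ x)) := by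
  rw [aF_mul (α * β) α⁻¹ hx, aF_mul α β (autFun_mem _ hx)]

theorem autGroup_conj_mem (hinv : E.IsInvariantIn F) {α β : MulAut T} (hα : α ∈ F.autGroup T)
    (hβ : β ∈ E.autGroup T) : α * β * α⁻¹ ∈ E.autGroup T := by
  have hm := invariant_mor hinv ((mem_autGroup_iff E le_rfl β).mp hβ) hα
  rw [img_autFun] at hm
  rw [mem_autGroup_iff E le_rfl]
  exact hm.congr (fun x hx => (autFun_conj_eq α β hx).symm)

theorem setup_of_invariant [Finite S] [Fact p.Prime] (hS : IsPGroup p S) (hF : F.IsSaturated p)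
    (hEs : E.IsSaturated p) (hinv : E.IsInvariantIn F) : Setup F E p (N0 F E p) where
  hS := hS
  hF := hF
  hEs := hEs
  hinv := hinv
  hN1 := sup_le (autGroup_mono_of_subsystem hinv.1 T) (Cfsg.Agent.S5140.opP_le p _)
  hN2 := by
    intro α hα β hβ
    have hA : (E.autGroup T).map (MulAut.conj α).toMonoidHom ≤ E.autGroup T := by
      rintro _ ⟨b, hb, rfl⟩
      show MulAut.conj α b ∈ E.autGroup T
      rw [MulAut.conj_apply]
      exact autGroup_conj_mem hinv hα hb
    have hB : (opP p (F.autGroup T)).map (MulAut.conj α).toMonoidHom ≤ opP p (F.autGroup T) := by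
      rintro _ ⟨b, hb, rfl⟩
      refine opP_map p (MulAut.conj α) (fun a ha => ?_) hb
      rw [MulAut.conj_apply]
      exact (F.autGroup T).mul_mem ((F.autGroup T).mul_mem hα ha) ((F.autGroup T).inv_mem hα)
    have hmap : (N0 F E p).map (MulAut.conj α).toMonoidHom ≤ N0 F E p := by
      unfold N0
      rw [Subgroup.map_sup]
      exact sup_le_sup hA hB
    have h1 : MulAut.conj α β ∈ N0 F E p := hmap ⟨β, hβ, rfl⟩
    rwa [MulAut.conj_apply] at h1
  hN3 := le_sup_left
  hN4 := by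
    have hTS : T ≤ S := hinv.2.1.1
    have : Finite T := finite_of_le hTS
    obtain ⟨m, hm, hmo⟩ := exists_pprime_exp p (F.autGroup T)
    refine ⟨m, hm, fun α hα => ?_⟩
    obtain ⟨j, hj⟩ := hmo α hα
    exact le_sup_right (a := E.autGroup T)
      (Subgroup.subset_closure ⟨(F.autGroup T).pow_mem hα m, j, hj⟩)

/-! ### Two invariant saturated subsystems over the same subgroup -/

/-- The `p`-elements of `Aut_E(P)` lie in `Aut_D(P)`, for invariant saturated subsystems `E`, `D`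
over the same subgroup `T`. -/
theorem aut_ppow_mem [Finite S] [Fact p.Prime] {D : FusionSystem T} (hEs : E.IsSaturated p)
    (hEinv : E.IsInvariantIn F) (hDinv : D.IsInvariantIn F) (hP : P ≤ T) {κ : MulAut P}
    (hκ : κ ∈ E.autGroup P) {k : ℕ} (hk : orderOf κ = p ^ k) : κ ∈ D.autGroup P := by
  have hTS : T ≤ S := hEinv.2.1.1
  have hfinT : Finite T := finite_of_le hTS
  have : Finite P := finite_of_le hP
  obtain ⟨Q, hconj, hfa, hrec⟩ := hEs P hP
  obtain ⟨c, hc, hcimg⟩ := isConj_iff.mp hconj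
  obtain ⟨e, he⟩ := hc.exists_equiv hcimg
  have hα₁ : MulAut.congr e κ ∈ E.autGroup Q := congr_mem_autGroup hc hcimg e he κ hκ
  have hA : IsPGroup p (Subgroup.zpowers (MulAut.congr e κ)) := by
    apply IsPGroup.of_card (n := k)
    rw [Nat.card_zpowers, (MulAut.congr e).orderOf_eq, hk]
  obtain ⟨γ, hγ, hγA⟩ := exists_conj_le_autInducedBy hfa _ hA
    (by rw [Subgroup.zpowers_le]; exact hα₁)
  obtain ⟨s, hs, hsγ⟩ := (mem_autInducedBy_iff T Q _).mp (hγA _ (Subgroup.mem_zpowers _))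
  have hγm : Mor E Q (autFun Q γ) := (mem_autGroup_iff E hfa.1 γ).mp hγ
  have hd : Mor E P (autFun Q γ ∘ c) :=
    hc.comp hγm (fun x hx => hcimg ▸ hc.mem_img_of_mem hx)
  obtain ⟨β, hβ, d₀, hd₀, hdd⟩ := invariant_frattini hDinv hP (mor_of_subsystem hEinv.1 hd)
  have key : ∀ x ∈ P, d₀ (autFun P κ x) =
      autFun T β⁻¹ s * d₀ x * (autFun T β⁻¹ s)⁻¹ := by
    intro x hx
    have hαx : autFun P κ x ∈ P := autFun_mem κ hx
    have h1 : autFun T β (d₀ (autFun P κ x)) = s * autFun T β (d₀ x) * s⁻¹ := by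
      rw [← hdd _ hαx, ← hdd x hx]
      show autFun Q γ (c (autFun P κ x)) = s * autFun Q γ (c x) * s⁻¹
      have hcx : c x ∈ Q := hcimg ▸ hc.mem_img_of_mem hx
      have h2 := hsγ (γ ⟨c x, hcx⟩)
      rw [autFun_apply' γ hcx, ← h2]
      simp only [MulAut.mul_apply, MulAut.inv_apply_self]
      rw [congr_apply_coe]
      have e1 : e.symm ⟨c x, hcx⟩ = ⟨x, hx⟩ := by
        rw [MulEquiv.symm_apply_eq]
        exact Subtype.ext (he ⟨x, hx⟩).symm
      rw [e1]
      have e2 : c (autFun P κ x) = ((e (κ ⟨x, hx⟩) : Q) : Ω) := by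
        rw [he, autFun_apply' κ hx]
      rw [e2, autFun_apply]
    have h3 := congrArg (autFun T β⁻¹) h1
    rw [autFun_inv_apply' β (hd₀.mem hαx), aF_conj β⁻¹ hs (autFun_mem β (hd₀.mem hx)),
      autFun_inv_apply' β (hd₀.mem hx)] at h3
    exact h3
  have hs' : autFun T β⁻¹ s ∈ T := autFun_mem _ hs
  have hM : Mor D P (invFn P d₀ ∘ (fun y => autFun T β⁻¹ s * y * (autFun T β⁻¹ s)⁻¹) ∘ d₀) := by
    refine (hd₀.comp (mor_conj D hd₀.img_le hs')
      (fun x hx => hd₀.mem_img_of_mem hx)).comp hd₀.inv ?_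
    intro x hx
    show autFun T β⁻¹ s * d₀ x * (autFun T β⁻¹ s)⁻¹ ∈ img P d₀
    rw [← key x hx]
    exact hd₀.mem_img_of_mem (autFun_mem κ hx)
  rw [mem_autGroup_iff D hP]
  refine hM.congr (fun x hx => ?_)
  show invFn P d₀ (autFun T β⁻¹ s * d₀ x * (autFun T β⁻¹ s)⁻¹) = autFun P κ x
  rw [← key x hx, hd₀.invFn_apply (autFun_mem κ hx)]

/-- A variant of the key lemma for two invariant saturated subsystems `E`, `D` over `T`: an
element of `Aut_E(T)` whose restriction to a subgroup satisfying `CT` is a map of `D` lies in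
`Aut_D(T)`. -/
theorem W2 [Finite S] [Fact p.Prime] {D : FusionSystem T} {N : Subgroup (MulAut T)}
    (h : Setup F D p N) (hEs : E.IsSaturated p) (hEinv : E.IsInvariantIn F) :
    ∀ (n : ℕ) (V : Subgroup Ω), Nat.card T - Nat.card V = n → CT F T V →
      ∀ γ ∈ E.autGroup T, Mor D V (autFun T γ) → γ ∈ D.autGroup T := by
  have hfinT : Finite T := finite_of_le h.hTS
  have hT : IsPGroup p T := h.hS.to_le h.hTS
  obtain ⟨m, hm, hmo⟩ := exists_pprime_exp p (E.autGroup T)
  have hmD : ∀ γ ∈ E.autGroup T, γ ^ m ∈ D.autGroup T := by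
    intro γ hγ
    obtain ⟨j, hj⟩ := hmo γ hγ
    exact aut_ppow_mem hEs hEinv h.hinv le_rfl ((E.autGroup T).pow_mem hγ m) hj
  intro n
  induction n using Nat.strong_induction_on with
  | _ n ih =>
  intro V hn hV γ hγE hm'
  have hγ : γ ∈ F.autGroup T := autGroup_mono_of_subsystem hEinv.1 T hγE
  have hVT : V ≤ T := hV.1
  rcases eq_or_lt_of_le hVT with heq | hlt
  · exact (mem_autGroup_iff D le_rfl γ).mpr (hm'.restrict heq.ge)
  · have hVc : D.IsCentric V := h.CT_centric hV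
    have hfinV : Finite V := finite_of_le (hVT.trans h.hTS)
    have hVM : V ≤ normalizerIn T V := le_normalizerIn hVT
    have hMT : normalizerIn T V ≤ T := inf_le_left
    have hltM : V < normalizerIn T V := lt_normalizerIn hT hlt
    have hV'c : D.IsCentric (img V (autFun T γ)) := centric_img hVc hm'
    have hrec : D.IsReceptive (img V (autFun T γ)) :=
      rec_of_fullyCentralized hT h.hEs (fullyCentralized_of_centric (fun _ => subset_rfl) hV'c)
    obtain ⟨ψ, hψ, hψV⟩ := receptive_extend' hrec hm' rfl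
    have hγm : Mor F T (autFun T γ) := (mem_autGroup_iff F h.hTS γ).mp hγ
    have hγi : Mor F T (autFun T γ⁻¹) :=
      (mem_autGroup_iff F h.hTS γ⁻¹).mp ((F.autGroup T).inv_mem hγ)
    have hMext : normalizerIn T V ≤ extFn T V (autFun T γ) := by
      intro a ha
      rw [hm'.mem_extFn]
      exact ⟨ha.1, ha.2, autFun T γ a, autFun_mem γ ha.1, fun x hx => aF_conj γ ha.1 (hVT hx)⟩
    have hψM : Mor D (normalizerIn T V) ψ := hψ.restrict hMext
    have hψMF : Mor F (normalizerIn T V) ψ := mor_of_subsystem h.hsub hψM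
    have hρ : Mor F (normalizerIn T V) (autFun T γ⁻¹ ∘ ψ) :=
      hψMF.comp hγi (fun x hx => hψM.mem hx)
    have hρV : ∀ x ∈ V, (autFun T γ⁻¹ ∘ ψ) x = x := by
      intro x hx
      show autFun T γ⁻¹ (ψ x) = x
      rw [hψV x hx, autFun_inv_apply' γ (hVT hx)]
    have hρa : ∀ a ∈ normalizerIn T V, a⁻¹ * (autFun T γ⁻¹ ∘ ψ) a ∈ V := by
      intro a ha
      have haT : a ∈ T := hMT ha
      have hψa : ψ a ∈ T := hψM.mem ha
      have hd : (autFun T γ a)⁻¹ * ψ a ∈ centralizerIn T (img V (autFun T γ)) := by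
        refine ⟨T.mul_mem (T.inv_mem (autFun_mem γ haT)) hψa, ?_⟩
        show _ ∈ Subgroup.centralizer ((img V (autFun T γ) : Subgroup Ω) : Set Ω)
        rw [Subgroup.mem_centralizer_iff]
        intro y hy
        obtain ⟨v, hv, rfl⟩ := hm'.mem_img.mp hy
        have hav : a * v * a⁻¹ ∈ V := conj_mem_of_mem_normalizer ha.2 hv
        have e1 : ψ (a * v * a⁻¹) = ψ a * ψ v * (ψ a)⁻¹ := by
          rw [hψM.map_mul ((normalizerIn T V).mul_mem ha (hVM hv)) ((normalizerIn T V).inv_mem ha),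
            hψM.map_mul ha (hVM hv), hψM.map_inv ha]
        have e2 : ψ (a * v * a⁻¹) = autFun T γ a * autFun T γ v * (autFun T γ a)⁻¹ := by
          rw [hψV _ hav, aF_conj γ haT (hVT hv)]
        have h1 : ψ a * autFun T γ v * (ψ a)⁻¹ =
            autFun T γ a * autFun T γ v * (autFun T γ a)⁻¹ := by
          rw [← e2, e1, hψV v hv]
        have h2 : ψ a * autFun T γ v =
            autFun T γ a * autFun T γ v * (autFun T γ a)⁻¹ * ψ a := by
          rw [← h1]
          group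
        calc autFun T γ v * ((autFun T γ a)⁻¹ * ψ a)
            = (autFun T γ a)⁻¹ *
                (autFun T γ a * autFun T γ v * (autFun T γ a)⁻¹ * ψ a) := by group
          _ = (autFun T γ a)⁻¹ * (ψ a * autFun T γ v) := by rw [h2]
          _ = (autFun T γ a)⁻¹ * ψ a * autFun T γ v := by group
      obtain ⟨z, hz, hzd⟩ := hm'.mem_img.mp (centric_self_le hV'c hd)
      have h3 : ψ a = autFun T γ (a * z) := by
        rw [hγm.map_mul haT (hVT hz), hzd]
        group
      have h4 : (autFun T γ⁻¹ ∘ ψ) a = a * z := by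
        show autFun T γ⁻¹ (ψ a) = a * z
        rw [h3, autFun_inv_apply' γ (T.mul_mem haT (hVT hz))]
      rw [h4, inv_mul_cancel_left]
      exact hz
    have hρM : ∀ a ∈ normalizerIn T V, (autFun T γ⁻¹ ∘ ψ) a ∈ normalizerIn T V := by
      intro a ha
      have h1 := (normalizerIn T V).mul_mem ha (hVM (hρa a ha))
      rwa [mul_inv_cancel_left] at h1
    have hiter : ∀ n : ℕ, ∀ a ∈ normalizerIn T V,
        (autFun T γ⁻¹ ∘ ψ)^[n] a = a * (a⁻¹ * (autFun T γ⁻¹ ∘ ψ) a) ^ n := by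
      intro n
      induction n with
      | zero =>
        intro a _
        simp
      | succ n ihn =>
        intro a ha
        have hz : a⁻¹ * (autFun T γ⁻¹ ∘ ψ) a ∈ V := hρa a ha
        have hzn : (a⁻¹ * (autFun T γ⁻¹ ∘ ψ) a) ^ n ∈ V := V.pow_mem hz n
        rw [Function.iterate_succ_apply', ihn a ha, hρ.map_mul ha (hVM hzn), hρV _ hzn, pow_succ',
          ← mul_assoc, mul_inv_cancel_left]
    obtain ⟨k, hk⟩ := IsPGroup.iff_card.mp (hT.to_le hVT)
    have hρq : ∀ a ∈ normalizerIn T V, (autFun T γ⁻¹ ∘ ψ)^[p ^ k] a = a := by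
      intro a ha
      rw [hiter _ a ha]
      have hz : a⁻¹ * (autFun T γ⁻¹ ∘ ψ) a ∈ V := hρa a ha
      have h1 : (⟨a⁻¹ * (autFun T γ⁻¹ ∘ ψ) a, hz⟩ : V) ^ Nat.card V = 1 := pow_card_eq_one'
      rw [hk] at h1
      have h2 : (a⁻¹ * (autFun T γ⁻¹ ∘ ψ) a) ^ (p ^ k) = 1 := congrArg Subtype.val h1
      rw [h2, mul_one]
    obtain ⟨-, ρq, hρq', hq⟩ := h.iter_decomp (ρ := autFun T γ⁻¹ ∘ ψ) (ρ₀ := ψ) (δ := γ⁻¹)
      ((F.autGroup T).inv_mem hγ) hψM (fun _ _ => rfl) hρM (p ^ k)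
    have hMc : CT F T (normalizerIn T V) := CT_of_le hV hVM hMT
    have hfinM : Finite (normalizerIn T V) := finite_of_le (hMT.trans h.hTS)
    have hcardlt : Nat.card T - Nat.card (normalizerIn T V) < n := by
      have h1 : Nat.card V < Nat.card (normalizerIn T V) := card_lt_of_lt hltM
      have h2 : Nat.card (normalizerIn T V) ≤ Nat.card T := Subgroup.card_le_of_le hMT
      omega
    have h1 : γ ^ (p ^ k) ∈ D.autGroup T := by
      refine ih _ hcardlt (normalizerIn T V) rfl hMc _ ((E.autGroup T).pow_mem hγE _) ?_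
      refine hρq'.congr (fun x hx => ?_)
      have e := congrArg (autFun T (γ⁻¹ ^ (p ^ k))⁻¹) (hq x hx)
      rw [hρq x hx, autFun_inv_apply' (γ⁻¹ ^ (p ^ k)) (hρq'.mem hx)] at e
      rw [← e, inv_pow, inv_inv]
    exact mem_of_pow_coprime (D.autGroup T) (Nat.Coprime.pow_right k hm) (hmD γ hγE) h1

end Cfsg.Agent.Lib.Helper88.PIdx
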