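import Mathlib
import Cfsg.Prelude.Def_GeometricClasses
import Cfsg.Prelude.Def_LieClassical
import Cfsg.Agent.Lib.Helper71.Asch0
import Cfsg.Agent.Lib.Helper71.Asch5
import Cfsg.Agent.Lib.Helper71.Asch8

/-! Project SPG (helper71), sub-project TIF, piece T3x (helper88): congruence of a tensor product
form by `pure tensor * factor permutation`. -/

set_option autoImplicit false
set_option linter.unusedSectionVars false

namespace Cfsg.Agent.Lib.Helper88.TIFT3x

open Matrix Cfsg.Geo Cfsg.Agent.Lib.Helper71.Asch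

variable {n : ℕ} {F : Type*} [Field F] [Fintype F]

/-- the matrix permuting the `k` tensor factors according to `σ` (as in `IsFactorPermutation`) -/
def permM (m : ℕ) {k : ℕ} (σ : Equiv.Perm (Fin k)) : Matrix (Fin k → Fin m) (Fin k → Fin m) F :=
  Matrix.of fun x y => if y = x ∘ σ then 1 else 0

theorem permM_apply (m : ℕ) {k : ℕ} (σ : Equiv.Perm (Fin k)) (x y : Fin k → Fin m) :
    (permM m σ : Matrix (Fin k → Fin m) (Fin k → Fin m) F) x y = if y = x ∘ σ then 1 else 0 :=
  rfl

theorem mul_permM {m k : ℕ} (σ : Equiv.Perm (Fin k))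
    (M : Matrix (Fin k → Fin m) (Fin k → Fin m) F) (x z : Fin k → Fin m) :
    (M * permM m σ : Matrix (Fin k → Fin m) (Fin k → Fin m) F) x z = M x (z ∘ σ.symm) := by
  rw [Matrix.mul_apply, Finset.sum_eq_single (z ∘ σ.symm)]
  · have h0 : z = (z ∘ σ.symm) ∘ σ := by
      ext j
      simp
    rw [permM_apply, if_pos h0, mul_one]
  · intro b _ hb
    have h0 : z ≠ b ∘ σ := by
      rintro rfl
      apply hb
      ext j
      simp
    rw [permM_apply, if_neg h0, mul_zero]
  · intro h
    exact absurd (Finset.mem_univ _) h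

theorem permMT_mul {m k : ℕ} (σ : Equiv.Perm (Fin k))
    (M : Matrix (Fin k → Fin m) (Fin k → Fin m) F) (x z : Fin k → Fin m) :
    ((permM m σ)ᵀ * M : Matrix (Fin k → Fin m) (Fin k → Fin m) F) x z = M (x ∘ σ.symm) z := by
  rw [Matrix.mul_apply, Finset.sum_eq_single (x ∘ σ.symm)]
  · have h0 : x = (x ∘ σ.symm) ∘ σ := by
      ext j
      simp
    rw [Matrix.transpose_apply, permM_apply, if_pos h0, one_mul]
  · intro b _ hb
    have h0 : x ≠ b ∘ σ := by
      rintro rfl
      apply hb
      ext j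
      simp
    rw [Matrix.transpose_apply, permM_apply, if_neg h0, zero_mul]
  · intro h
    exact absurd (Finset.mem_univ _) h

/-- T3x: congruence of a tensor product form by `pure tensor * factor permutation`. -/
theorem T3x {m k : ℕ} (c : F) (Gs : Fin k → Matrix (Fin m) (Fin m) F)
    (G : Matrix (Fin k → Fin m) (Fin k → Fin m) F)
    (hG : ∀ a b, G a b = c * ∏ i, Gs i (a i) (b i)) (cs : Fin k → Matrix (Fin m) (Fin m) F)
    (σ : Equiv.Perm (Fin k)) (a b : Fin k → Fin m) :
    ((pt cs * permM m σ)ᵀ * G * (pt cs * permM m σ) :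
        Matrix (Fin k → Fin m) (Fin k → Fin m) F) a b =
      c * ∏ i, ((cs (σ i))ᵀ * Gs (σ i) * cs (σ i)) (a i) (b i) := by
  have hGeq : G = c • pt Gs := by
    ext x y
    rw [hG, Matrix.smul_apply, pt_apply, smul_eq_mul]
  have h1 : (pt cs * permM m σ)ᵀ * G * (pt cs * permM m σ) =
      (permM m σ)ᵀ * (c • pt (fun i => (cs i)ᵀ * Gs i * cs i)) * permM m σ := by
    have h2 : pt (fun i => (cs i)ᵀ) * (c • pt Gs) * pt cs =
        c • pt (fun i => (cs i)ᵀ * Gs i * cs i) := by
      rw [Matrix.mul_smul, Matrix.smul_mul, pt_mul, pt_mul]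
    rw [Matrix.transpose_mul, hGeq, pt_transpose, ← h2]
    simp only [Matrix.mul_assoc]
  rw [h1, mul_permM, permMT_mul, Matrix.smul_apply, pt_apply, smul_eq_mul]
  congr 1
  refine (Equiv.prod_comp σ (fun i => ((cs i)ᵀ * Gs i * cs i) ((a ∘ σ.symm) i)
    ((b ∘ σ.symm) i))).symm.trans ?_
  apply Finset.prod_congr rfl
  intro i _
  simp only [Function.comp_apply, Equiv.symm_apply_apply]

end Cfsg.Agent.Lib.Helper88.TIFT3x
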