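import Mathlib
import Cfsg.Prelude.Def_GeometricClasses
import Cfsg.Prelude.Def_LieClassical
import Cfsg.Agent.Lib.Helper7.GUOrder
import Cfsg.Agent.Lib.Helper21.SUPU1

/-!
# Project SUQ (helper50, S5841), piece PERP

A group of isometries of the hermitian form stabilising a non-degenerate subspace `W` of half
the dimension stabilises the non-degenerate decomposition `{W, W^⊥}`.
-/

set_option autoImplicit false

namespace Cfsg.Agent.Lib.Helper88.SUQPERP

open Matrix Cfsg.Geo
open Cfsg.Agent.Lib.Helper7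
open Cfsg.Agent.Lib.Helper21.SUPU1 (U1_nondeg U1_stab U1_finrank_perp)

variable {n : ℕ} {F : Type*} [Field F] [Fintype F] {q : ℕ}

set_option linter.unusedSectionVars false

/-- a stabilised subspace is mapped onto itself -/
theorem perp_map_eq (g : GL (Fin n) F) (X : Submodule F (Fin n → F))
    (hg : g ∈ subspaceStabilizer X) :
    X.map (Matrix.toLin' (g : Matrix (Fin n) (Fin n) F)) = X := by
  have h1 : ∀ v, v ∈ (X : Set (Fin n → F)) ↔
      (glToMat (Fin n) F g) *ᵥ v ∈ (X : Set (Fin n → F)) := hg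
  apply le_antisymm
  · rintro _ ⟨v, hv, rfl⟩
    rw [Matrix.toLin'_apply]
    exact (h1 v).mp hv
  · intro w hw
    have h2 : (g : Matrix (Fin n) (Fin n) F) *ᵥ
        (((g⁻¹ : GL (Fin n) F) : Matrix (Fin n) (Fin n) F) *ᵥ w) = w := by
      rw [Matrix.mulVec_mulVec, ← Units.val_mul, mul_inv_cancel, Units.val_one,
        Matrix.one_mulVec]
    refine ⟨((g⁻¹ : GL (Fin n) F) : Matrix (Fin n) (Fin n) F) *ᵥ w, ?_, ?_⟩
    · apply (h1 _).mpr
      show (g : Matrix (Fin n) (Fin n) F) *ᵥ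
        (((g⁻¹ : GL (Fin n) F) : Matrix (Fin n) (Fin n) F) *ᵥ w) ∈ (X : Set (Fin n → F))
      rw [h2]
      exact hw
    · rw [Matrix.toLin'_apply, h2]

/-- PERP: a group of isometries stabilising a non-degenerate subspace of half the dimension
stabilises the decomposition `W ⊕ W^⊥`. -/
theorem PERP (hF : Fintype.card F = q ^ 2) (p : ℕ) (hp : 1 ≤ p) (hn : n = 2 * p)
    (H : Subgroup (GL (Fin n) F)) (hH : H ≤ Cfsg.GU n F q) (W : Submodule F (Fin n → F))
    (hW : IsNondegenerateOn (Cfsg.hermForm n F q) W) (hdim : Module.finrank F W = p)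
    (hle : H ≤ subspaceStabilizer W) :
    ∃ D : Fin 2 → Submodule F (Fin n → F),
      IsNondegenerateMDecomposition (Cfsg.hermForm n F q) p D ∧
      H ≤ decompositionStabilizer D := by
  classical
  have hWinv : ∀ g ∈ H, ∀ w ∈ W, (g : Matrix (Fin n) (Fin n) F) *ᵥ w ∈ W := by
    intro g hg w hw
    have h1 : ∀ v, v ∈ (W : Set (Fin n → F)) ↔
        (glToMat (Fin n) F g) *ᵥ v ∈ (W : Set (Fin n → F)) := hle hg
    exact (h1 w).mp hw
  obtain ⟨Wp, hWp⟩ : ∃ Wp : Submodule F (Fin n → F),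
      ∀ v, v ∈ Wp ↔ ∀ w ∈ W, Cfsg.hermForm n F q w v = 0 :=
    ⟨{ carrier := {v | ∀ w ∈ W, Cfsg.hermForm n F q w v = 0}
       add_mem' := by
         intro a b ha hb w hw
         rw [hf_add_right hF, ha w hw, hb w hw, add_zero]
       zero_mem' := by
         intro w _
         exact hf_zero_right hF n w
       smul_mem' := by
         intro c x hx w hw
         rw [hf_smul_right, hx w hw, mul_zero] }, fun v => Iff.rfl⟩
  have hWpinv : ∀ g ∈ H, ∀ v ∈ Wp, (g : Matrix (Fin n) (Fin n) F) *ᵥ v ∈ Wp := by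
    intro g hg v hv
    rw [hWp]
    intro w hw
    have hgU : g ∈ Cfsg.GU n F q := hH hg
    have h1 : (g : Matrix (Fin n) (Fin n) F) *ᵥ
        (((g⁻¹ : GL (Fin n) F) : Matrix (Fin n) (Fin n) F) *ᵥ w) = w := by
      rw [Matrix.mulVec_mulVec, ← Units.val_mul, mul_inv_cancel, Units.val_one,
        Matrix.one_mulVec]
    have h2 := (mem_GU_iff g).1 hgU (((g⁻¹ : GL (Fin n) F) : Matrix (Fin n) (Fin n) F) *ᵥ w) v
    rw [h1] at h2
    rw [h2]
    exact (hWp v).1 hv _ (hWinv g⁻¹ (H.inv_mem hg) w hw)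
  have hstabWp : H ≤ subspaceStabilizer Wp := U1_stab H Wp hWpinv
  have hR : W ⊓ Wp = ⊥ := by
    rw [eq_bot_iff]
    rintro w ⟨hw, hwp⟩
    rw [Submodule.mem_bot]
    by_contra hw0
    obtain ⟨⟨x, hx, hxw⟩, -⟩ := hW w hw hw0
    exact hxw ((hWp w).1 hwp x hx)
  have hdimp := U1_finrank_perp hF W Wp hWp
  have hsup := Submodule.finrank_sup_add_finrank_inf_eq W Wp
  rw [hR, finrank_bot, add_zero] at hsup
  have hle' : Module.finrank F ↥(W ⊔ Wp) ≤ n := by
    have h3 := Submodule.finrank_le (W ⊔ Wp)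
    rwa [Module.finrank_fin_fun] at h3
  have hWpdim : Module.finrank F Wp = p := by omega
  have htop : W ⊔ Wp = ⊤ := by
    apply Submodule.eq_top_of_finrank_eq
    rw [Module.finrank_fin_fun]
    omega
  have hWpnd : IsNondegenerateOn (Cfsg.hermForm n F q) Wp := by
    intro v hv hv0
    have hex : ∃ y, Cfsg.hermForm n F q y v ≠ 0 := by
      by_contra hcon
      push Not at hcon
      exact hv0 (U1_nondeg v hcon)
    obtain ⟨y, hy⟩ := hex
    have hymem : y ∈ W ⊔ Wp := by
      rw [htop]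
      exact Submodule.mem_top
    obtain ⟨w, hw, x, hx, rfl⟩ := Submodule.mem_sup.1 hymem
    rw [hf_add_left, (hWp v).1 hv w hw, zero_add] at hy
    refine ⟨⟨x, hx, hy⟩, ⟨x, hx, ?_⟩⟩
    rw [hf_conj hF n x v]
    exact pow_ne_zero _ hy
  refine ⟨![W, Wp], ⟨⟨le_rfl, hp, ?_, ?_, ?_⟩, ?_, ?_⟩, ?_⟩
  · intro i
    fin_cases i
    · exact hdim
    · exact hWpdim
  · rw [iSupIndep_pair (i := (0 : Fin 2)) (j := 1) (by decide) (by decide)]
    exact disjoint_iff.mpr hR
  · apply le_antisymm le_top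
    rw [← htop]
    exact sup_le (le_iSup (![W, Wp]) 0) (le_iSup (![W, Wp]) 1)
  · intro i
    fin_cases i
    · exact hW
    · exact hWpnd
  · intro i j hij
    fin_cases i <;> fin_cases j
    · exact absurd rfl hij
    · intro u hu v hv
      exact (hWp v).1 hv u hu
    · intro u hu v hv
      exact hf_eq_zero_symm hF n _ _ ((hWp u).1 hu v hv)
    · exact absurd rfl hij
  · intro g hg
    refine ⟨1, fun i => ?_⟩
    fin_cases i
    · exact perp_map_eq g W (hle hg)
    · exact perp_map_eq g Wp (hstabWp hg)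

end Cfsg.Agent.Lib.Helper88.SUQPERP
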