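import Mathlib
import Cfsg.Agent.Lib.Helper52.LPDefs
import Cfsg.Agent.Lib.Helper52.OutMain
import Cfsg.Agent.Lib.Helper54.OrthLagMinus
set_option autoImplicit false
set_option linter.unusedSectionVars false
namespace Cfsg.Agent.Lib.Helper88.LMF
open Module QuadraticMap Matrix
open Cfsg Cfsg.Agent.Lib.Helper51 Cfsg.Agent.Lib.Helper52 Cfsg.Agent.Lib.Helper54
open Cfsg.Agent.Lib.Helper52.OU Cfsg.Agent.Lib.Helper52.OUMain Cfsg.Agent.Lib.Helper52.LP
universe u

/-- two quadratic forms on a coordinate space agreeing on the vectors `e_i` and `e_i + e_j`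
are equal (any characteristic) -/
theorem quad_ext {κ : Type} [Fintype κ] [DecidableEq κ] {K : Type*} [Field K]
    (Q₁ Q₂ : QuadraticForm K (κ → K))
    (h1 : ∀ i, Q₁ (Pi.single i 1) = Q₂ (Pi.single i 1))
    (h2 : ∀ i j, Q₁ (Pi.single i 1 + Pi.single j 1) = Q₂ (Pi.single i 1 + Pi.single j 1))
    (v : κ → K) : Q₁ v = Q₂ v := by
  set D : QuadraticForm K (κ → K) := Q₁ - Q₂ with hD
  have hDa : ∀ x, D x = Q₁ x - Q₂ x := fun x => rfl
  have hD1 : ∀ i, D (Pi.single i 1) = 0 := by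
    intro i
    rw [hDa, h1, sub_self]
  have hpol : ∀ i j, QuadraticMap.polar ⇑D (Pi.single i 1) (Pi.single j 1) = 0 := by
    intro i j
    unfold QuadraticMap.polar
    rw [hD1, hD1, hDa, h2, sub_self, sub_zero, sub_zero]
  have hB : QuadraticMap.polarBilin D = 0 :=
    LinearMap.BilinForm.ext_basis (Pi.basisFun K κ) (by
      intro i j
      rw [Pi.basisFun_apply, Pi.basisFun_apply, QuadraticMap.polarBilin_apply_apply, hpol]
      rfl)
  have hadd : ∀ x y, D (x + y) = D x + D y := by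
    intro x y
    have h3 := congrArg (fun B : LinearMap.BilinForm K (κ → K) => B x y) hB
    simp only [QuadraticMap.polarBilin_apply_apply, LinearMap.zero_apply] at h3
    unfold QuadraticMap.polar at h3
    linear_combination h3
  let A : (κ → K) →+ K :=
    { toFun := fun x => D x
      map_zero' := map_zero D
      map_add' := hadd }
  have hv : A v = 0 := by
    have e : v = ∑ i, Pi.single i (v i) := (Finset.univ_sum_single v).symm
    rw [e, map_sum]
    apply Finset.sum_eq_zero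
    intro i _
    show D (Pi.single i (v i)) = 0
    have e2 : (Pi.single i (v i) : κ → K) = v i • Pi.single i 1 := by
      rw [← Pi.single_smul, smul_eq_mul, mul_one]
    rw [e2, QuadraticMap.map_smul, hD1, smul_zero]
  have hv' : D v = 0 := hv
  rw [hDa] at hv'
  exact sub_eq_zero.mp hv'

/-- an anisotropic binary form over a finite field has nonzero discriminant -/
theorem disc_ne_zero {F : Type*} [Field F] [Fintype F] (a b : F)
    (hab : ∀ z₁ z₂ : F, z₁ ^ 2 + a * z₁ * z₂ + b * z₂ ^ 2 = 0 → z₁ = 0 ∧ z₂ = 0) :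
    a ^ 2 - 4 * b ≠ 0 := by
  intro h0
  by_cases h2 : (2 : F) = 0
  · have ha : a = 0 := by
      have h3 : a ^ 2 = 0 := by linear_combination h0 + 2 * b * h2
      exact pow_eq_zero_iff (two_ne_zero) |>.mp h3
    have hchar : ringChar F = 2 :=
      CharP.ringChar_of_prime_eq_zero Nat.prime_two (by exact_mod_cast h2)
    obtain ⟨β, hβ⟩ := FiniteField.isSquare_of_char_two hchar b
    have h4 := (hab β 1 (by rw [ha, hβ]; linear_combination (β * β) * h2)).2
    exact one_ne_zero h4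
  · have h4 := (hab (-a / 2) 1 (by field_simp; linear_combination (-1 : F) * h0)).2
    exact one_ne_zero h4

section main

variable {F : Type u} [Field F]

theorem map_single {κ : Type} [DecidableEq κ] {K : Type*} [Field K] (φ : F →+* K) (i : κ) :
    (fun k => φ ((Pi.single i (1 : F) : κ → F) k)) = Pi.single i (1 : K) := by
  funext k
  by_cases hk : k = i
  · subst hk
    simp
  · simp [hk]


theorem minus_fix_core (m : ℕ) (a b : F) (K : Type u) [Field K] [Fintype K] [Algebra F K]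
    (hfin : Module.finrank F K = 2) (θ : K)
    (hθ : θ ^ 2 + algebraMap F K a * θ + algebraMap F K b = 0) (hD : a ^ 2 - 4 * b ≠ 0)
    (hnn : ∀ (Q : QuadraticForm K ((Fin m ⊕ Fin m) ⊕ Fin 2 → K)), IsHyp (m + 1) Q →
      ∀ g h : GL ((Fin m ⊕ Fin m) ⊕ Fin 2) K,
      g ∈ Cfsg.Geo.quadSimilarityGroup (F := K) ⇑Q →
      h ∈ Cfsg.Geo.quadSimilarityGroup (F := K) ⇑Q →
      ¬ PreservesSingularClasses ⇑Q
        (g : Matrix ((Fin m ⊕ Fin m) ⊕ Fin 2) ((Fin m ⊕ Fin m) ⊕ Fin 2) K) →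
      ¬ PreservesSingularClasses ⇑Q
        (h : Matrix ((Fin m ⊕ Fin m) ⊕ Fin 2) ((Fin m ⊕ Fin m) ⊕ Fin 2) K) →
      PreservesSingularClasses ⇑Q
        ((g * h : GL ((Fin m ⊕ Fin m) ⊕ Fin 2) K) :
          Matrix ((Fin m ⊕ Fin m) ⊕ Fin 2) ((Fin m ⊕ Fin m) ⊕ Fin 2) K))
    (hrefl : ∀ (Q : QuadraticForm K ((Fin m ⊕ Fin m) ⊕ Fin 2 → K)), IsHyp (m + 1) Q →
      ∀ v : (Fin m ⊕ Fin m) ⊕ Fin 2 → K, Q v ≠ 0 →
      ¬ PreservesSingularClasses ⇑Q (reflectionMatrix ⇑Q v))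
    (h rw : GL ((Fin m ⊕ Fin m) ⊕ Fin 2) F)
    (hh : h ∈ Cfsg.Geo.quadSimilarityGroup (F := F) (Cfsg.quadFormMinus m F a b))
    (w : (Fin m ⊕ Fin m) ⊕ Fin 2 → F) (hw : Cfsg.quadFormMinus m F a b w ≠ 0)
    (hrw : (rw : Matrix ((Fin m ⊕ Fin m) ⊕ Fin 2) ((Fin m ⊕ Fin m) ⊕ Fin 2) F)
      = reflectionMatrix (Cfsg.quadFormMinus m F a b) w) :
    Cfsg.PreservesSingularClassesMinus m a b
        (h : Matrix ((Fin m ⊕ Fin m) ⊕ Fin 2) ((Fin m ⊕ Fin m) ⊕ Fin 2) F) ∨
      Cfsg.PreservesSingularClassesMinus m a b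
        ((h * rw : GL ((Fin m ⊕ Fin m) ⊕ Fin 2) F) :
          Matrix ((Fin m ⊕ Fin m) ⊕ Fin 2) ((Fin m ⊕ Fin m) ⊕ Fin 2) F) := by
  classical
  set φ : F →+* K := algebraMap F K with hφ
  have hinj : Function.Injective φ := (algebraMap F K).injective
  -- the form over `K` is hyperbolic
  have hDK : 4 * φ b - φ a ^ 2 ≠ 0 := by
    intro h0
    apply hD
    apply hinj
    rw [map_zero, map_sub, map_pow, map_mul]
    have e4 : φ 4 = 4 := map_ofNat φ 4
    rw [e4]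
    linear_combination (-1 : K) * h0
  set lam : K := (4 * φ b - φ a ^ 2)⁻¹ with hlam
  have hlam1 : lam * (4 * φ b - φ a ^ 2) = 1 := inv_mul_cancel₀ hDK
  set θ' : K := -φ a - θ with hθ'
  have hp : θ ^ 2 + φ a * θ * 1 + φ b * 1 ^ 2 = 0 := by linear_combination hθ
  have hq : (lam * θ') ^ 2 + φ a * (lam * θ') * lam + φ b * lam ^ 2 = 0 := by
    rw [hθ']
    linear_combination (lam ^ 2) * hθ
  have hpq : 2 * θ * (lam * θ') + φ a * (θ * lam + (lam * θ') * 1) + 2 * φ b * 1 * lam = 1 := by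
    rw [hθ']
    linear_combination (-2 * lam) * hθ + hlam1
  have hHyp : IsHyp (m + 1) (QMinus m K (φ a) (φ b)) :=
    ⟨plusMinusEquiv (φ a) (φ b) θ 1 (lam * θ') lam hp hq hpq, fun x => by
      rw [Q_plusMinusEquiv, coe_QPlus]⟩
  -- base change of the form
  have hQK : ∀ v : (Fin m ⊕ Fin m) ⊕ Fin 2 → F,
      QMinus m K (φ a) (φ b) (fun i => φ (v i)) = φ (Cfsg.quadFormMinus m F a b v) := by
    intro v
    rw [QMinus_apply]
    simp only [Cfsg.quadFormMinus, map_add, map_sum, map_mul, map_pow]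
  have hmulVec : ∀ (A : Matrix ((Fin m ⊕ Fin m) ⊕ Fin 2) ((Fin m ⊕ Fin m) ⊕ Fin 2) F)
      (v : (Fin m ⊕ Fin m) ⊕ Fin 2 → F),
      (A.map φ) *ᵥ (fun i => φ (v i)) = fun i => φ ((A *ᵥ v) i) := by
    intro A v
    funext i
    exact (RingHom.map_mulVec φ A v i).symm
  have hadd : ∀ x y : (Fin m ⊕ Fin m) ⊕ Fin 2 → F,
      (fun i => φ ((x + y) i)) = (fun i => φ (x i)) + (fun i => φ (y i)) := by
    intro x y
    funext i
    simp
  -- base change of similarities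
  have hsim : ∀ (g : GL ((Fin m ⊕ Fin m) ⊕ Fin 2) F) (c : F),
      (∀ v, Cfsg.quadFormMinus m F a b ((g : Matrix _ _ F) *ᵥ v)
        = c * Cfsg.quadFormMinus m F a b v) →
      ∀ v : (Fin m ⊕ Fin m) ⊕ Fin 2 → K,
        QMinus m K (φ a) (φ b) (((g : Matrix _ _ F).map φ) *ᵥ v)
          = φ c * QMinus m K (φ a) (φ b) v := by
    intro g c hc v
    have hrat : ∀ x : (Fin m ⊕ Fin m) ⊕ Fin 2 → F,
        ((QMinus m K (φ a) (φ b)).comp (Matrix.toLin' ((g : Matrix _ _ F).map φ)))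
            (fun i => φ (x i))
          = ((φ c) • QMinus m K (φ a) (φ b)) (fun i => φ (x i)) := by
      intro x
      rw [QuadraticMap.comp_apply, Matrix.toLin'_apply, _root_.smul_apply, smul_eq_mul,
        hmulVec, hQK, hQK, hc, map_mul]
    have key := quad_ext
      ((QMinus m K (φ a) (φ b)).comp (Matrix.toLin' ((g : Matrix _ _ F).map φ)))
      ((φ c) • QMinus m K (φ a) (φ b)) ?_ ?_ v
    · rw [QuadraticMap.comp_apply, Matrix.toLin'_apply, _root_.smul_apply,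
        smul_eq_mul] at key
      exact key
    · intro i
      have h3 := hrat (Pi.single i 1)
      rw [map_single φ i] at h3
      exact h3
    · intro i j
      have h3 := hrat (Pi.single i 1 + Pi.single j 1)
      rw [hadd, map_single φ i, map_single φ j] at h3
      exact h3
  have hmem : ∀ (g : GL ((Fin m ⊕ Fin m) ⊕ Fin 2) F),
      g ∈ Cfsg.Geo.quadSimilarityGroup (F := F) (Cfsg.quadFormMinus m F a b) →
      Matrix.GeneralLinearGroup.map φ g
        ∈ Cfsg.Geo.quadSimilarityGroup (F := K) ⇑(QMinus m K (φ a) (φ b)) := by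
    rintro g ⟨c, hc⟩
    exact ⟨Units.map (φ : F →* K) c, fun v => hsim g c hc v⟩
  -- the reflection over `K`
  have hwK : QMinus m K (φ a) (φ b) (fun i => φ (w i)) ≠ 0 := by
    rw [hQK]
    intro h0
    exact hw (hinj (h0.trans (map_zero φ).symm))
  have hreflK : (rw : Matrix ((Fin m ⊕ Fin m) ⊕ Fin 2) ((Fin m ⊕ Fin m) ⊕ Fin 2) F).map φ
      = reflectionMatrix ⇑(QMinus m K (φ a) (φ b)) (fun i => φ (w i)) := by
    rw [hrw]
    ext i j
    have hpv : φ (polarVec (Cfsg.quadFormMinus m F a b) w j)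
        = polarVec ⇑(QMinus m K (φ a) (φ b)) (fun i => φ (w i)) j := by
      unfold polarVec QuadraticMap.polar
      rw [map_sub, map_sub, ← hQK, ← hQK, ← hQK, hadd, map_single φ j]
    simp only [reflectionMatrix, Matrix.map_apply, Matrix.sub_apply, Matrix.smul_apply,
      Matrix.vecMulVec_apply, smul_eq_mul, map_sub, map_mul, map_inv₀]
    rw [hpv, hQK]
    congr 1
    simp [Matrix.one_apply]
  have hnot : ¬ PreservesSingularClasses ⇑(QMinus m K (φ a) (φ b))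
      ((rw : Matrix ((Fin m ⊕ Fin m) ⊕ Fin 2) ((Fin m ⊕ Fin m) ⊕ Fin 2) F).map φ) := by
    rw [hreflK]
    exact hrefl _ hHyp _ hwK
  have hrwsim : rw ∈ Cfsg.Geo.quadSimilarityGroup (F := F) (Cfsg.quadFormMinus m F a b) := by
    refine ⟨1, fun v => ?_⟩
    rw [hrw, Units.val_one, one_mul, ← coe_QMinus]
    exact Q_reflection (QMinus m F a b) w v (by rw [coe_QMinus]; exact hw)
  by_cases hP : PreservesSingularClasses ⇑(QMinus m K (φ a) (φ b))
      ((h : Matrix ((Fin m ⊕ Fin m) ⊕ Fin 2) ((Fin m ⊕ Fin m) ⊕ Fin 2) F).map φ)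
  · left
    refine ⟨K, inferInstance, inferInstance, hfin, ?_⟩
    rw [← coe_QMinus]
    exact hP
  · right
    refine ⟨K, inferInstance, inferInstance, hfin, ?_⟩
    rw [← coe_QMinus]
    have h5 := hnn _ hHyp (Matrix.GeneralLinearGroup.map φ h) (Matrix.GeneralLinearGroup.map φ rw)
      (hmem h hh) (hmem rw hrwsim) hP hnot
    rw [← map_mul] at h5
    exact h5

open Polynomial in
theorem minus_fix [Fintype F] (m : ℕ) (a b : F)
    (hab : ∀ z₁ z₂ : F, z₁ ^ 2 + a * z₁ * z₂ + b * z₂ ^ 2 = 0 → z₁ = 0 ∧ z₂ = 0)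
    (hnn : ∀ (K : Type u) [Field K] [Fintype K]
      (Q : QuadraticForm K ((Fin m ⊕ Fin m) ⊕ Fin 2 → K)), IsHyp (m + 1) Q →
      ∀ g h : GL ((Fin m ⊕ Fin m) ⊕ Fin 2) K,
      g ∈ Cfsg.Geo.quadSimilarityGroup (F := K) ⇑Q →
      h ∈ Cfsg.Geo.quadSimilarityGroup (F := K) ⇑Q →
      ¬ PreservesSingularClasses ⇑Q
        (g : Matrix ((Fin m ⊕ Fin m) ⊕ Fin 2) ((Fin m ⊕ Fin m) ⊕ Fin 2) K) →
      ¬ PreservesSingularClasses ⇑Q
        (h : Matrix ((Fin m ⊕ Fin m) ⊕ Fin 2) ((Fin m ⊕ Fin m) ⊕ Fin 2) K) →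
      PreservesSingularClasses ⇑Q
        ((g * h : GL ((Fin m ⊕ Fin m) ⊕ Fin 2) K) :
          Matrix ((Fin m ⊕ Fin m) ⊕ Fin 2) ((Fin m ⊕ Fin m) ⊕ Fin 2) K))
    (hrefl : ∀ (K : Type u) [Field K] [Fintype K]
      (Q : QuadraticForm K ((Fin m ⊕ Fin m) ⊕ Fin 2 → K)), IsHyp (m + 1) Q →
      ∀ v : (Fin m ⊕ Fin m) ⊕ Fin 2 → K, Q v ≠ 0 →
      ¬ PreservesSingularClasses ⇑Q (reflectionMatrix ⇑Q v))
    (h rw : GL ((Fin m ⊕ Fin m) ⊕ Fin 2) F)
    (hh : h ∈ Cfsg.Geo.quadSimilarityGroup (F := F) (Cfsg.quadFormMinus m F a b))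
    (w : (Fin m ⊕ Fin m) ⊕ Fin 2 → F) (hw : Cfsg.quadFormMinus m F a b w ≠ 0)
    (hrw : (rw : Matrix ((Fin m ⊕ Fin m) ⊕ Fin 2) ((Fin m ⊕ Fin m) ⊕ Fin 2) F)
      = reflectionMatrix (Cfsg.quadFormMinus m F a b) w) :
    Cfsg.PreservesSingularClassesMinus m a b
        (h : Matrix ((Fin m ⊕ Fin m) ⊕ Fin 2) ((Fin m ⊕ Fin m) ⊕ Fin 2) F) ∨
      Cfsg.PreservesSingularClassesMinus m a b
        ((h * rw : GL ((Fin m ⊕ Fin m) ⊕ Fin 2) F) :
          Matrix ((Fin m ⊕ Fin m) ⊕ Fin 2) ((Fin m ⊕ Fin m) ⊕ Fin 2) F) := by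
  classical
  have hdeg : (C (1 : F) * X ^ 2 + C a * X + C b).natDegree = 2 := natDegree_quadratic one_ne_zero
  have hirr : Irreducible (C (1 : F) * X ^ 2 + C a * X + C b) := by
    apply irreducible_of_degree_le_three_of_not_isRoot
    · rw [hdeg]; decide
    · intro z hz
      rw [IsRoot] at hz
      simp only [eval_add, eval_mul, eval_C, eval_pow, eval_X, one_mul] at hz
      have := (hab z 1 (by linear_combination hz)).2
      exact one_ne_zero this
  have : Fact (Irreducible (C (1 : F) * X ^ 2 + C a * X + C b)) := ⟨hirr⟩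
  have hfin : Module.finrank F (AdjoinRoot (C (1 : F) * X ^ 2 + C a * X + C b)) = 2 := by
    rw [(AdjoinRoot.powerBasis hirr.ne_zero).finrank, AdjoinRoot.powerBasis_dim, hdeg]
  have : Module.Finite F (AdjoinRoot (C (1 : F) * X ^ 2 + C a * X + C b)) :=
    (AdjoinRoot.powerBasis hirr.ne_zero).finite
  have : Finite (AdjoinRoot (C (1 : F) * X ^ 2 + C a * X + C b)) := Module.finite_of_finite F
  letI : Fintype (AdjoinRoot (C (1 : F) * X ^ 2 + C a * X + C b)) := Fintype.ofFinite _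
  have hθ : (AdjoinRoot.root (C (1 : F) * X ^ 2 + C a * X + C b)) ^ 2
      + algebraMap F (AdjoinRoot (C (1 : F) * X ^ 2 + C a * X + C b)) a
        * (AdjoinRoot.root (C (1 : F) * X ^ 2 + C a * X + C b))
      + algebraMap F (AdjoinRoot (C (1 : F) * X ^ 2 + C a * X + C b)) b = 0 := by
    have h1 := AdjoinRoot.eval₂_root (C (1 : F) * X ^ 2 + C a * X + C b)
    simp only [eval₂_add, eval₂_mul, eval₂_C, eval₂_pow, eval₂_X, map_one, one_mul] at h1
    exact h1
  exact minus_fix_core m a b (AdjoinRoot (C (1 : F) * X ^ 2 + C a * X + C b)) hfin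
    (AdjoinRoot.root (C (1 : F) * X ^ 2 + C a * X + C b)) hθ (disc_ne_zero a b hab)
    (hnn _) (hrefl _) h rw hh w hw hrw

end main

end Cfsg.Agent.Lib.Helper88.LMF
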