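import Mathlib
import Cfsg.Agent.Lib.Helper88.LP4
import Cfsg.Agent.Lib.Helper88.LMF
set_option autoImplicit false
set_option linter.unusedSectionVars false
namespace Cfsg.Agent.Lib.Helper88.MFBIN
open Module QuadraticMap Matrix
open Cfsg

/-- finite-field arithmetic: two anisotropic binary forms `z₁² + a z₁ z₂ + b z₂²` are related by
a substitution `(z₁, z₂) ↦ (z₁ + p z₂, q z₂)`. -/
theorem exists_pq_gen {K : Type*} [Field K] [Fintype K] (a b a' b' : K)
    (hab : ∀ z₁ z₂ : K, z₁ ^ 2 + a * z₁ * z₂ + b * z₂ ^ 2 = 0 → z₁ = 0 ∧ z₂ = 0)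
    (hab' : ∀ z₁ z₂ : K, z₁ ^ 2 + a' * z₁ * z₂ + b' * z₂ ^ 2 = 0 → z₁ = 0 ∧ z₂ = 0) :
    ∃ p q : K, q ≠ 0 ∧ 2 * p + a' * q = a ∧ p ^ 2 + a' * p * q + b' * q ^ 2 = b := by
  classical
  have hD := Cfsg.Agent.Lib.Helper88.LMF.disc_ne_zero a b hab
  have hD' := Cfsg.Agent.Lib.Helper88.LMF.disc_ne_zero a' b' hab'
  by_cases h2 : (2 : K) = 0
  · have h4 : (4 : K) = 0 := by linear_combination 2 * h2
    have ha : a ≠ 0 := by
      rintro rfl
      apply hD
      rw [h4]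
      ring
    have ha' : a' ≠ 0 := by
      rintro rfl
      apply hD'
      rw [h4]
      ring
    have hζ : ∀ t : K, t ^ 2 + t + b / a ^ 2 ≠ 0 := by
      intro t ht
      have h3 := (hab (a * t) 1 (by
        have e : (a * t) ^ 2 + a * (a * t) * 1 + b * 1 ^ 2 = a ^ 2 * (t ^ 2 + t + b / a ^ 2) := by
          field_simp
        rw [e, ht, mul_zero])).2
      exact one_ne_zero h3
    have hζ' : ∀ t : K, t ^ 2 + t + b' / a' ^ 2 ≠ 0 := by
      intro t ht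
      have h3 := (hab' (a' * t) 1 (by
        have e : (a' * t) ^ 2 + a' * (a' * t) * 1 + b' * 1 ^ 2
            = a' ^ 2 * (t ^ 2 + t + b' / a' ^ 2) := by
          field_simp
        rw [e, ht, mul_zero])).2
      exact one_ne_zero h3
    obtain ⟨p₀, q₀, -, h1, h3⟩ :=
      Cfsg.Agent.Lib.Helper88.LP4.exists_pq (b / a ^ 2) (b' / a' ^ 2) hζ hζ'
    have hq₀ : q₀ = 1 := by linear_combination h1 - p₀ * h2
    rw [hq₀] at h3
    refine ⟨a * p₀, a / a', div_ne_zero ha ha', ?_, ?_⟩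
    · have e0 : a' * (a / a') = a := by field_simp
      rw [e0]
      linear_combination (a * p₀) * h2
    · have e : (a * p₀) ^ 2 + a' * (a * p₀) * (a / a') + b' * (a / a') ^ 2
          = a ^ 2 * (p₀ ^ 2 + p₀ * 1 + b / a ^ 2 * 1 ^ 2) + (b' / a' ^ 2) * a ^ 2 - b := by
        field_simp
        ring
      rw [e, h3]
      linear_combination (a ^ 2 * (b' / a' ^ 2) - b) * h2
  · have h4 : (4 : K) ≠ 0 := by
      have : (4 : K) = 2 * 2 := by norm_num
      rw [this]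
      exact mul_ne_zero h2 h2
    have hDs : ¬ IsSquare (a ^ 2 - 4 * b) := by
      rintro ⟨s, hs⟩
      have h3 := (hab ((s - a) / 2) 1 (by
        field_simp
        linear_combination (-1 : K) * hs)).2
      exact one_ne_zero h3
    have hDs' : ¬ IsSquare (a' ^ 2 - 4 * b') := by
      rintro ⟨s, hs⟩
      have h3 := (hab' ((s - a') / 2) 1 (by
        field_simp
        linear_combination (-1 : K) * hs)).2
      exact one_ne_zero h3
    have hsq : IsSquare ((a ^ 2 - 4 * b) * (a' ^ 2 - 4 * b')) := by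
      rw [← quadraticChar_one_iff_isSquare (mul_ne_zero hD hD'), map_mul,
        quadraticChar_neg_one_iff_not_isSquare.mpr hDs,
        quadraticChar_neg_one_iff_not_isSquare.mpr hDs']
      norm_num
    obtain ⟨s0, hs0⟩ := hsq
    have hs00 : s0 ≠ 0 := by
      rintro rfl
      simp at hs0
      rcases hs0 with h0 | h0
      · exact hD h0
      · exact hD' h0
    set q := s0 / (a' ^ 2 - 4 * b') with hqdef
    have hq : q ^ 2 * (a' ^ 2 - 4 * b') = a ^ 2 - 4 * b := by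
      rw [hqdef]
      field_simp
      linear_combination (-1 : K) * hs0
    have hqne : q ≠ 0 := div_ne_zero hs00 hD'
    refine ⟨(a - a' * q) / 2, q, hqne, by field_simp; ring, ?_⟩
    field_simp
    linear_combination (-1 : K) * hq

theorem shear_form_gen {F : Type*} [Field F] (k : ℕ) (p q a b a' b' : F)
    (h1 : 2 * p + a' * q = a) (h2 : p ^ 2 + a' * p * q + b' * q ^ 2 = b)
    (v : (Fin k ⊕ Fin k) ⊕ Fin 2 → F) :
    Cfsg.quadFormMinus k F a' b' (Cfsg.Agent.Lib.Helper88.LP4.shearMap k p q v)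
      = Cfsg.quadFormMinus k F a b v := by
  unfold Cfsg.quadFormMinus
  rw [Cfsg.Agent.Lib.Helper88.LP4.shearMap_zero, Cfsg.Agent.Lib.Helper88.LP4.shearMap_one]
  simp only [Cfsg.Agent.Lib.Helper88.LP4.shearMap_inl]
  linear_combination (v (Sum.inr 0) * v (Sum.inr 1)) * h1 + (v (Sum.inr 1)) ^ 2 * h2

theorem exists_isometry_minus {F : Type*} [Field F] [Fintype F] (m : ℕ) (a b a' b' : F)
    (hab : ∀ z₁ z₂ : F, z₁ ^ 2 + a * z₁ * z₂ + b * z₂ ^ 2 = 0 → z₁ = 0 ∧ z₂ = 0)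
    (hab' : ∀ z₁ z₂ : F, z₁ ^ 2 + a' * z₁ * z₂ + b' * z₂ ^ 2 = 0 → z₁ = 0 ∧ z₂ = 0) :
    ∃ T : GL ((Fin m ⊕ Fin m) ⊕ Fin 2) F, ∀ v : (Fin m ⊕ Fin m) ⊕ Fin 2 → F,
      Cfsg.quadFormMinus m F a' b'
        ((T : Matrix ((Fin m ⊕ Fin m) ⊕ Fin 2) ((Fin m ⊕ Fin m) ⊕ Fin 2) F) *ᵥ v) =
      Cfsg.quadFormMinus m F a b v := by
  obtain ⟨p, q, hq, h1, h2⟩ := exists_pq_gen a b a' b' hab hab'
  obtain ⟨R, -, hR⟩ := Cfsg.Agent.Lib.Helper88.LP4.exists_mat_of_equiv (RingEquiv.refl F)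
    (Cfsg.Agent.Lib.Helper88.LP4.shearEquiv m p q hq) (fun v => rfl)
  refine ⟨R, fun v => ?_⟩
  rw [hR, Cfsg.Agent.Lib.Helper88.LP4.shearEquiv_apply]
  exact shear_form_gen m p q a b a' b' h1 h2 v

end Cfsg.Agent.Lib.Helper88.MFBIN
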