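import Mathlib
import Cfsg.Prelude.Def_Characters
import Cfsg.Agent.Lib.Helper22.PTDefs

/-! Project PT (S4705, helper22), piece ZREG (helper88): central elements are `p`-regular. -/

set_option autoImplicit false

namespace Cfsg.Agent.Lib.Helper88.PT

open Cfsg Cfsg.Agent.Lib.Helper22.BFD Cfsg.Agent.Lib.Helper22.PT
open scoped ComplexConjugate

universe u

variable {G : Type u} [Group G] [Fintype G]

/-- PIECE ZREG -/
theorem zreg (p : ℕ) [Fact p.Prime] (z : G) (ζ : G → ℂ) (h : Hyp G p z ζ) :
    ∀ c ∈ Subgroup.center G, ¬ p ∣ orderOf c := by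
  intro c hc hpc
  have hp : p.Prime := Fact.out
  have hc0 : orderOf c ≠ 0 := (orderOf_pos c).ne'
  obtain ⟨c', hc'⟩ : ∃ c' : G, c' = c ^ (orderOf c / p) := ⟨_, rfl⟩
  have hord : orderOf c' = p := by
    rw [hc']
    exact orderOf_pow_orderOf_div hc0 hpc
  have hcen : c' ∈ Subgroup.center G := by
    rw [hc']
    exact Subgroup.pow_mem _ hc _
  have hNle : Subgroup.zpowers c' ≤ Subgroup.center G := by
    rw [Subgroup.zpowers_le]
    exact hcen
  have hNn : (Subgroup.zpowers c').Normal := by
    constructor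
    intro n hn g
    have h1 := Subgroup.mem_center_iff.mp (hNle hn) g
    have h2 : g * n * g⁻¹ = n := by rw [h1, mul_assoc, mul_inv_cancel, mul_one]
    rw [h2]
    exact hn
  have hNcard : Nat.card (Subgroup.zpowers c') = p := by rw [Nat.card_zpowers, hord]
  have hzN : z ∈ Subgroup.zpowers c' := by
    by_contra hzN
    have hq1 : (QuotientGroup.mk' (Subgroup.zpowers c') z) ≠ 1 := by
      intro h0
      exact hzN ((QuotientGroup.eq_one_iff z).mp h0)
    have hqp : (QuotientGroup.mk' (Subgroup.zpowers c') z) ^ p = 1 := by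
      have hzp : z ^ p = 1 := by rw [← h.ord]; exact pow_orderOf_eq_one z
      rw [← map_pow, hzp, map_one]
    have hqo : orderOf (QuotientGroup.mk' (Subgroup.zpowers c') z) = p :=
      orderOf_eq_prime hqp hq1
    have hdvd : p ∣ Nat.card (G ⧸ Subgroup.zpowers c') := by
      rw [← hqo]
      exact orderOf_dvd_natCard _
    apply h.sq
    rw [Subgroup.card_eq_card_quotient_mul_card_subgroup (Subgroup.zpowers c'), hNcard, pow_two]
    exact Nat.mul_dvd_mul_right hdvd p
  have hle : Subgroup.zpowers z ≤ Subgroup.zpowers c' := by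
    rw [Subgroup.zpowers_le]
    exact hzN
  have heq : Subgroup.zpowers z = Subgroup.zpowers c' := by
    apply Subgroup.eq_of_le_of_card_ge hle
    rw [hNcard, Nat.card_zpowers, h.ord]
  apply h.nn
  rw [heq]
  exact hNn

end Cfsg.Agent.Lib.Helper88.PT
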