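import Mathlib
import Cfsg.Agent.Lib.Helper22.PRatA
import Cfsg.Agent.Lib.Helper80.Galois

set_option autoImplicit false

namespace Cfsg.Agent.Lib.Helper88.DG

open Cfsg

variable {G : Type*} [Group G] [Fintype G]

/-- PIECE GALU -/
theorem exists_galois_unit (p : ℕ) [Fact p.Prime] (hdiv : p ∣ Nat.card G)
    (hsq : ¬ p ^ 2 ∣ Nat.card G) (k₀ : (ZMod p)ˣ) :
    ∃ (σ : ℂ ≃+* ℂ) (k : ℕ),
      σ (Complex.exp (2 * Real.pi * Complex.I /
        ((Nat.card G / p ^ (Nat.card G).factorization p : ℕ) : ℂ))) =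
      Complex.exp (2 * Real.pi * Complex.I /
        ((Nat.card G / p ^ (Nat.card G).factorization p : ℕ) : ℂ)) ∧
      (k : ZMod p) = (k₀ : ZMod p) ∧ k.Coprime (Nat.card G) ∧
      k ≡ 1 [MOD Nat.card G / p ^ (Nat.card G).factorization p] ∧
      ∀ (χ : IrrCharacter G) (g : G), σ (χ.1 g) = χ.1 (g ^ k) := by
  classical
  have hp : p.Prime := Fact.out
  have hn : 0 < Nat.card G := Nat.card_pos
  have hn0 : Nat.card G ≠ 0 := hn.ne'
  have hv : (Nat.card G).factorization p = 1 := by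
    have h1 : 0 < (Nat.card G).factorization p := hp.factorization_pos_of_dvd hn0 hdiv
    have h2 : ¬ 2 ≤ (Nat.card G).factorization p := fun h =>
      hsq ((hp.pow_dvd_iff_le_factorization hn0).mpr h)
    omega
  rw [hv, pow_one]
  obtain ⟨g', hg'⟩ := hdiv
  have hg'div : Nat.card G / p = g' := by
    rw [hg', Nat.mul_div_cancel_left _ hp.pos]
  rw [hg'div]
  have hg'0 : g' ≠ 0 := by
    rintro rfl
    exact hn0 (by rw [hg', mul_zero])
  have hcop : Nat.Coprime p g' := by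
    rw [hp.coprime_iff_not_dvd]
    rintro ⟨c, rfl⟩
    exact hsq ⟨c, by rw [hg']; ring⟩
  -- the Chinese remainder theorem
  obtain ⟨k, hkp, hk1⟩ := Nat.chineseRemainder hcop (k₀ : ZMod p).val 1
  have hkz : (k : ZMod p) = (k₀ : ZMod p) := by
    rw [(ZMod.natCast_eq_natCast_iff _ _ _).mpr hkp, ZMod.natCast_zmod_val]
  have hkcp : Nat.Coprime k p := by
    rw [Nat.coprime_comm, hp.coprime_iff_not_dvd]
    intro hdvd
    have h0 : (k : ZMod p) = 0 := (ZMod.natCast_eq_zero_iff _ _).mpr hdvd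
    rw [hkz] at h0
    exact k₀.ne_zero h0
  have hkcg : Nat.Coprime k g' := by
    rw [Nat.Coprime, hk1.gcd_eq]
    simp
  have hkc : Nat.Coprime k (Nat.card G) := by
    rw [hg']
    exact Nat.Coprime.mul_right hkcp hkcg
  -- the automorphism
  have hζ := Complex.isPrimitiveRoot_exp (Nat.card G) hn0
  obtain ⟨τ, hτ⟩ := Cfsg.Agent.Lib.Helper80.exists_ringEquiv_pow (Nat.card G) k hn hkc _ hζ
  have hω : Complex.exp (2 * Real.pi * Complex.I / ((g' : ℕ) : ℂ)) =
      Complex.exp (2 * Real.pi * Complex.I / ((Nat.card G : ℕ) : ℂ)) ^ p := by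
    rw [← Complex.exp_nat_mul]
    congr 1
    have hpc : (p : ℂ) ≠ 0 := Nat.cast_ne_zero.mpr hp.ne_zero
    have hgc : (g' : ℂ) ≠ 0 := Nat.cast_ne_zero.mpr hg'0
    rw [hg']
    push_cast
    field_simp
  refine ⟨τ, k, ?_, hkz, hkc, hk1, ?_⟩
  · rw [hω, map_pow, hτ, ← pow_mul]
    have h := hk1.mul_right' p
    rw [one_mul] at h
    have h' : k * p ≡ p [MOD Nat.card G] := by
      rw [hg', mul_comm p g']
      exact h
    rw [pow_eq_pow_mod (k * p) hζ.pow_eq_one, pow_eq_pow_mod p hζ.pow_eq_one]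
    congr 1
  · intro χ g
    obtain ⟨m, ρ, -, hρ⟩ := χ.2
    rw [← hρ]
    exact Cfsg.Agent.Lib.Helper22.PRat.tau_character τ (Nat.card G) k hn hτ ρ g
      (pow_card_eq_one')

end Cfsg.Agent.Lib.Helper88.DG
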