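import Cfsg.Agent.Lib.Helper88.FusSat
import Cfsg.Agent.Lib.Helper91.CentSys
import Cfsg.Prelude.Def_TwoFusion

set_option autoImplicit false

/-!
# Fusion systems over a direct product of two strongly closed subgroups (helper88)

`S = S₁ × S₂` with both factors strongly closed in the saturated system `F`.
Part A: extension lemmas.
-/

namespace Cfsg.Agent.Lib.Helper88.DP

open Cfsg Cfsg.FusionSystem Cfsg.Agent.Lib.Helper90 Cfsg.Agent.Lib.Helper91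
open Cfsg.Agent.Lib.Helper88 (sc_mor sc_conj sup_decomp)

variable {Ω : Type*} [Group Ω] {S : Subgroup Ω} {F : FusionSystem S} {p : ℕ}
  {S₁ S₂ P Q : Subgroup Ω} {f g : Ω → Ω}

/-- The standing hypotheses. -/
structure Hyp (F : FusionSystem S) (p : ℕ) (S₁ S₂ : Subgroup Ω) : Prop where
  pgroup : IsPGroup p S
  sat : F.IsSaturated p
  le1 : S₁ ≤ S
  le2 : S₂ ≤ S
  comm : ∀ a ∈ S₁, ∀ b ∈ S₂, a * b = b * a
  inf : S₁ ⊓ S₂ = ⊥
  sup : S₁ ⊔ S₂ = S
  sc1 : F.StronglyClosed S₁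
  sc2 : F.StronglyClosed S₂

theorem Hyp.symm (h : Hyp F p S₁ S₂) : Hyp F p S₂ S₁ where
  pgroup := h.pgroup
  sat := h.sat
  le1 := h.le2
  le2 := h.le1
  comm := fun a ha b hb => (h.comm b hb a ha).symm
  inf := by rw [inf_comm]; exact h.inf
  sup := by rw [sup_comm]; exact h.sup
  sc1 := h.sc2
  sc2 := h.sc1

theorem Hyp.conj_eq (h : Hyp F p S₁ S₂) {a b : Ω} (ha : a ∈ S₁) (hb : b ∈ S₂) :
    a * b * a⁻¹ = b := by
  rw [h.comm a ha b hb]; group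

theorem Hyp.conj_eq' (h : Hyp F p S₁ S₂) {a b : Ω} (ha : a ∈ S₁) (hb : b ∈ S₂) :
    b * a * b⁻¹ = a := by
  rw [← h.comm a ha b hb]; group

/-- Decomposition of elements of `P ⊔ S₂` for `P ≤ S₁`. -/
theorem Hyp.decomp (h : Hyp F p S₁ S₂) (hP : P ≤ S₁) :
    ∀ z ∈ P ⊔ S₂, ∃ x ∈ P, ∃ n ∈ S₂, z = x * n := by
  apply sup_decomp
  intro x hx n hn
  have h1 : x⁻¹ * n * x = n := by
    have := h.comm x (hP hx) n hn
    calc x⁻¹ * n * x = x⁻¹ * (n * x) := by group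
      _ = x⁻¹ * (x * n) := by rw [this]
      _ = n := by group
  rw [h1]
  exact hn

theorem Hyp.decompS (h : Hyp F p S₁ S₂) : ∀ z ∈ S, ∃ x ∈ S₁, ∃ n ∈ S₂, z = x * n := by
  intro z hz
  rw [← h.sup] at hz
  exact h.decomp le_rfl z hz

/-- `(P ⊔ S₂) ⊓ S₁ = P` for `P ≤ S₁`. -/
theorem Hyp.sup_inf (h : Hyp F p S₁ S₂) (hP : P ≤ S₁) {z : Ω} (hz : z ∈ P ⊔ S₂) (hz1 : z ∈ S₁) :
    z ∈ P := by
  obtain ⟨x, hx, n, hn, rfl⟩ := h.decomp hP z hz
  have hn1 : n ∈ S₁ := by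
    have : n = x⁻¹ * (x * n) := by group
    rw [this]
    exact S₁.mul_mem (S₁.inv_mem (hP hx)) hz1
  have : n ∈ S₁ ⊓ S₂ := ⟨hn1, hn⟩
  rw [h.inf, Subgroup.mem_bot] at this
  rw [this, mul_one]
  exact hx

/-- A strongly closed subgroup is its only conjugate, hence fully normalized. -/
theorem fn_of_sc [Finite S] (hsc : F.StronglyClosed Q) : F.IsFullyNormalized Q := by
  have : Finite Q := finite_of_le hsc.1
  refine ⟨hsc.1, fun Q' hconj => ?_⟩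
  obtain ⟨c, hc, himg⟩ := isConj_iff.mp hconj
  have : Q' = Q := by
    rw [← himg]
    exact hc.img_eq_self (sc_mor hsc le_rfl hc)
  rw [this]

theorem rec_of_sc [Finite S] [Fact p.Prime] (hS : IsPGroup p S) (hF : F.IsSaturated p)
    (hsc : F.StronglyClosed Q) : F.IsReceptive Q :=
  (fa_rec_of_fullyNormalized hS hF (fn_of_sc hsc)).2

/-- Lemma B: a map of the system from `S₂` to itself extends to `S`. -/
theorem Hyp.ext_aut [Finite S] [Fact p.Prime] (h : Hyp F p S₁ S₂) {β : Ω → Ω}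
    (hβ : Mor F S₂ β) : ∃ γ, Mor F S γ ∧ ∀ x ∈ S₂, γ x = β x := by
  have : Finite S₂ := finite_of_le h.le2
  have hmap : ∀ x ∈ S₂, β x ∈ S₂ := sc_mor h.sc2 le_rfl hβ
  have himg : img S₂ β = S₂ := hβ.img_eq_self hmap
  refine receptive_extend (rec_of_sc h.pgroup h.sat h.sc2) hβ himg S h.le2 ?_
  intro a ha
  refine ⟨ha, mem_normalizer_of_finite (fun x hx => sc_conj h.sc2 ha hx), ?_⟩
  obtain ⟨a₁, ha₁, a₂, ha₂, rfl⟩ := h.decompS a ha
  refine ⟨β a₂, hβ.mem ha₂, fun x hx => ?_⟩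
  have h1 : a₁ * a₂ * x * (a₁ * a₂)⁻¹ = a₂ * x * a₂⁻¹ := by
    have h2 := h.conj_eq ha₁ (S₂.mul_mem (S₂.mul_mem ha₂ hx) (S₂.inv_mem ha₂))
    calc a₁ * a₂ * x * (a₁ * a₂)⁻¹ = a₁ * (a₂ * x * a₂⁻¹) * a₁⁻¹ := by group
      _ = a₂ * x * a₂⁻¹ := h2
  rw [h1, hβ.map_mul (S₂.mul_mem ha₂ hx) (S₂.inv_mem ha₂), hβ.map_mul ha₂ hx, hβ.map_inv ha₂]

/-- Lemma E: every map of the system on a subgroup `P` of `S₁` extends to `P ⊔ S₂`. -/
theorem Hyp.ext_sup [Finite S] [Fact p.Prime] (h : Hyp F p S₁ S₂) (hP : P ≤ S₁)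
    (hf : Mor F P f) : ∃ f', Mor F (P ⊔ S₂) f' ∧ (∀ x ∈ P, f' x = f x) ∧ ∀ x ∈ S₂, f' x ∈ S₂ := by
  have : Finite S₂ := finite_of_le h.le2
  have hPS : P ≤ S := hP.trans h.le1
  have hS2C : ∀ {R : Subgroup Ω}, R ≤ S₁ → S₂ ≤ centralizerIn S R := by
    intro R hR b hb
    refine ⟨h.le2 hb, ?_⟩
    show b ∈ Subgroup.centralizer (R : Set Ω)
    rw [Subgroup.mem_centralizer_iff]
    intro x hx
    exact h.comm x (hR hx) b hb
  -- a receptive conjugate of `P`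
  obtain ⟨Q', hconj, -, hrec⟩ := h.sat P hPS
  obtain ⟨c, hc, hcimg⟩ := isConj_iff.mp hconj
  obtain ⟨c', hc', hc'P⟩ := receptive_extend' hrec hc hcimg
  have hle1 : P ⊔ S₂ ≤ extFn S P c :=
    sup_le hc.le_extFn ((hS2C hP).trans hc.centralizerIn_le_extFn)
  have hc'' : Mor F (P ⊔ S₂) c' := hc'.restrict hle1
  -- the map `d = c ∘ f⁻¹` from `img P f` onto `Q'`
  set Q := img P f with hQ
  have hQ1 : Q ≤ S₁ := by
    intro y hy
    obtain ⟨x, hx, rfl⟩ := hf.mem_img.mp hy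
    exact sc_mor h.sc1 hP hf x hx
  have hd : Mor F Q (c ∘ invFn P f) := hf.inv.comp hc (fun y hy => hf.invFn_mem hy)
  have hdimg : img Q (c ∘ invFn P f) = Q' := by
    rw [hf.inv.img_comp hc (fun y hy => hf.invFn_mem hy), hf.img_inv, hcimg]
  obtain ⟨d', hd', hd'Q⟩ := receptive_extend' hrec hd hdimg
  have hle2 : Q ⊔ S₂ ≤ extFn S Q (c ∘ invFn P f) :=
    sup_le hd.le_extFn ((hS2C hQ1).trans hd.centralizerIn_le_extFn)
  have hd'' : Mor F (Q ⊔ S₂) d' := hd'.restrict hle2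
  -- both extensions map `S₂` onto `S₂`
  have hc'2 : ∀ x ∈ S₂, c' x ∈ S₂ := sc_mor h.sc2 le_rfl (hc''.restrict le_sup_right)
  have hd'2 : ∀ x ∈ S₂, d' x ∈ S₂ := sc_mor h.sc2 le_rfl (hd''.restrict le_sup_right)
  have hd'surj := (hd''.restrict le_sup_right).surj_of_finite hd'2
  -- `c'` maps `P ⊔ S₂` into the image of `d'`
  have hmap : ∀ z ∈ P ⊔ S₂, c' z ∈ img (Q ⊔ S₂) d' := by
    intro z hz
    obtain ⟨x, hx, n, hn, rfl⟩ := h.decomp hP z hz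
    rw [hc''.map_mul (Subgroup.mem_sup_left hx) (Subgroup.mem_sup_right hn)]
    refine Subgroup.mul_mem _ ?_ ?_
    · rw [hc'P x hx]
      have h1 : d' (f x) = c x := by
        rw [hd'Q (f x) (hf.mem_img_of_mem hx)]
        show c (invFn P f (f x)) = c x
        rw [hf.invFn_apply hx]
      rw [← h1]
      exact hd''.mem_img_of_mem (Subgroup.mem_sup_left (hf.mem_img_of_mem hx))
    · obtain ⟨y, hy, hyn⟩ := hd'surj (c' n) (hc'2 n hn)
      rw [← hyn]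
      exact hd''.mem_img_of_mem (Subgroup.mem_sup_right hy)
  have hcomp : Mor F (P ⊔ S₂) (invFn (Q ⊔ S₂) d' ∘ c') := hc''.comp hd''.inv hmap
  refine ⟨_, hcomp, fun x hx => ?_, sc_mor h.sc2 le_rfl (hcomp.restrict le_sup_right)⟩
  show invFn (Q ⊔ S₂) d' (c' x) = f x
  have h1 : d' (f x) = c' x := by
    rw [hd'Q (f x) (hf.mem_img_of_mem hx), hc'P x hx]
    show c (invFn P f (f x)) = c x
    rw [hf.invFn_apply hx]
  rw [← h1]
  exact hd''.invFn_apply (Subgroup.mem_sup_left (hf.mem_img_of_mem hx))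

/-- Lemma F (Frattini): every map of the system on a subgroup of `S₁` is a map extending to the
identity on `S₂`, followed by an automorphism of `S` in the system. -/
theorem Hyp.frattini [Finite S] [Fact p.Prime] (h : Hyp F p S₁ S₂) (hP : P ≤ S₁)
    (hf : Mor F P f) : ∃ γ, Mor F S γ ∧ img S γ = S ∧
      Mor F P (invFn S γ ∘ f) ∧ CExt F S₂ P (invFn S γ ∘ f) := by
  obtain ⟨f', hf', hf'P, hf'2⟩ := h.ext_sup hP hf
  obtain ⟨γ, hγ, hγ2⟩ := h.ext_aut (hf'.restrict le_sup_right)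
  have hγimg : img S γ = S := hγ.img_eq_self (fun x hx => hγ.mem hx)
  have hinv : Mor F S (invFn S γ) := by
    have := hγ.inv
    rwa [hγimg] at this
  have hcomp : Mor F (P ⊔ S₂) (invFn S γ ∘ f') := hf'.comp hinv (fun x hx => hf'.mem hx)
  refine ⟨γ, hγ, hγimg, ?_, invFn S γ ∘ f', hcomp, fun x hx => ?_, fun x hx => ?_⟩
  · exact (hcomp.restrict le_sup_left).congr (fun x hx => by
      show invFn S γ (f' x) = invFn S γ (f x)
      rw [hf'P x hx])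
  · show invFn S γ (f' x) = invFn S γ (f x)
    rw [hf'P x hx]
  · show invFn S γ (f' x) = x
    rw [← hγ2 x hx]
    exact hγ.invFn_apply (h.le2 hx)

end Cfsg.Agent.Lib.Helper88.DP
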