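import Cfsg.Agent.Lib.Helper88.DPSysA

set_option autoImplicit false

/-!
# Fusion systems over a direct product of two strongly closed subgroups (helper88)

Part B: the full subsystem over `S₁` and the centralizing subsystem; the full one is saturated.
-/

namespace Cfsg.Agent.Lib.Helper88.DP

open Cfsg Cfsg.FusionSystem Cfsg.Agent.Lib.Helper90 Cfsg.Agent.Lib.Helper91
open Cfsg.Agent.Lib.Helper88 (sc_mor sc_conj sup_decomp)

variable {Ω : Type*} [Group Ω] {S : Subgroup Ω} {F : FusionSystem S} {p : ℕ}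
  {S₁ S₂ P Q : Subgroup Ω} {f g : Ω → Ω} {R R' : FusionSystem S₁}

/-- `R` is the full subsystem of `F` over `S₁`. -/
def IsFull (F : FusionSystem S) (S₁ : Subgroup Ω) (R : FusionSystem S₁) : Prop :=
  ∀ P : Subgroup Ω, P ≤ S₁ → R.Hom P = F.Hom P

/-- `R'` is the subsystem over `S₁` of the maps extending to the identity on `S₂`. -/
def IsCent (F : FusionSystem S) (S₁ S₂ : Subgroup Ω) (R' : FusionSystem S₁) : Prop :=
  ∀ P : Subgroup Ω, P ≤ S₁ → R'.Hom P = F.centralizerHom S₂ P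

theorem mor_full_iff (hR : IsFull F S₁ R) : Mor R P f ↔ P ≤ S₁ ∧ Mor F P f := by
  constructor
  · rintro ⟨φ, hφ, hf⟩
    have hP : P ≤ S₁ := (R.le_of_mem hφ).1
    rw [hR P hP] at hφ
    exact ⟨hP, φ, hφ, hf⟩
  · rintro ⟨hP, φ, hφ, hf⟩
    refine ⟨φ, ?_, hf⟩
    rw [hR P hP]
    exact hφ

theorem mor_cent_iff (h : Hyp F p S₁ S₂) (hR' : IsCent F S₁ S₂ R') :
    Mor R' P f ↔ P ≤ S₁ ∧ Mor F P f ∧ CExt F S₂ P f := by
  have hC : ∀ x ∈ S₁, x ∈ centralizerIn S S₂ := by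
    intro x hx
    refine ⟨h.le1 hx, ?_⟩
    show x ∈ Subgroup.centralizer (S₂ : Set Ω)
    rw [Subgroup.mem_centralizer_iff]
    intro b hb
    exact (h.comm x hx b hb).symm
  constructor
  · rintro ⟨φ, hφ, hf⟩
    have hP : P ≤ S₁ := (R'.le_of_mem hφ).1
    rw [hR' P hP, mem_centralizerHom_iff] at hφ
    obtain ⟨h1, -, -, h4⟩ := hφ
    refine ⟨hP, ⟨φ, h1, hf⟩, cext_congr h4 (fun x hx => ?_)⟩
    rw [extFun_apply' P φ hx]
    exact hf ⟨x, hx⟩
  · rintro ⟨hP, ⟨φ, hφ, hf⟩, hc⟩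
    refine ⟨φ, ?_, hf⟩
    rw [hR' P hP, mem_centralizerHom_iff]
    refine ⟨hφ, fun x hx => hC x (hP hx), fun x => hC _ (h.sc1.2 P hP φ hφ x),
      cext_congr hc (fun x hx => ?_)⟩
    rw [extFun_apply' P φ hx]
    exact (hf ⟨x, hx⟩).symm

theorem autGroup_full (hR : IsFull F S₁ R) (hQ : Q ≤ S₁) : R.autGroup Q = F.autGroup Q := by
  unfold FusionSystem.autGroup
  rw [hR Q hQ]

theorem autInducedBy_eq (h : Hyp F p S₁ S₂) (hQ : Q ≤ S₁) :
    autInducedBy S₁ Q = autInducedBy S Q := by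
  ext α
  rw [mem_autInducedBy_iff, mem_autInducedBy_iff]
  constructor
  · rintro ⟨a, ha, hα⟩
    exact ⟨a, h.le1 ha, hα⟩
  · rintro ⟨a, ha, hα⟩
    obtain ⟨a₁, ha₁, a₂, ha₂, rfl⟩ := h.decompS a ha
    refine ⟨a₁, ha₁, fun x => ?_⟩
    rw [hα x]
    have h2 := h.conj_eq' (hQ x.2) ha₂
    calc a₁ * a₂ * (x : Ω) * (a₁ * a₂)⁻¹ = a₁ * (a₂ * x * a₂⁻¹) * a₁⁻¹ := by group
      _ = a₁ * x * a₁⁻¹ := by rw [h2]

/-- The full subsystem over `S₁` is saturated. -/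
theorem full_sat [Finite S] [Fact p.Prime] (h : Hyp F p S₁ S₂) (hR : IsFull F S₁ R) :
    R.IsSaturated p := by
  intro P hP
  obtain ⟨Q, hconj, hfa, hrec⟩ := h.sat P (hP.trans h.le1)
  obtain ⟨c, hc, hcimg⟩ := isConj_iff.mp hconj
  have hQ1 : Q ≤ S₁ := by
    intro y hy
    rw [← hcimg] at hy
    obtain ⟨x, hx, rfl⟩ := hc.mem_img.mp hy
    exact sc_mor h.sc1 hP hc x hx
  refine ⟨Q, isConj_iff.mpr ⟨c, (mor_full_iff hR).mpr ⟨hP, hc⟩, hcimg⟩, ⟨hQ1, ?_⟩, ?_⟩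
  · obtain ⟨-, R₀, hR₀⟩ := hfa
    rw [autGroup_full hR hQ1, autInducedBy_eq h hQ1]
    exact ⟨R₀, hR₀⟩
  · refine isReceptive_of hQ1 (fun R₀ f hf himg => ?_)
    obtain ⟨hR₀1, hfF⟩ := (mor_full_iff hR).mp hf
    obtain ⟨f', hf', hf'R⟩ := receptive_extend hrec hfF himg (extFn S₁ R₀ f) hf.le_extFn
      (fun a ha => by
        obtain ⟨ha1, ha2, b, hb, hab⟩ := hf.mem_extFn.mp ha
        exact ⟨h.le1 ha1, ha2, b, h.le1 hb, hab⟩)
    exact ⟨f', (mor_full_iff hR).mpr ⟨(extFn_le S₁ R₀ f).trans inf_le_left, hf'⟩, hf'R⟩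

/-- The image of `P ⊔ S₂` under a map fixing `S₂` elementwise. -/
theorem Hyp.img_sup (h : Hyp F p S₁ S₂) (hP : P ≤ S₁) (hf : Mor F (P ⊔ S₂) f)
    (hf2 : ∀ x ∈ S₂, f x = x) : img (P ⊔ S₂) f = img P f ⊔ S₂ := by
  have hfP : Mor F P f := hf.restrict le_sup_left
  apply le_antisymm
  · intro y hy
    obtain ⟨z, hz, rfl⟩ := hf.mem_img.mp hy
    obtain ⟨x, hx, n, hn, rfl⟩ := h.decomp hP z hz
    rw [hf.map_mul (Subgroup.mem_sup_left hx) (Subgroup.mem_sup_right hn), hf2 n hn]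
    exact Subgroup.mul_mem _ (Subgroup.mem_sup_left (hfP.mem_img_of_mem hx))
      (Subgroup.mem_sup_right hn)
  · refine sup_le ?_ ?_
    · intro y hy
      obtain ⟨x, hx, rfl⟩ := hfP.mem_img.mp hy
      exact hf.mem_img_of_mem (Subgroup.mem_sup_left hx)
    · intro n hn
      rw [← hf2 n hn]
      exact hf.mem_img_of_mem (Subgroup.mem_sup_right hn)

/-- The image of a fully normalized subgroup under an automorphism of `S` in the system is fully
normalized. -/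
theorem fn_img [Finite S] (hfn : F.IsFullyNormalized Q) {δ : Ω → Ω} (hδ : Mor F S δ) :
    F.IsFullyNormalized (img Q δ) := by
  have hδQ : Mor F Q δ := hδ.restrict hfn.1
  refine ⟨hδQ.img_le, fun X hX => ?_⟩
  obtain ⟨e, he, heimg⟩ := isConj_iff.mp hX
  have h1 : F.IsConj Q X := isConj_iff.mpr ⟨e ∘ δ,
    hδQ.comp he (fun x hx => hδQ.mem_img_of_mem hx), by
      rw [hδQ.img_comp he (fun x hx => hδQ.mem_img_of_mem hx), heimg]⟩
  refine (hfn.2 X h1).trans ?_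
  exact card_le_of_mor_into (hδ.restrict (normalizerIn_le_S S Q)) (normalizerIn_le_S S _)
    (fun a ha => hδ.map_normalizerIn hfn.1 ha.1 ha.2)

/-- In a fully automized subgroup, a `p`-element of the automizer normalizing `Aut_S(P)` lies in
`Aut_S(P)`. -/
theorem mem_autInducedBy_of_fa [Finite S] [Fact p.Prime] (hfa : F.IsFullyAutomized p P)
    {β : MulAut P} (hβ : β ∈ F.autGroup P) {j : ℕ} (hj : β ^ (p ^ j) = 1)
    (hn : ∀ γ ∈ autInducedBy S P, β * γ * β⁻¹ ∈ autInducedBy S P) : β ∈ autInducedBy S P := by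
  obtain ⟨hP, R₀, hR₀⟩ := hfa
  have : Finite P := finite_of_le hP
  have : Finite (MulAut P) := inferInstance
  let x : F.autGroup P := ⟨β, hβ⟩
  have hxp : x ^ (p ^ j) = 1 := Subtype.ext hj
  have hK : IsPGroup p (Subgroup.zpowers x) := by
    rintro ⟨y, hy⟩
    obtain ⟨k, rfl⟩ := Subgroup.mem_zpowers_iff.mp hy
    refine ⟨j, Subtype.ext ?_⟩
    show (x ^ k) ^ (p ^ j) = 1
    rw [← zpow_natCast, ← zpow_mul, mul_comm, zpow_mul, zpow_natCast, hxp, one_zpow]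
  have hxN : x ∈ Subgroup.normalizer ((R₀ : Subgroup (F.autGroup P)) : Set (F.autGroup P)) := by
    apply mem_normalizer_of_finite
    intro y hy
    rw [hR₀, Subgroup.mem_subgroupOf] at hy ⊢
    exact hn _ hy
  have hle : Subgroup.zpowers x ≤
      Subgroup.normalizer ((R₀ : Subgroup (F.autGroup P)) : Set (F.autGroup P)) := by
    rw [Subgroup.zpowers_le]
    exact hxN
  have hsup : IsPGroup p ↥(Subgroup.zpowers x ⊔ (R₀ : Subgroup (F.autGroup P))) :=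
    IsPGroup.to_sup_of_normal_right' hK R₀.isPGroup' hle
  have heq := R₀.is_maximal' hsup le_sup_right
  have hx : x ∈ (R₀ : Subgroup (F.autGroup P)) := by
    rw [← heq]
    exact Subgroup.mem_sup_left (Subgroup.mem_zpowers x)
  rw [hR₀, Subgroup.mem_subgroupOf] at hx
  exact hx

end Cfsg.Agent.Lib.Helper88.DP
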