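import Cfsg.Agent.Lib.Helper88.DPSysB

set_option autoImplicit false

/-!
# Fusion systems over a direct product of two strongly closed subgroups (helper88)

Part C: the centralizing subsystem over `S₁` is saturated.
-/

namespace Cfsg.Agent.Lib.Helper88.DP

open Cfsg Cfsg.FusionSystem Cfsg.Agent.Lib.Helper90 Cfsg.Agent.Lib.Helper91
open Cfsg.Agent.Lib.Helper88 (sc_mor sc_conj sup_decomp fa_of_no_normalizing exists_conjAut)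

variable {Ω : Type*} [Group Ω] {S : Subgroup Ω} {F : FusionSystem S} {p : ℕ}
  {S₁ S₂ P Q : Subgroup Ω} {f g : Ω → Ω} {R R' : FusionSystem S₁}

theorem Hyp.conj_mul (h : Hyp F p S₁ S₂) {a₁ a₂ u v : Ω} (ha₁ : a₁ ∈ S₁) (ha₂ : a₂ ∈ S₂)
    (hu : u ∈ S₁) (hv : v ∈ S₂) :
    a₁ * a₂ * (u * v) * (a₁ * a₂)⁻¹ = (a₁ * u * a₁⁻¹) * (a₂ * v * a₂⁻¹) := by
  have h1 : a₂ * u = u * a₂ := (h.comm u hu a₂ ha₂).symm
  have h2 := h.conj_eq ha₁ (S₂.mul_mem (S₂.mul_mem ha₂ hv) (S₂.inv_mem ha₂))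
  calc a₁ * a₂ * (u * v) * (a₁ * a₂)⁻¹ = a₁ * (a₂ * u) * v * a₂⁻¹ * a₁⁻¹ := by group
    _ = a₁ * (u * a₂) * v * a₂⁻¹ * a₁⁻¹ := by rw [h1]
    _ = (a₁ * u * a₁⁻¹) * (a₁ * (a₂ * v * a₂⁻¹) * a₁⁻¹) := by group
    _ = (a₁ * u * a₁⁻¹) * (a₂ * v * a₂⁻¹) := by rw [h2]

theorem Hyp.conj_left (h : Hyp F p S₁ S₂) {a₁ a₂ u : Ω} (ha₁ : a₁ ∈ S₁) (ha₂ : a₂ ∈ S₂)
    (hu : u ∈ S₁) : a₁ * a₂ * u * (a₁ * a₂)⁻¹ = a₁ * u * a₁⁻¹ := by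
  have := h.conj_mul ha₁ ha₂ hu S₂.one_mem
  simpa using this

/-- Receptivity of `Q` in the centralizing subsystem from receptivity of `Q ⊔ S₂` in `F`. -/
theorem cent_rec [Finite S] [Fact p.Prime] (h : Hyp F p S₁ S₂) (hR' : IsCent F S₁ S₂ R')
    (hQ1 : Q ≤ S₁) (hrec : F.IsReceptive (Q ⊔ S₂)) : R'.IsReceptive Q := by
  refine isReceptive_of hQ1 (fun R₀ f hf himg => ?_)
  obtain ⟨hR₀1, hfF, f₁, hf₁, hf₁R, hf₁2⟩ := (mor_cent_iff h hR').mp hf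
  have himg1 : img (R₀ ⊔ S₂) f₁ = Q ⊔ S₂ := by
    rw [h.img_sup hR₀1 hf₁ hf₁2, img_congr hf₁R, himg]
  have hN1 : extFn S₁ R₀ f ≤ S₁ := (extFn_le S₁ R₀ f).trans inf_le_left
  have : Finite (R₀ ⊔ S₂ : Subgroup Ω) := finite_of_le (sup_le (hR₀1.trans h.le1) h.le2)
  obtain ⟨f', hf', hf'R⟩ := receptive_extend hrec hf₁ himg1 (extFn S₁ R₀ f ⊔ S₂)
    (sup_le_sup_right hf.le_extFn S₂) (by
      intro a ha
      obtain ⟨a₁, ha₁, a₂, ha₂, rfl⟩ := h.decomp hN1 a ha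
      obtain ⟨ha1S, ha1N, b₁, hb₁, hab⟩ := hf.mem_extFn.mp ha₁
      have hconj2 : ∀ v ∈ S₂, a₂ * v * a₂⁻¹ ∈ S₂ := fun v hv =>
        S₂.mul_mem (S₂.mul_mem ha₂ hv) (S₂.inv_mem ha₂)
      refine ⟨S.mul_mem (h.le1 ha1S) (h.le2 ha₂), mem_normalizer_of_finite ?_, b₁ * a₂,
        S.mul_mem (h.le1 hb₁) (h.le2 ha₂), ?_⟩
      · intro z hz
        obtain ⟨u, hu, v, hv, rfl⟩ := h.decomp hR₀1 z hz
        rw [h.conj_mul ha1S ha₂ (hR₀1 hu) hv]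
        exact Subgroup.mul_mem _ (Subgroup.mem_sup_left (conj_mem_of_mem_normalizer ha1N hu))
          (Subgroup.mem_sup_right (hconj2 v hv))
      · intro z hz
        obtain ⟨u, hu, v, hv, rfl⟩ := h.decomp hR₀1 z hz
        have hu' : a₁ * u * a₁⁻¹ ∈ R₀ := conj_mem_of_mem_normalizer ha1N hu
        rw [h.conj_mul ha1S ha₂ (hR₀1 hu) hv,
          hf₁.map_mul (Subgroup.mem_sup_left hu') (Subgroup.mem_sup_right (hconj2 v hv)),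
          hf₁R _ hu', hf₁2 _ (hconj2 v hv), hab u hu,
          hf₁.map_mul (Subgroup.mem_sup_left hu) (Subgroup.mem_sup_right hv), hf₁R u hu,
          hf₁2 v hv]
        exact (h.conj_mul hb₁ ha₂ (sc_mor h.sc1 hR₀1 hfF u hu) hv).symm)
  refine ⟨f', (mor_cent_iff h hR').mpr ⟨hN1, hf'.restrict le_sup_left, f', hf', fun _ _ => rfl,
    fun x hx => ?_⟩, fun x hx => ?_⟩
  · rw [hf'R x (Subgroup.mem_sup_right hx), hf₁2 x hx]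
  · rw [hf'R x (Subgroup.mem_sup_left hx), hf₁R x hx]

/-- Full automization of `Q` in the centralizing subsystem from that of `Q ⊔ S₂` in `F`. -/
theorem cent_fa [Finite S] [Fact p.Prime] (h : Hyp F p S₁ S₂) (hR' : IsCent F S₁ S₂ R')
    (hQ1 : Q ≤ S₁) (hfa : F.IsFullyAutomized p (Q ⊔ S₂)) : R'.IsFullyAutomized p Q := by
  have hfinS1 : Finite S₁ := finite_of_le h.le1
  have hS1p : IsPGroup p S₁ := h.pgroup.to_le h.le1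
  have hQS2 : Q ⊔ S₂ ≤ S := sup_le (hQ1.trans h.le1) h.le2
  have hfinQ2 : Finite (Q ⊔ S₂ : Subgroup Ω) := finite_of_le hQS2
  have hfinQ : Finite Q := finite_of_le (hQ1.trans h.le1)
  refine fa_of_no_normalizing hS1p hQ1 (fun β hβ hjj hnorm => ?_)
  obtain ⟨j, hj⟩ := hjj
  have hβm : Mor R' Q (autFun Q β) := (mem_autGroup_iff R' hQ1 β).mp hβ
  obtain ⟨-, hβF, b, hb, hbQ, hb2⟩ := (mor_cent_iff h hR').mp hβm
  have hbmap : ∀ z ∈ Q ⊔ S₂, b z ∈ Q ⊔ S₂ :=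
    hb.map_sup_le (P' := Q) (Q' := S₂) (fun x hx => by rw [hbQ x hx]; exact autFun_mem β hx)
      (fun x hx => by rw [hb2 x hx]; exact hx)
  obtain ⟨βt, hβt, hβtb⟩ := exists_aut_of_mor hb hbmap
  -- powers of the extension
  have hpowkey : ∀ t : ℕ, ∀ (x : Ω) (hx : x ∈ Q) (n : Ω) (hn : n ∈ S₂) (hz : x * n ∈ Q ⊔ S₂),
      (((βt ^ t) ⟨x * n, hz⟩ : ↥(Q ⊔ S₂)) : Ω) = (((β ^ t) ⟨x, hx⟩ : Q) : Ω) * n := by
    intro t
    induction t with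
    | zero => intro x hx n hn hz; simp
    | succ t ih =>
      intro x hx n hn hz
      have h1 := ih x hx n hn hz
      have hmem : (((β ^ t) ⟨x, hx⟩ : Q) : Ω) * n ∈ Q ⊔ S₂ := h1 ▸ ((βt ^ t) ⟨x * n, hz⟩).2
      have h3 : (βt ^ t) ⟨x * n, hz⟩ = ⟨(((β ^ t) ⟨x, hx⟩ : Q) : Ω) * n, hmem⟩ := Subtype.ext h1
      rw [pow_succ', pow_succ', MulAut.mul_apply, MulAut.mul_apply, h3, hβtb]
      show b ((((β ^ t) ⟨x, hx⟩ : Q) : Ω) * n) = _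
      rw [hb.map_mul (Subgroup.mem_sup_left ((β ^ t) ⟨x, hx⟩).2) (Subgroup.mem_sup_right hn),
        hbQ _ ((β ^ t) ⟨x, hx⟩).2, hb2 n hn, autFun_apply]
  have hpow : βt ^ (p ^ j) = 1 := by
    apply MulEquiv.ext
    intro z
    apply Subtype.ext
    obtain ⟨x, hx, n, hn, hzx⟩ := h.decomp hQ1 z z.2
    have h2 : z = ⟨x * n, hzx ▸ z.2⟩ := Subtype.ext hzx
    rw [h2, hpowkey (p ^ j) x hx n hn (hzx ▸ z.2), hj]
    rfl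
  -- the extension normalizes `Aut_S(Q ⊔ S₂)`
  have hn : ∀ γ' ∈ autInducedBy S (Q ⊔ S₂), βt * γ' * βt⁻¹ ∈ autInducedBy S (Q ⊔ S₂) := by
    intro γ' hγ'
    obtain ⟨g, hg, hγ'g⟩ := (mem_autInducedBy_iff _ _ _).mp hγ'
    obtain ⟨g₁, hg₁, g₂, hg₂, rfl⟩ := h.decompS g hg
    have hconj2 : ∀ v ∈ S₂, g₂ * v * g₂⁻¹ ∈ S₂ := fun v hv =>
      S₂.mul_mem (S₂.mul_mem hg₂ hv) (S₂.inv_mem hg₂)
    have hg₁Q : ∀ x ∈ Q, g₁ * x * g₁⁻¹ ∈ Q := by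
      intro x hx
      have h1 := hγ'g ⟨x, Subgroup.mem_sup_left hx⟩
      have h3 : g₁ * x * g₁⁻¹ ∈ Q ⊔ S₂ := by
        rw [← h.conj_left hg₁ hg₂ (hQ1 hx)]
        have h4 := (γ' ⟨x, Subgroup.mem_sup_left hx⟩).2
        rw [h1] at h4
        exact h4
      exact h.sup_inf hQ1 h3 (sc_conj h.sc1 (h.le1 hg₁) (hQ1 hx))
    obtain ⟨γ₁, -, hγ₁⟩ := exists_conjAut F (hQ1.trans h.le1) (h.le1 hg₁)
      (mem_normalizer_of_finite hg₁Q)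
    have hγ₁mem : γ₁ ∈ autInducedBy S₁ Q := (mem_autInducedBy_iff _ _ _).mpr ⟨g₁, hg₁, hγ₁⟩
    obtain ⟨h₁, hh₁, hform⟩ := (mem_autInducedBy_iff _ _ _).mp (hnorm γ₁ hγ₁mem)
    rw [mem_autInducedBy_iff]
    refine ⟨h₁ * g₂, S.mul_mem (h.le1 hh₁) (h.le2 hg₂), fun z => ?_⟩
    obtain ⟨w, hw⟩ : ∃ w, βt w = z := ⟨βt⁻¹ z, by simp⟩
    obtain ⟨x, hx, n, hn, hwx⟩ := h.decomp hQ1 w w.2
    have hz : (z : Ω) = ((β ⟨x, hx⟩ : Q) : Ω) * n := by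
      rw [← hw, hβtb, hwx, hb.map_mul (Subgroup.mem_sup_left hx) (Subgroup.mem_sup_right hn),
        hbQ x hx, hb2 n hn, autFun_apply' β hx]
    have hL : (((βt * γ' * βt⁻¹) z : ↥(Q ⊔ S₂)) : Ω) =
        ((β (γ₁ ⟨x, hx⟩) : Q) : Ω) * (g₂ * n * g₂⁻¹) := by
      have e1 : (βt * γ' * βt⁻¹) z = βt (γ' w) := by
        rw [← hw]
        show βt (γ' (βt⁻¹ (βt w))) = _
        simp
      rw [e1, hβtb, hγ'g, hwx, h.conj_mul hg₁ hg₂ (hQ1 hx) hn,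
        hb.map_mul (Subgroup.mem_sup_left (hg₁Q x hx)) (Subgroup.mem_sup_right (hconj2 n hn)),
        hbQ _ (hg₁Q x hx), hb2 _ (hconj2 n hn)]
      congr 1
      have e3 : γ₁ ⟨x, hx⟩ = ⟨g₁ * x * g₁⁻¹, hg₁Q x hx⟩ := Subtype.ext (hγ₁ ⟨x, hx⟩)
      rw [e3, autFun_apply' β (hg₁Q x hx)]
    have hR := hform (β ⟨x, hx⟩)
    have e2 : (β * γ₁ * β⁻¹) (β ⟨x, hx⟩) = β (γ₁ ⟨x, hx⟩) := by
      show β (γ₁ (β⁻¹ (β ⟨x, hx⟩))) = _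
      simp
    rw [e2] at hR
    rw [hL, hz, hR]
    exact (h.conj_mul hh₁ hg₂ (hQ1 (β ⟨x, hx⟩).2) hn).symm
  have hmem : βt ∈ autInducedBy S (Q ⊔ S₂) := mem_autInducedBy_of_fa hfa hβt hpow hn
  obtain ⟨k, hk, hβtk⟩ := (mem_autInducedBy_iff _ _ _).mp hmem
  obtain ⟨k₁, hk₁, k₂, hk₂, rfl⟩ := h.decompS k hk
  rw [mem_autInducedBy_iff]
  refine ⟨k₁, hk₁, fun x => ?_⟩
  have h1 := hβtk ⟨x, Subgroup.mem_sup_left x.2⟩
  rw [hβtb] at h1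
  have h2 : b (x : Ω) = ((β x : Q) : Ω) := by rw [hbQ x x.2, autFun_apply]
  rw [← h2, ← h.conj_left hk₁ hk₂ (hQ1 x.2)]
  exact h1

/-- The centralizing subsystem over `S₁` is saturated. -/
theorem cent_sat [Finite S] [Fact p.Prime] (h : Hyp F p S₁ S₂) (hR' : IsCent F S₁ S₂ R') :
    R'.IsSaturated p := by
  intro P hP
  have hPS2 : P ⊔ S₂ ≤ S := sup_le (hP.trans h.le1) h.le2
  obtain ⟨Qt, hconj, hfa, hrec⟩ := h.sat (P ⊔ S₂) hPS2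
  obtain ⟨c, hc, hcimg⟩ := isConj_iff.mp hconj
  obtain ⟨γ, hγ, hγ2⟩ := h.ext_aut (hc.restrict le_sup_right)
  have hγimg : img S γ = S := hγ.img_eq_self (fun x hx => hγ.mem hx)
  have hinv : Mor F S (invFn S γ) := by
    have := hγ.inv
    rwa [hγimg] at this
  have hc' : Mor F (P ⊔ S₂) (invFn S γ ∘ c) := hc.comp hinv (fun x hx => hc.mem hx)
  have hc'2 : ∀ x ∈ S₂, (invFn S γ ∘ c) x = x := by
    intro x hx
    show invFn S γ (c x) = x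
    rw [← hγ2 x hx]
    exact hγ.invFn_apply (h.le2 hx)
  have hfn0 : F.IsFullyNormalized (img (P ⊔ S₂) (invFn S γ ∘ c)) := by
    have h1 := fn_img (fullyNormalized_of_fa_rec h.pgroup hfa hrec) hinv
    rw [← hcimg, ← hc.img_comp hinv (fun x hx => hc.mem hx)] at h1
    exact h1
  obtain ⟨c', hc'def⟩ : ∃ c', c' = invFn S γ ∘ c := ⟨_, rfl⟩
  rw [← hc'def] at hc' hc'2 hfn0
  have hc'P : Mor F P c' := hc'.restrict le_sup_left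
  have hQ1 : img P c' ≤ S₁ := by
    intro y hy
    obtain ⟨x, hx, rfl⟩ := hc'P.mem_img.mp hy
    exact sc_mor h.sc1 hP hc'P x hx
  rw [h.img_sup hP hc' hc'2] at hfn0
  obtain ⟨hfa', hrec'⟩ := fa_rec_of_fullyNormalized h.pgroup h.sat hfn0
  have hmorR' : Mor R' P c' :=
    (mor_cent_iff h hR').mpr ⟨hP, hc'P, c', hc', fun _ _ => rfl, hc'2⟩
  exact ⟨img P c', isConj_iff.mpr ⟨c', hmorR', rfl⟩, cent_fa h hR' hQ1 hfa',
    cent_rec h hR' hQ1 hrec'⟩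

end Cfsg.Agent.Lib.Helper88.DP
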