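import Mathlib
import Cfsg.Agent.Lib.Helper11.F15Def
import Cfsg.Agent.Lib.Helper81.PSolv2
set_option autoImplicit false
namespace Cfsg.Agent.Lib.Helper88.F15
open Cfsg Cfsg.Agent.Lib.Helper11

theorem f15_exists_N {G : Type*} [Group G] [Finite G] {D : Set G} (h : TTPrim D) {x : G} (hx : x ∈ D)
    (hnc : ¬ Cfsg.oddCore ↥(Subgroup.closure (ttNb D x)) ≤ Subgroup.center ↥(Subgroup.closure (ttNb D x))) :
    ∃ N : Subgroup G, F15N D x N := by
  classical
  set H : Subgroup G := Subgroup.closure (ttNb D x) with hH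
  have hnorm : (Cfsg.oddCore ↥H).Normal := Cfsg.Agent.Lib.Helper81.pPrimeCore_normal 2
  have hHx : ∀ g ∈ H, Commute g x := by
    intro g hg
    have hle : H ≤ Subgroup.centralizer {x} := by
      rw [hH, Subgroup.closure_le]
      intro y hy
      rw [SetLike.mem_coe, Subgroup.mem_centralizer_iff]
      intro z hz
      rw [Set.mem_singleton_iff] at hz
      subst hz
      exact hy.2.2.eq
    have h1 := hle hg
    rw [Subgroup.mem_centralizer_iff] at h1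
    exact (h1 x rfl).symm
  refine ⟨(Cfsg.oddCore ↥H).map H.subtype, ⟨?_, ?_, ?_, ?_⟩⟩
  · rintro n ⟨n', hn', rfl⟩
    exact hHx _ n'.2
  · rintro y hy n ⟨n', hn', rfl⟩
    have hyH : y ∈ H := Subgroup.subset_closure hy
    exact ⟨⟨y, hyH⟩ * n' * ⟨y, hyH⟩⁻¹, hnorm.conj_mem n' hn' ⟨y, hyH⟩, rfl⟩
  · rintro n ⟨n', hn', rfl⟩ hnn
    have hcop : (Nat.card (Cfsg.oddCore ↥H)).Coprime 2 :=
      Cfsg.Agent.Lib.Helper81.pPrimeCore_coprime 2
    have h1 : n' * n' = 1 := by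
      apply Subtype.ext
      exact hnn
    have h2 : (⟨n', hn'⟩ : Cfsg.oddCore ↥H) ^ 2 = 1 := by
      apply Subtype.ext
      rw [pow_two]
      exact h1
    have h3 : orderOf (⟨n', hn'⟩ : Cfsg.oddCore ↥H) ∣ 2 := orderOf_dvd_of_pow_eq_one h2
    have h4 : orderOf (⟨n', hn'⟩ : Cfsg.oddCore ↥H) ∣ Nat.card (Cfsg.oddCore ↥H) :=
      orderOf_dvd_natCard _
    have h5 : orderOf (⟨n', hn'⟩ : Cfsg.oddCore ↥H) = 1 := by
      have h6 := Nat.dvd_gcd h4 h3
      rw [Nat.Coprime] at hcop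
      rw [hcop] at h6
      exact Nat.dvd_one.mp h6
    have h6 : (⟨n', hn'⟩ : Cfsg.oddCore ↥H) = 1 := orderOf_eq_one_iff.mp h5
    have h7 : n' = 1 := congrArg Subtype.val h6
    rw [h7]
    rfl
  · intro a ha
    obtain ⟨n₀, hn₀, hn₀c⟩ := SetLike.not_le_iff_exists.mp hnc
    have hex : ∃ a₀ ∈ ttNb D x, ¬ Commute a₀ (n₀ : G) := by
      by_contra hall
      push Not at hall
      apply hn₀c
      rw [Subgroup.mem_center_iff]
      intro g
      have hcl : H ≤ Subgroup.centralizer {(n₀ : G)} := by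
        refine (Subgroup.closure_le _).mpr ?_
        intro y hy
        rw [SetLike.mem_coe, Subgroup.mem_centralizer_iff]
        intro z hz
        rw [Set.mem_singleton_iff] at hz
        subst hz
        exact (hall y hy).eq.symm
      have h1 := hcl g.2
      rw [Subgroup.mem_centralizer_iff] at h1
      apply Subtype.ext
      exact (h1 _ rfl).symm
    obtain ⟨a₀, ha₀, hnc₀⟩ := hex
    have hcn := ttCn_all h hx ha₀ ha
    obtain ⟨g, hg, hga⟩ := ttCn_conj_closure h.1 hcn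
    have hgH : g ∈ H := hg
    refine ⟨g * (n₀ : G) * g⁻¹,
      ⟨⟨g, hgH⟩ * n₀ * ⟨g, hgH⟩⁻¹, hnorm.conj_mem n₀ hn₀ ⟨g, hgH⟩, rfl⟩, ?_⟩
    intro hc
    apply hnc₀
    rw [← hga] at hc
    have h1 := hc.eq
    show a₀ * (n₀ : G) = (n₀ : G) * a₀
    have h2 : g⁻¹ * ((g * a₀ * g⁻¹) * (g * (n₀ : G) * g⁻¹)) * g
        = g⁻¹ * ((g * (n₀ : G) * g⁻¹) * (g * a₀ * g⁻¹)) * g := by rw [h1]
    have e1 : g⁻¹ * ((g * a₀ * g⁻¹) * (g * (n₀ : G) * g⁻¹)) * g = a₀ * (n₀ : G) := by group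
    have e2 : g⁻¹ * ((g * (n₀ : G) * g⁻¹) * (g * a₀ * g⁻¹)) * g = (n₀ : G) * a₀ := by group
    rw [e1, e2] at h2
    exact h2

end Cfsg.Agent.Lib.Helper88.F15
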