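import Mathlib
import Cfsg.Agent.Lib.Helper97.FCDefs

/-! S5115 (helper97, project FC), piece B2: stability group. -/

set_option autoImplicit false

namespace Cfsg.Agent.Lib.Helper88.FC

open Cfsg.Agent.Lib.Helper97.FC

universe u

theorem fc_b2 : B2Stmt.{u} := by
  intro G _ _ p _ Q R y hQ hRQ hy hst hR q hq
  have hrR : y * q * y⁻¹ * q⁻¹ ∈ R := hst q hq
  generalize hr : y * q * y⁻¹ * q⁻¹ = r at hrR
  have hyr : y * r = r * y := hR r hrR
  have hconj : y * q * y⁻¹ = r * q := by rw [← hr]; group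
  have hpow : ∀ k : ℕ, y ^ k * q * (y ^ k)⁻¹ = r ^ k * q := by
    intro k
    induction k with
    | zero => simp
    | succ k ih =>
      have hc : y * r ^ k = r ^ k * y := Commute.pow_right (show Commute y r from hyr) k
      calc y ^ (k+1) * q * (y ^ (k+1))⁻¹ = y * (y ^ k * q * (y ^ k)⁻¹) * y⁻¹ := by
            rw [pow_succ']; group
        _ = y * (r ^ k * q) * y⁻¹ := by rw [ih]
        _ = (y * r ^ k) * (q * y⁻¹) := by group
        _ = r ^ k * (y * q * y⁻¹) := by rw [hc]; group
        _ = r ^ k * (r * q) := by rw [hconj]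
        _ = r ^ (k+1) * q := by rw [pow_succ]; group
  have h1 : r ^ orderOf y = 1 := by
    have h := hpow (orderOf y)
    rw [pow_orderOf_eq_one] at h
    have h2 : q = r ^ orderOf y * q := by simpa using h
    exact (mul_eq_right.1 h2.symm)
  obtain ⟨m, hm⟩ := hQ ⟨r, hRQ hrR⟩
  have hm' : r ^ (p ^ m) = 1 := by
    simpa only [Subgroup.coe_pow, Subgroup.coe_one] using congrArg Subtype.val hm
  have hr1 : r = 1 := by
    have hcop : (orderOf y).Coprime (p ^ m) := Nat.Coprime.pow_right m hy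
    have hd : orderOf r ∣ 1 := by
      rw [← Nat.Coprime.gcd_eq_one hcop]
      exact Nat.dvd_gcd (orderOf_dvd_of_pow_eq_one h1) (orderOf_dvd_of_pow_eq_one hm')
    exact orderOf_eq_one_iff.1 (Nat.dvd_one.1 hd)
  rw [hr1] at hr
  calc y * q = (y * q * y⁻¹ * q⁻¹) * (q * y) := by group
    _ = q * y := by rw [hr, one_mul]

end Cfsg.Agent.Lib.Helper88.FC
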