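import Cfsg.Agent.Lib.Helper98.H74Defs

/-!
# Project H74 (S5974, helper98), assembly piece LCNT (backup copy by helper88)

`lcnt_typ_of`: the statement of LCNT with the sibling pieces EXC (`subtyp_sub`), CNTG
(`exists_qi_of_dvd_card_typ`), FIXC (`card_typ_modEq_fixed`), GSTRUCT (`g_struct`) and GLUEG
(`glue_iso`) as hypotheses, each with exactly the type of the sibling theorem, so that
`lcnt_typ_of (@subtyp_sub F _ _) (@exists_qi_of_dvd_card_typ F _ _)
(@card_typ_modEq_fixed F _ _) (@g_struct F _ _) (@glue_iso F _ _)` is LCNT.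
-/

set_option autoImplicit false
set_option linter.unusedVariables false

namespace Cfsg.Agent.Lib.Helper98.H74

open Cfsg.Agent.Lib.Helper47 Cfsg.Agent.Lib.Helper98.T73 Module Polynomial

universe u

variable {F : Type u} [Field F] [Fintype F] {V : Type u} [AddCommGroup V] [Module F V]
  [FiniteDimensional F V] {Q : V → F} {B : V → V → F}

/-- a typed subspace inside `K`, seen in `↥K` -/
theorem LCNTb_comap (K W : Submodule F V) (hWK : W ≤ K) (k : ℕ) (τ : ℤ)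
    (hW : SubTyp Q B W k τ) :
    SubTyp (fun w : ↥K => Q (w : V)) (resForm B K) (W.comap K.subtype) k τ := by
  obtain ⟨hnd, hdim, htyp⟩ := hW
  let e : ↥(W.comap K.subtype) ≃ₗ[F] ↥W := Submodule.comapSubtypeEquivOfLe hWK
  have he : ∀ x : ↥(W.comap K.subtype), ((e x : ↥W) : V) = ((x : ↥K) : V) := fun x => rfl
  refine ⟨?_, ?_, ?_⟩
  · intro x hx
    have h1 : e x = 0 := by
      apply hnd (e x)
      intro y
      have h2 := hx (e.symm y)
      have h3 : ((e (e.symm y) : ↥W) : V) = (((e.symm y : ↥(W.comap K.subtype)) : ↥K) : V) :=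
        he _
      rw [LinearEquiv.apply_symm_apply] at h3
      show B ((e x : ↥W) : V) (y : V) = 0
      rw [he x, h3]
      exact h2
    exact e.map_eq_zero_iff.mp h1
  · rw [e.finrank_eq]
    exact hdim
  · exact IsTyp.of_equiv e.symm.toEquiv (fun v => by
      show Q ((((e.symm v) : ↥(W.comap K.subtype)) : ↥K) : V) = Q (v : V)
      rw [← he (e.symm v), LinearEquiv.apply_symm_apply]) htyp

/-- the whole space is typed -/
theorem LCNTb_top (hnd : Nondeg B) (d : ℕ) (hd : 2 ≤ d)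
    (hdim : finrank F V = 2 * d) (ε : ℤ) (htyp : IsTyp Q (d - 1) ε) :
    SubTyp Q B ⊤ (d - 1) ε := by
  refine ⟨?_, ?_, ?_⟩
  · intro x hx
    have h1 : (x : V) = 0 := hnd x (fun y => hx ⟨y, Submodule.mem_top⟩)
    exact Subtype.ext h1
  · rw [finrank_top, hdim]
    omega
  · exact IsTyp.of_equiv (Submodule.topEquiv (R := F) (M := V)).symm.toEquiv
      (fun v => rfl) htyp

set_option maxHeartbeats 3200000 in
/-- LCNT from the sibling pieces. -/
theorem lcnt_typ_of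
    (EXC : ∀ {V : Type u} [AddCommGroup V] [Module F V] [FiniteDimensional F V] {Q : V → F}
      {B : V → V → F} (hf : QFacts F) (hQ : IsQuad Q B) (K : Submodule F V) (e : ℕ) (η : ℤ)
      (hK : SubTyp Q B K e η) (k : ℕ) (τ : ℤ) (hτ : τ = 1 ∨ τ = -1)
      (hk : k < e ∨ (k = e ∧ τ = η)), ∃ W : Submodule F V, W ≤ K ∧ SubTyp Q B W k τ)
    (CNTG : ∀ {V : Type u} [AddCommGroup V] [Module F V] [FiniteDimensional F V] {Q : V → F}
      {B : V → V → F} (hf : QFacts F) (hQ : IsQuad Q B) (hnd : Nondeg B) (d : ℕ)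
      (hdim : finrank F V = 2 * d) (ε : ℤ) (htyp : IsTyp Q (d - 1) ε) (k : ℕ) (τ : ℤ)
      (hne : ∃ W : Submodule F V, SubTyp Q B W k τ) (r : ℕ) (hr : r.Prime)
      (hdvd : r ∣ Nat.card {W : Submodule F V // SubTyp Q B W k τ}),
      ∃ g : Module.End F V, QI Q g ∧ g ^ r = 1 ∧ g ≠ 1)
    (FIXC : ∀ {V : Type u} [AddCommGroup V] [Module F V] [FiniteDimensional F V] {Q : V → F}
      {B : V → V → F} (hf : QFacts F) (hQ : IsQuad Q B) (hnd : Nondeg B) (p : ℕ)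
      [Fact p.Prime] [CharP F p] (r : ℕ) (hr : r.Prime) (hr2 : r ≠ 2) (hrp : r ≠ p)
      (g : Module.End F V) (hgQ : QI Q g) (hg : g ^ r = 1) (k : ℕ) (τ : ℤ)
      (hsmall : 2 * k + 2 < (if Even (orderOf ((Fintype.card F : ℕ) : ZMod r))
            then orderOf ((Fintype.card F : ℕ) : ZMod r)
            else 2 * orderOf ((Fintype.card F : ℕ) : ZMod r))),
      (∀ W : Submodule F V, SubTyp Q B W k τ → W.map g ≤ W → W ≤ LinearMap.ker (g - 1)) ∧
      Nat.card {W : Submodule F V // SubTyp Q B W k τ} ≡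
        Nat.card {W : Submodule F ↥(LinearMap.ker (g - 1)) //
          SubTyp (fun w : ↥(LinearMap.ker (g - 1)) => Q (w : V))
            (resForm B (LinearMap.ker (g - 1))) W k τ} [MOD r])
    (GSTRUCT : ∀ {V : Type u} [AddCommGroup V] [Module F V] [FiniteDimensional F V]
      {Q : V → F} {B : V → V → F} (hf : QFacts F) (hQ : IsQuad Q B) (hnd : Nondeg B) (d : ℕ)
      (hd : 1 ≤ d) (hdim : finrank F V = 2 * d) (ε : ℤ) (hε : ε = 1 ∨ ε = -1)
      (htyp : IsTyp Q (d - 1) ε) (p : ℕ) [Fact p.Prime] [CharP F p] (r : ℕ) (hr : r.Prime)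
      (hr2 : r ≠ 2) (hrp : r ≠ p) (g : Module.End F V) (hgQ : QI Q g) (hg : g ^ r = 1)
      (hg1 : g ≠ 1),
      ∃ A : ℕ, Valid ε (orderOf ((Fintype.card F : ℕ) : ZMod r)) d A ∧
        finrank F (LinearMap.range (g - 1)) = orderOf ((Fintype.card F : ℕ) : ZMod r) * A ∧
        finrank F (LinearMap.ker (g - 1))
          = 2 * d - orderOf ((Fintype.card F : ℕ) : ZMod r) * A ∧
        Nondeg (resForm B (LinearMap.range (g - 1))) ∧
        (∀ x ∈ LinearMap.ker (g - 1), ∀ y ∈ LinearMap.range (g - 1), B x y = 0) ∧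
        ∀ e : ℕ, 2 * d - orderOf ((Fintype.card F : ℕ) : ZMod r) * A = 2 * e + 2 →
          SubTyp Q B (LinearMap.ker (g - 1)) e
            (ε * sgn (orderOf ((Fintype.card F : ℕ) : ZMod r)) A))
    (GLUEG : ∀ {V : Type u} [AddCommGroup V] [Module F V] [FiniteDimensional F V] {Q : V → F}
      {B : V → V → F} (hQ : IsQuad Q B) (hnd : Nondeg B) (p : ℕ) [Fact p.Prime] [CharP F p]
      (r : ℕ) (hr : r.Prime) (hrp : r ≠ p) (g : Module.End F V) (hgQ : QI Q g)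
      (hg : g ^ r = 1) (h : Module.End F ↥(LinearMap.ker (g - 1)))
      (hhQ : QI (fun w : ↥(LinearMap.ker (g - 1)) => Q (w : V)) h) (hh : h ^ r = 1)
      (hh1 : h ≠ 1),
      ∃ g' : Module.End F V, QI Q g' ∧ g' ^ r = 1 ∧ g' ≠ 1 ∧
        finrank F (LinearMap.ker (g' - 1)) < finrank F (LinearMap.ker (g - 1)))
    (hf : QFacts F) (hQ : IsQuad Q B) (hnd : Nondeg B) (d : ℕ) (hd : 2 ≤ d)
    (hdim : finrank F V = 2 * d) (ε : ℤ) (hε : ε = 1 ∨ ε = -1) (htyp : IsTyp Q (d - 1) ε)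
    (p : ℕ) [Fact p.Prime] [CharP F p] (r : ℕ) (hr : r.Prime) (hr2 : r ≠ 2) (hrp : r ≠ p)
    (k : ℕ) (τ : ℤ) (hτ : τ = 1 ∨ τ = -1) (hk : k + 2 ≤ d)
    (hsmall : 2 * k + 2 < (if Even (orderOf ((Fintype.card F : ℕ) : ZMod r))
          then orderOf ((Fintype.card F : ℕ) : ZMod r)
          else 2 * orderOf ((Fintype.card F : ℕ) : ZMod r)))
    (hrΩ : r ∣ Nat.card {W : Submodule F V // SubTyp Q B W k τ})
    (hall : ∀ g : Module.End F V, QI Q g → g ^ r = 1 → g ≠ 1 →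
      ∃ W : Submodule F V, SubTyp Q B W k τ ∧ W.map g ≤ W) : False := by
  classical
  -- typed subspaces exist
  have htop : SubTyp Q B ⊤ (d - 1) ε := LCNTb_top hnd d hd hdim ε htyp
  obtain ⟨W₀, -, hW₀⟩ := EXC hf hQ ⊤ (d - 1) ε htop k τ hτ (Or.inl (by omega))
  obtain ⟨g₀, hg₀Q, hg₀r, hg₀1⟩ := CNTG hf hQ hnd d hdim ε htyp k τ ⟨W₀, hW₀⟩ r hr hrΩ
  -- an isometry of order `r` with minimal fixed space
  have hex : ∃ n : ℕ, ∃ g : Module.End F V, QI Q g ∧ g ^ r = 1 ∧ g ≠ 1 ∧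
      finrank F (LinearMap.ker (g - 1)) = n := ⟨_, g₀, hg₀Q, hg₀r, hg₀1, rfl⟩
  obtain ⟨g, hgQ, hgr, hg1, hgn⟩ := Nat.find_spec hex
  have hmin : ∀ g' : Module.End F V, QI Q g' → g' ^ r = 1 → g' ≠ 1 →
      Nat.find hex ≤ finrank F (LinearMap.ker (g' - 1)) :=
    fun g' h1 h2 h3 => Nat.find_min' hex ⟨g', h1, h2, h3, rfl⟩
  obtain ⟨W, hW, hWg⟩ := hall g hgQ hgr hg1
  obtain ⟨hfix, hcong⟩ := FIXC hf hQ hnd p r hr hr2 hrp g hgQ hgr k τ hsmall
  have hWK : W ≤ LinearMap.ker (g - 1) := hfix W hW hWg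
  obtain ⟨A, hA, -, hker, -, -, hsub⟩ :=
    GSTRUCT hf hQ hnd d (by omega) hdim ε hε htyp p r hr hr2 hrp g hgQ hgr hg1
  obtain ⟨i, hi⟩ : ∃ i, i = orderOf ((Fintype.card F : ℕ) : ZMod r) := ⟨_, rfl⟩
  rw [← hi] at hA hker hsub
  have hWdim : 2 * k + 2 ≤ finrank F (LinearMap.ker (g - 1)) := by
    have h1 := Submodule.finrank_mono hWK
    rw [hW.2.1] at h1
    exact h1
  have hevA : Even (i * A) := by
    by_cases hev : Even i
    · exact hev.mul_right A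
    · exact (hA.2.2.1 (Nat.not_even_iff_odd.mp hev)).mul_left i
  obtain ⟨c, hc⟩ := hevA
  obtain ⟨e, he⟩ : ∃ e : ℕ, 2 * d - i * A = 2 * e + 2 := ⟨d - c - 1, by omega⟩
  obtain ⟨hKnd, hKdim, hKtyp⟩ := hsub e he
  have hQK := hQ.res (LinearMap.ker (g - 1))
  have hW' := LCNTb_comap (Q := Q) (B := B) (LinearMap.ker (g - 1)) W hWK k τ hW
  have hdvd : r ∣ Nat.card {W' : Submodule F ↥(LinearMap.ker (g - 1)) //
      SubTyp (fun w : ↥(LinearMap.ker (g - 1)) => Q (w : V))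
        (resForm B (LinearMap.ker (g - 1))) W' k τ} :=
    Nat.modEq_zero_iff_dvd.mp (hcong.symm.trans (Nat.modEq_zero_iff_dvd.mpr hrΩ))
  have hKdim' : finrank F ↥(LinearMap.ker (g - 1)) = 2 * (e + 1) := by
    rw [hKdim]
    ring
  have hKtyp' : IsTyp (fun w : ↥(LinearMap.ker (g - 1)) => Q (w : V)) (e + 1 - 1)
      (ε * sgn i A) := by
    rw [Nat.add_sub_cancel]
    exact hKtyp
  obtain ⟨h, hhQ, hhr, hh1⟩ :=
    CNTG hf hQK hKnd (e + 1) hKdim' (ε * sgn i A) hKtyp' k τ ⟨_, hW'⟩ r hr hdvd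
  obtain ⟨g', hg'Q, hg'r, hg'1, hlt⟩ := GLUEG hQ hnd p r hr hrp g hgQ hgr h hhQ hhr hh1
  have h5 := hmin g' hg'Q hg'r hg'1
  omega

end Cfsg.Agent.Lib.Helper98.H74
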