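import Mathlib
import Cfsg.Agent.Lib.Helper78.HarDefs

/-!
# S1235 (project HAR of helper78), piece N128A

`normalizer_swap`: in the configuration `Conf X T T' N g`, if every subgroup of exponent two of
`N` lies in `T` or in `T'`, then `N_X(N)` has order 128 and its elements outside `N` swap `T`
and `T'`.
-/

set_option autoImplicit false

namespace Cfsg.Agent.Lib.Helper88.Har

open Cfsg.Agent.Lib.Helper78.Har

/-- for `s` normalising `N`, the conjugate `s⁻¹ U s` of a subgroup `U ≤ N` of exponent 2 and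
order 16 is `T` or `T'` -/
theorem conj_eq_T_or_T' {X : Type*} [Group X] [Finite X] (T T' N : Subgroup X) (g : X)
    (hc : Conf X T T' N g)
    (hE : ∀ E : Subgroup X, E ≤ N → (∀ e ∈ E, e ^ 2 = 1) → E ≤ T ∨ E ≤ T')
    (U : Subgroup X) (hUN : U ≤ N) (hU16 : Nat.card U = 16) (hU2 : ∀ u ∈ U, u ^ 2 = 1)
    (s : X) (hs : s ∈ Subgroup.normalizer (N : Set X)) :
    (∀ x, x ∈ T ↔ s * x * s⁻¹ ∈ U) ∨ (∀ x, x ∈ T' ↔ s * x * s⁻¹ ∈ U) := by
  obtain ⟨hN, hN', hg, hT', hTN, hT'N, h64, hT16, hT'16, hT2, hT'2, h4, hprod, hcy, hcy', hCT,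
    hCT'⟩ := hc
  let E : Subgroup X := U.map (MulAut.conj s⁻¹).toMonoidHom
  have hEmem : ∀ x, x ∈ E ↔ s * x * s⁻¹ ∈ U := by
    intro x
    constructor
    · rintro ⟨u, hu, rfl⟩
      have : s * ((MulAut.conj s⁻¹).toMonoidHom u) * s⁻¹ = u := by
        simp [MulAut.conj_apply, mul_assoc]
      rw [this]; exact hu
    · intro hx
      refine ⟨s * x * s⁻¹, hx, ?_⟩
      simp [MulAut.conj_apply, mul_assoc]
  have hsi : s⁻¹ ∈ Subgroup.normalizer (N : Set X) := Subgroup.inv_mem _ hs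
  have hEN : E ≤ N := by
    intro x hx
    have h1 := hUN ((hEmem x).1 hx)
    have h2 := (Subgroup.mem_normalizer_iff.1 hsi (s * x * s⁻¹)).1 h1
    simpa [mul_assoc] using h2
  have hE2 : ∀ e ∈ E, e ^ 2 = 1 := by
    intro e he
    have h1 := hU2 _ ((hEmem e).1 he)
    have h2 : (s * e * s⁻¹) ^ 2 = s * e ^ 2 * s⁻¹ := by simp only [pow_two]; group
    rw [h2] at h1
    have h3 : e ^ 2 = s⁻¹ * (s * e ^ 2 * s⁻¹) * s := by group
    rw [h3, h1]; group
  have hE16 : Nat.card E = 16 := by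
    rw [← hU16]
    exact Subgroup.card_map_of_injective (MulAut.conj s⁻¹).injective
  rcases hE E hEN hE2 with h | h
  · left
    have h1 : E = T := Subgroup.eq_of_le_of_card_ge h (by rw [hE16, hT16])
    intro x; rw [← h1]; exact hEmem x
  · right
    have h1 : E = T' := Subgroup.eq_of_le_of_card_ge h (by rw [hE16, hT'16])
    intro x; rw [← h1]; exact hEmem x

/-- `g` normalises `N` -/
theorem g_mem_normalizer {X : Type*} [Group X] (T T' N : Subgroup X) (g : X)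
    (hc : Conf X T T' N g) : g ∈ Subgroup.normalizer (N : Set X) := by
  obtain ⟨hN, hN', hg, hT', -⟩ := hc
  have memN : ∀ h, h ∈ N ↔ ∀ x, x ∈ T ↔ h * x * h⁻¹ ∈ T := by
    intro h; rw [hN]; exact Subgroup.mem_normalizer_iff
  have memN' : ∀ h, h ∈ N ↔ ∀ x, x ∈ T' ↔ h * x * h⁻¹ ∈ T' := by
    intro h; rw [hN']; exact Subgroup.mem_normalizer_iff
  rw [Subgroup.mem_normalizer_iff]
  intro h
  constructor
  · intro hh
    rw [memN']
    intro x
    rw [hT' x, hT' (g * h * g⁻¹ * x * (g * h * g⁻¹)⁻¹), (memN h).1 hh (g⁻¹ * x * g)]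
    have : g⁻¹ * (g * h * g⁻¹ * x * (g * h * g⁻¹)⁻¹) * g = h * (g⁻¹ * x * g) * h⁻¹ := by group
    rw [this]
  · intro hh
    rw [memN]
    intro x
    have h1 := (memN' _).1 hh (g * x * g⁻¹)
    rw [hT' (g * x * g⁻¹), hT' _] at h1
    have e1 : g⁻¹ * (g * x * g⁻¹) * g = x := by group
    have e2 : g⁻¹ * (g * h * g⁻¹ * (g * x * g⁻¹) * (g * h * g⁻¹)⁻¹) * g = h * x * h⁻¹ := by
      group
    rw [e1, e2] at h1
    exact h1

/-- elements of `N_X(N)` outside `N` swap `T` and `T'` (as sets) -/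
theorem swap_iff {X : Type*} [Group X] [Finite X] (T T' N : Subgroup X) (g : X)
    (hc : Conf X T T' N g)
    (hE : ∀ E : Subgroup X, E ≤ N → (∀ e ∈ E, e ^ 2 = 1) → E ≤ T ∨ E ≤ T')
    (s : X) (hs : s ∈ Subgroup.normalizer (N : Set X)) (hsN : s ∉ N) :
    (∀ x, x ∈ T ↔ s * x * s⁻¹ ∈ T') ∧ (∀ x, x ∈ T' ↔ s * x * s⁻¹ ∈ T) := by
  have hc' := hc
  obtain ⟨hN, hN', hg, hT', hTN, hT'N, h64, hT16, hT'16, hT2, hT'2, -⟩ := hc
  constructor
  · rcases conj_eq_T_or_T' T T' N g hc' hE T' hT'N hT'16 hT'2 s hs with h | h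
    · exact h
    · exfalso
      apply hsN
      rw [hN', Subgroup.mem_normalizer_iff]
      exact h
  · rcases conj_eq_T_or_T' T T' N g hc' hE T hTN hT16 hT2 s hs with h | h
    · exfalso
      apply hsN
      rw [hN, Subgroup.mem_normalizer_iff]
      exact h
    · exact h

/-- for `b ∈ N_X(N)` outside `N`, `b g ∈ N` -/
theorem mul_g_mem {X : Type*} [Group X] [Finite X] (T T' N : Subgroup X) (g : X)
    (hc : Conf X T T' N g)
    (hE : ∀ E : Subgroup X, E ≤ N → (∀ e ∈ E, e ^ 2 = 1) → E ≤ T ∨ E ≤ T')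
    (b : X) (hb : b ∈ Subgroup.normalizer (N : Set X)) (hbN : b ∉ N) : b * g ∈ N := by
  have hsw := swap_iff T T' N g hc hE b hb hbN
  obtain ⟨hN, hN', hg, hT', -⟩ := hc
  rw [hN, Subgroup.mem_normalizer_iff]
  intro x
  have e1 : b * g * x * (b * g)⁻¹ = b * (g * x * g⁻¹) * b⁻¹ := by group
  rw [e1, ← hsw.2 (g * x * g⁻¹), hT' (g * x * g⁻¹)]
  have e2 : g⁻¹ * (g * x * g⁻¹) * g = x := by group
  rw [e2]

-- PIECE N128A
theorem normalizer_swap {X : Type*} [Group X] [Finite X] (T T' N : Subgroup X) (g : X)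
    (hc : Conf X T T' N g)
    (hE : ∀ E : Subgroup X, E ≤ N → (∀ e ∈ E, e ^ 2 = 1) → E ≤ T ∨ E ≤ T') :
    Nat.card ↥(Subgroup.normalizer (N : Set X)) = 128 ∧
      ∀ s ∈ Subgroup.normalizer (N : Set X), s ∉ N →
        (∀ t ∈ T, s * t * s⁻¹ ∈ T') ∧ (∀ t ∈ T', s * t * s⁻¹ ∈ T) := by
  have hgS := g_mem_normalizer T T' N g hc
  refine ⟨?_, fun s hs hsN => ?_⟩
  · have hc' := hc
    obtain ⟨hN, hN', hg, hT', hTN, hT'N, h64, -⟩ := hc
    have hle : N ≤ Subgroup.normalizer (N : Set X) := Subgroup.le_normalizer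
    have hidx : N.relIndex (Subgroup.normalizer (N : Set X)) = 2 := by
      rw [Subgroup.relIndex_eq_two_iff]
      refine ⟨g, hgS, fun b hb => ?_⟩
      by_cases hbN : b ∈ N
      · right
        refine ⟨hbN, fun h => hg ?_⟩
        have : g = b⁻¹ * (b * g) := by group
        rw [this]; exact N.mul_mem (N.inv_mem hbN) h
      · left
        exact ⟨mul_g_mem T T' N g hc' hE b hb hbN, hbN⟩
    have h1 := Subgroup.relIndex_mul_relIndex (H := ⊥) (K := N)
      (L := Subgroup.normalizer (N : Set X)) bot_le hle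
    rw [Subgroup.relIndex_bot_left, Subgroup.relIndex_bot_left, hidx, h64] at h1
    omega
  · have := swap_iff T T' N g hc hE s hs hsN
    exact ⟨fun t ht => (this.1 t).1 ht, fun t ht => (this.2 t).1 ht⟩

end Cfsg.Agent.Lib.Helper88.Har
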