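import Mathlib
import Cfsg.Agent.Lib.Helper78.HarDefs
import Cfsg.Agent.Lib.Helper88.HarN128A

/-!
# S1235 (project HAR of helper78), piece N128B

`normalizer_eq_top`: in a 2-group, in the configuration `Conf X T T' N g` with the hypotheses
of N128A, `N_X(N) = ⊤`.
-/

set_option autoImplicit false

namespace Cfsg.Agent.Lib.Helper88.Har

open Cfsg.Agent.Lib.Helper78.Har

-- PIECE N128B
theorem normalizer_eq_top {X : Type*} [Group X] [Finite X] (hX : IsPGroup 2 X)
    (T T' N : Subgroup X) (g : X) (hc : Conf X T T' N g)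
    (hE : ∀ E : Subgroup X, E ≤ N → (∀ e ∈ E, e ^ 2 = 1) → E ≤ T ∨ E ≤ T')
    (h128 : Nat.card ↥(Subgroup.normalizer (N : Set X)) = 128)
    (hswap : ∀ s ∈ Subgroup.normalizer (N : Set X), s ∉ N →
        (∀ t ∈ T, s * t * s⁻¹ ∈ T') ∧ (∀ t ∈ T', s * t * s⁻¹ ∈ T)) :
    Subgroup.normalizer (N : Set X) = ⊤ := by
  by_contra hne
  haveI : Fact (Nat.Prime 2) := ⟨Nat.prime_two⟩
  haveI : Group.IsNilpotent X := hX.isNilpotent
  have hnc := Group.normalizerCondition_of_isNilpotent (G := X)
  have hlt : Subgroup.normalizer (N : Set X) <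
      Subgroup.normalizer ((Subgroup.normalizer (N : Set X) : Subgroup X) : Set X) :=
    hnc _ (lt_top_iff_ne_top.2 hne)
  obtain ⟨s, hsn, hsS⟩ := SetLike.exists_of_lt hlt
  have hc' := hc
  obtain ⟨hN, hN', hg, hT', hTN, hT'N, h64, hT16, hT'16, hT2, hT'2, h4, hprod, hcy, hcy', hCT,
    hCT'⟩ := hc
  have hNS : N ≤ Subgroup.normalizer (N : Set X) := Subgroup.le_normalizer
  have hgS : g ∈ Subgroup.normalizer (N : Set X) := g_mem_normalizer T T' N g hc'
  let E : Subgroup X := T.map (MulAut.conj s⁻¹).toMonoidHom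
  have hEmem : ∀ x, x ∈ E ↔ s * x * s⁻¹ ∈ T := by
    intro x
    constructor
    · rintro ⟨u, hu, rfl⟩
      have : s * ((MulAut.conj s⁻¹).toMonoidHom u) * s⁻¹ = u := by
        simp [MulAut.conj_apply, mul_assoc]
      rw [this]; exact hu
    · intro hx
      refine ⟨s * x * s⁻¹, hx, ?_⟩
      simp [MulAut.conj_apply, mul_assoc]
  have hE2 : ∀ e ∈ E, e ^ 2 = 1 := by
    intro e he
    have h1 := hT2 _ ((hEmem e).1 he)
    have h2 : (s * e * s⁻¹) ^ 2 = s * e ^ 2 * s⁻¹ := by simp only [pow_two]; group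
    rw [h2] at h1
    have h3 : e ^ 2 = s⁻¹ * (s * e ^ 2 * s⁻¹) * s := by group
    rw [h3, h1]; group
  have hE16 : Nat.card E = 16 := by
    rw [← hT16]
    exact Subgroup.card_map_of_injective (MulAut.conj s⁻¹).injective
  have hsi : s⁻¹ ∈ Subgroup.normalizer ((Subgroup.normalizer (N : Set X) : Subgroup X) : Set X) :=
    Subgroup.inv_mem _ hsn
  have hES : E ≤ Subgroup.normalizer (N : Set X) := by
    intro x hx
    have h1 := hNS (hTN ((hEmem x).1 hx))
    have h2 := (Subgroup.mem_normalizer_iff.1 hsi (s * x * s⁻¹)).1 h1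
    simpa [mul_assoc] using h2
  have hEN : E ≤ N := by
    by_contra hEN
    obtain ⟨e, heE, heN⟩ := SetLike.not_le_iff_exists.1 hEN
    have hsw := hswap e (hES heE) heN
    have hidx : N.relIndex (Subgroup.normalizer (N : Set X)) = 2 := by
      have h1 := Subgroup.relIndex_mul_relIndex (H := ⊥) (K := N)
        (L := Subgroup.normalizer (N : Set X)) bot_le hNS
      rw [Subgroup.relIndex_bot_left, Subgroup.relIndex_bot_left, h64, h128] at h1
      omega
    have hr : N.relIndex E ≤ 2 := by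
      rw [← hidx]
      exact Subgroup.relIndex_le_of_le_right hES (by rw [hidx]; norm_num)
    have h2 := Subgroup.relIndex_mul_relIndex (H := ⊥) (K := N ⊓ E) (L := E) bot_le inf_le_right
    rw [Subgroup.relIndex_bot_left, Subgroup.relIndex_bot_left, Subgroup.inf_relIndex_right,
      hE16] at h2
    have h8 : 8 ≤ Nat.card ↥(N ⊓ E) := by
      by_contra hlt8
      have : Nat.card ↥(N ⊓ E) * N.relIndex E ≤ 7 * 2 := Nat.mul_le_mul (by omega) hr
      omega
    have hcomm : ∀ x ∈ N ⊓ E, e * x * e⁻¹ = x := by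
      intro x hx
      have := comm_of_sq E hE2 heE hx.2
      rw [this]; group
    have hle : N ⊓ E ≤ T ⊓ T' := by
      rcases hE (N ⊓ E) inf_le_left (fun x hx => hE2 x hx.2) with h | h
      · intro x hx
        refine ⟨h hx, ?_⟩
        have := hsw.1 x (h hx)
        rwa [hcomm x hx] at this
      · intro x hx
        refine ⟨?_, h hx⟩
        have := hsw.2 x (h hx)
        rwa [hcomm x hx] at this
    have := Subgroup.card_le_of_le hle
    omega
  rcases hE E hEN hE2 with h | h
  · have h1 : E = T := Subgroup.eq_of_le_of_card_ge h (by rw [hE16, hT16])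
    apply hsS
    apply hNS
    rw [hN, Subgroup.mem_normalizer_iff]
    intro x; rw [← hEmem x, h1]
  · have h1 : E = T' := Subgroup.eq_of_le_of_card_ge h (by rw [hE16, hT'16])
    have hsg : s * g ∈ N := by
      rw [hN, Subgroup.mem_normalizer_iff]
      intro x
      have e1 : s * g * x * (s * g)⁻¹ = s * (g * x * g⁻¹) * s⁻¹ := by group
      rw [e1, ← hEmem, h1, hT' (g * x * g⁻¹)]
      have e2 : g⁻¹ * (g * x * g⁻¹) * g = x := by group
      rw [e2]
    apply hsS
    have : s = (s * g) * g⁻¹ := by group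
    rw [this]
    exact Subgroup.mul_mem _ (hNS hsg) (Subgroup.inv_mem _ hgS)

end Cfsg.Agent.Lib.Helper88.Har
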