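import Mathlib
import Cfsg.Agent.Lib.Helper54.SL2Cent
import Cfsg.Agent.Lib.Helper95.QABORD
import Cfsg.Agent.Lib.Helper88.QABCENT

/-!
# Project QB (helper48, S2359), piece SL2R (backup copy c, helper88)
-/

set_option autoImplicit false

namespace Cfsg.Agent.Lib.Helper48.QB

-- QB-SL2R
theorem sl2_cent_prime {F : Type*} [Field F] [Fintype F] [CharP F 3] (r : ℕ) (hr : r.Prime)
    (hr2 : r ≠ 2) (hr3 : r ≠ 3) (hdvd : r ∣ Fintype.card F + 1)
    (g : Matrix.SpecialLinearGroup (Fin 2) F) (hg : orderOf g = r) :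
    Nat.card (Subgroup.centralizer {g}) = Fintype.card F + 1 ∧
      ∀ a ∈ Subgroup.centralizer {g}, ∀ b ∈ Subgroup.centralizer {g}, a * b = b * a := by
  classical
  have h3F : Fact (Nat.Prime 3) := ⟨Nat.prime_three⟩
  have hg1 : g ≠ 1 := by
    intro h
    rw [h, orderOf_one] at hg
    exact hr.one_lt.ne hg
  have hfin : IsOfFinOrder g := by
    rw [← orderOf_pos_iff, hg]
    exact hr.pos
  have hcop : Nat.Coprime (orderOf g) (2 * 3) := by
    rw [hg]
    exact Nat.Coprime.mul_right ((Nat.coprime_primes hr Nat.prime_two).mpr hr2)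
      ((Nat.coprime_primes hr Nat.prime_three).mpr hr3)
  have htr : Matrix.trace (g : Matrix (Fin 2) (Fin 2) F) ^ 2 ≠ 4 :=
    Cfsg.Agent.Lib.Helper48.QA.trace_sq_ne_four (p := 3) (by norm_num) g hg1 hfin hcop
  have h2 : (2 : F) ≠ 0 := by
    intro h
    have h3 : (3 : F) = 0 := by
      have := CharP.cast_eq_zero F 3
      exact_mod_cast this
    have h1 : (1 : F) = 0 := by linear_combination h3 - h
    exact one_ne_zero h1
  have hcard := Cfsg.Agent.Lib.Helper54.card_centralizer_singleton h2 g htr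
  -- `r` divides the order of the centralizer
  have hgmem : g ∈ Subgroup.centralizer ({g} : Set (Matrix.SpecialLinearGroup (Fin 2) F)) := by
    rw [Subgroup.mem_centralizer_iff]
    intro t ht
    rw [Set.mem_singleton_iff] at ht
    rw [ht]
  have hrd : r ∣ Nat.card (Subgroup.centralizer
      ({g} : Set (Matrix.SpecialLinearGroup (Fin 2) F))) := by
    have h1 := orderOf_dvd_natCard (⟨g, hgmem⟩ : Subgroup.centralizer
      ({g} : Set (Matrix.SpecialLinearGroup (Fin 2) F)))
    rw [← hg]
    have h4 : orderOf (⟨g, hgmem⟩ : Subgroup.centralizer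
      ({g} : Set (Matrix.SpecialLinearGroup (Fin 2) F))) = orderOf g :=
      Subgroup.orderOf_mk g hgmem
    rw [← h4]
    exact h1
  have hq1 : 1 < Fintype.card F := Fintype.one_lt_card
  refine ⟨?_, ?_⟩
  · rcases hcard with h | h
    · exfalso
      rw [h] at hrd
      have h5 : r ∣ (Fintype.card F + 1) - (Fintype.card F - 1) := Nat.dvd_sub hdvd hrd
      have h6 : (Fintype.card F + 1) - (Fintype.card F - 1) = 2 := by omega
      rw [h6] at h5
      exact hr2 ((Nat.prime_dvd_prime_iff_eq hr Nat.prime_two).mp h5)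
    · exact h
  · -- `g` is not scalar
    have hns : ¬ ∃ a : F, (g : Matrix (Fin 2) (Fin 2) F) = a • (1 : Matrix (Fin 2) (Fin 2) F) := by
      rintro ⟨a, ha⟩
      apply htr
      have hdet := g.det_coe
      rw [ha] at hdet ⊢
      simp only [Matrix.det_fin_two, Matrix.trace_fin_two, Matrix.smul_apply, Matrix.one_apply_eq,
        smul_eq_mul, mul_one, ne_eq, zero_ne_one, not_false_eq_true, Matrix.one_apply_ne,
        mul_zero] at hdet ⊢
      linear_combination 4 * hdet
    intro a ha b hb
    rw [Subgroup.mem_centralizer_iff] at ha hb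
    have hag : a * g = g * a := (ha g rfl).symm
    have hbg : b * g = g * b := (hb g rfl).symm
    obtain ⟨α, β, hα⟩ := Cfsg.Agent.Lib.Helper48.QA.cent_form g a hns hag
    obtain ⟨α', β', hα'⟩ := Cfsg.Agent.Lib.Helper48.QA.cent_form g b hns hbg
    apply Subtype.ext
    rw [Matrix.SpecialLinearGroup.coe_mul, Matrix.SpecialLinearGroup.coe_mul, hα, hα']
    obtain ⟨M, hM⟩ : ∃ M : Matrix (Fin 2) (Fin 2) F, M = (g : Matrix (Fin 2) (Fin 2) F) :=
      ⟨_, rfl⟩
    rw [← hM]
    have hMM : Commute M M := Commute.refl M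
    have h1 : ∀ x y : F, Commute (x • (1 : Matrix (Fin 2) (Fin 2) F) + y • M) M := fun x y =>
      ((Commute.one_left M).smul_left x).add_left (hMM.smul_left y)
    exact (((Commute.one_right _).smul_right α').add_right ((h1 α β).smul_right β')).eq

end Cfsg.Agent.Lib.Helper48.QB
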