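import Cfsg.Agent.Lib.Helper88.GrpSyl

set_option autoImplicit false

namespace Cfsg.Agent.Lib.Helper88

/-- If `Q` is a normal `p`-subgroup of the finite group `G` with `C_G(Q) ≤ Q` and `T` is a Sylow
`p`-subgroup, then an automorphism of `G` fixing `T` elementwise is conjugation by an element of
`C_G(Q) = Z(Q)` (injectivity of restriction to a Sylow subgroup in degree-one cohomology, by
averaging over cosets). -/
theorem aut_eq_conj_of_fix_sylow {G : Type*} [Group G] [Finite G] {p : ℕ} [Fact p.Prime]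
    (T : Sylow p G) (Q : Subgroup G) [hQn : Q.Normal] (hQT : Q ≤ (T : Subgroup G))
    (hC : Subgroup.centralizer (Q : Set G) ≤ Q) (ψ : G ≃* G)
    (hψ : ∀ t ∈ (T : Subgroup G), ψ t = t) :
    ∃ z ∈ Subgroup.centralizer (Q : Set G), ∀ g : G, ψ g = z * g * z⁻¹ := by
  classical
  set A : Subgroup G := Subgroup.centralizer (Q : Set G) with hA
  have hAT : A ≤ (T : Subgroup G) := hC.trans hQT
  have hA_comm : ∀ a ∈ A, ∀ b ∈ A, a * b = b * a := fun a ha b hb =>
    (Subgroup.mem_centralizer_iff.mp ha b (hC hb)).symm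
  have hAnorm : ∀ (g : G), ∀ a ∈ A, g * a * g⁻¹ ∈ A := by
    intro g a ha
    rw [hA, Subgroup.mem_centralizer_iff]
    intro x hx
    have hx' : g⁻¹ * x * g ∈ Q := by
      have := hQn.conj_mem x hx g⁻¹
      simpa using this
    have h1 : g⁻¹ * x * g * a = a * (g⁻¹ * x * g) := Subgroup.mem_centralizer_iff.mp ha _ hx'
    have e1 : x * (g * a * g⁻¹) = g * (g⁻¹ * x * g * a) * g⁻¹ := by group
    have e2 : g * a * g⁻¹ * x = g * (a * (g⁻¹ * x * g)) * g⁻¹ := by group
    rw [e1, e2, h1]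
  have hν : ∀ g : G, ψ g * g⁻¹ ∈ A := by
    intro g
    rw [hA, Subgroup.mem_centralizer_iff]
    intro x hx
    have hx' : g⁻¹ * x * g ∈ Q := by
      have := hQn.conj_mem x hx g⁻¹
      simpa using this
    have h1 : ψ (g⁻¹ * x * g) = g⁻¹ * x * g := hψ _ (hQT hx')
    rw [map_mul, map_mul, map_inv, hψ x (hQT hx)] at h1
    have e1 : x * (ψ g * g⁻¹) = ψ g * ((ψ g)⁻¹ * x * ψ g) * g⁻¹ := by group
    rw [e1, h1]
    group
  let _ : CommGroup A :=
    { (inferInstance : Group A) with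
      mul_comm := fun a b => Subtype.ext (hA_comm a a.2 b b.2) }
  let νA : G → A := fun g => ⟨ψ g * g⁻¹, hν g⟩
  let conjA : G → (A →* A) := fun g =>
    { toFun := fun a => ⟨g * a * g⁻¹, hAnorm g a a.2⟩
      map_one' := by
        apply Subtype.ext
        show g * ((1 : A) : G) * g⁻¹ = 1
        simp
      map_mul' := by
        intro a b
        apply Subtype.ext
        show g * ((a * b : A) : G) * g⁻¹ = (g * a * g⁻¹) * (g * b * g⁻¹)
        rw [Subgroup.coe_mul]
        group }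
  have cocycle : ∀ g h : G, νA (g * h) = νA g * conjA g (νA h) := by
    intro g h
    apply Subtype.ext
    show ψ (g * h) * (g * h)⁻¹ = ψ g * g⁻¹ * (g * (ψ h * h⁻¹) * g⁻¹)
    rw [map_mul]
    group
  have hcoset : ∀ (g t : G), t ∈ (T : Subgroup G) → νA (g * t) = νA g := by
    intro g t ht
    apply Subtype.ext
    show ψ (g * t) * (g * t)⁻¹ = ψ g * g⁻¹
    rw [map_mul, hψ t ht]
    group
  have : Fintype (G ⧸ (T : Subgroup G)) := Fintype.ofFinite _
  set wA : A := ∏ c : G ⧸ (T : Subgroup G), νA c.out with hwA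
  have key : ∀ g : G, wA = νA g ^ Fintype.card (G ⧸ (T : Subgroup G)) * conjA g wA := by
    intro g
    have h1 : wA = ∏ c : G ⧸ (T : Subgroup G), νA ((g • c).out) :=
      (Equiv.prod_comp (MulAction.toPerm g) (fun c : G ⧸ (T : Subgroup G) => νA c.out)).symm
    have h2 : ∀ c : G ⧸ (T : Subgroup G), νA ((g • c).out) = νA g * conjA g (νA c.out) := by
      intro c
      have e1 : g • c = QuotientGroup.mk (g * c.out) := by
        conv_lhs => rw [← QuotientGroup.out_eq' c]
        rfl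
      obtain ⟨t, ht⟩ := QuotientGroup.mk_out_eq_mul (T : Subgroup G) (g * c.out)
      rw [e1, ht, hcoset _ _ t.2, cocycle]
    have h3 : ∏ c : G ⧸ (T : Subgroup G), νA ((g • c).out) =
        νA g ^ Fintype.card (G ⧸ (T : Subgroup G)) * conjA g wA := by
      rw [Finset.prod_congr rfl (fun c _ => h2 c), Finset.prod_mul_distrib, Finset.prod_const,
        Finset.card_univ, hwA, map_prod]
    exact h1.trans h3
  set n := Fintype.card (G ⧸ (T : Subgroup G)) with hn
  have hnp : ¬ p ∣ n := by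
    have h1 := T.not_dvd_index
    rwa [Subgroup.index_eq_card, Nat.card_eq_fintype_card] at h1
  obtain ⟨b, hb⟩ := IsPGroup.iff_card.mp T.isPGroup'
  have hpow : ∀ a : A, a ^ (p ^ b) = 1 := by
    intro a
    apply Subtype.ext
    rw [Subgroup.coe_pow, ← hb]
    have h1 : (⟨(a : G), hAT a.2⟩ : (T : Subgroup G)) ^ Nat.card (T : Subgroup G) = 1 :=
      pow_card_eq_one'
    exact congrArg Subtype.val h1
  have hcop : Nat.Coprime n (p ^ b) :=
    Nat.Coprime.pow_right b ((Nat.Prime.coprime_iff_not_dvd Fact.out).mpr hnp).symm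
  set u : ℤ := Nat.gcdA n (p ^ b) with hu
  have hνu : ∀ g : G, νA g = (νA g ^ n) ^ u := by
    intro g
    have h2 : νA g ^ ((n : ℤ) * Nat.gcdA n (p ^ b) + ((p ^ b : ℕ) : ℤ) * Nat.gcdB n (p ^ b)) =
        νA g := by
      rw [← Nat.gcd_eq_gcd_ab, hcop]
      simp
    rw [zpow_add, zpow_mul, zpow_mul, zpow_natCast, zpow_natCast, hpow (νA g), one_zpow,
      mul_one] at h2
    exact h2.symm
  refine ⟨((wA ^ u : A) : G), (wA ^ u : A).2, fun g => ?_⟩
  have h1 : νA g ^ n = wA * (conjA g wA)⁻¹ := eq_mul_inv_of_mul_eq (key g).symm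
  have h2 : νA g = wA ^ u * (conjA g (wA ^ u))⁻¹ := by
    rw [hνu g, h1, mul_zpow, inv_zpow, map_zpow]
  have h3 : ψ g * g⁻¹ = ((wA ^ u : A) : G) * (g * ((wA ^ u : A) : G) * g⁻¹)⁻¹ :=
    congrArg Subtype.val h2
  have e : ψ g = (ψ g * g⁻¹) * g := by group
  rw [e, h3]
  group

end Cfsg.Agent.Lib.Helper88
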