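import Mathlib
import Cfsg.Agent.Lib.Helper11.SignUniform
import Cfsg.Agent.Lib.Helper23.Embed
import Cfsg.Agent.Lib.Helper23.Syl
import Cfsg.Agent.Lib.Helper30.Cores

/-! S0496 (helper11), piece N10D: order 720, `n_3 = 10`: no element of order 8 swapping `P` and
`Q` (sign of the action on the 90 cosets of the cyclic group it generates). -/

set_option autoImplicit false

namespace Cfsg.Agent.S496

theorem n10_d {G : Type*} [Group G] [Finite G] [IsSimpleGroup G] (h : Nat.card G = 720)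
    (h10 : Nat.card (Sylow 3 G) = 10) (P Q : Sylow 3 G) (hPQ : P ≠ Q)
    (hT : Nat.card {s : G // s • P = P ∧ s • Q = Q} = 8)
    (hfix : ∀ s : G, s • P = P → s • Q = Q → s ≠ 1 → ∀ R : Sylow 3 G, s • R = R → R = P ∨ R = Q)
    (u : G) (huP : u • P = Q) (huQ : u • Q = P) (hu8 : u ^ 8 = 1) : u ^ 4 = 1 := by
  by_contra hz
  classical
  have ho : orderOf u = 8 := by
    have : Fact (Nat.Prime 2) := ⟨Nat.prime_two⟩
    have h1 := orderOf_eq_prime_pow (x := u) (p := 2) (n := 2) (by norm_num; exact hz)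
      (by norm_num; exact hu8)
    rw [h1]; norm_num
  obtain ⟨z, hzdef⟩ : ∃ z, z = u ^ 4 := ⟨_, rfl⟩
  have hz1 : z ≠ 1 := by rw [hzdef]; exact hz
  have hz2 : z * z = 1 := by rw [hzdef, ← pow_add]; exact hu8
  have hu2P : (u ^ 2) • P = P := by rw [pow_two, mul_smul, huP, huQ]
  have hu2Q : (u ^ 2) • Q = Q := by rw [pow_two, mul_smul, huQ, huP]
  have hzP : z • P = P := by
    rw [hzdef, show (4 : ℕ) = 2 + 2 from rfl, pow_add, mul_smul, hu2P, hu2P]
  have hzQ : z • Q = Q := by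
    rw [hzdef, show (4 : ℕ) = 2 + 2 from rfl, pow_add, mul_smul, hu2Q, hu2Q]
  have hzfix : ∀ R : Sylow 3 G, z • R = R → R = P ∨ R = Q := hfix z hzP hzQ hz1
  obtain ⟨U, hU⟩ : ∃ U : Subgroup G, U = Subgroup.zpowers u := ⟨_, rfl⟩
  have hUcard : Nat.card U = 8 := by rw [hU, Nat.card_zpowers, ho]
  have huU : u ∈ U := by rw [hU]; exact Subgroup.mem_zpowers u
  -- the unique involution of `U`
  have hinvU : ∀ v ∈ U, v * v = 1 → v ≠ 1 → v = z := by
    intro v hv hv2 hv1
    rw [hU] at hv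
    obtain ⟨i, hi, rfl⟩ : ∃ i, i < 8 ∧ u ^ i = v := by
      have h1 := (mem_zpowers_iff_mem_range_orderOf (x := u) (y := v)).1 hv
      rw [ho] at h1
      simpa using h1
    have h1 : orderOf u ∣ i + i := orderOf_dvd_of_pow_eq_one (by rw [pow_add]; exact hv2)
    rw [ho] at h1
    have h2 : i = 0 ∨ i = 4 := by omega
    rcases h2 with rfl | rfl
    · exact absurd (pow_zero u) hv1
    · exact hzdef.symm
  -- the setwise stabilizer of `{P, Q}`
  obtain ⟨S, hS⟩ : ∃ S : Subgroup G,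
      ∀ a, a ∈ S ↔ ((a • P = P ∧ a • Q = Q) ∨ (a • P = Q ∧ a • Q = P)) := by
    refine ⟨{ carrier := {a | (a • P = P ∧ a • Q = Q) ∨ (a • P = Q ∧ a • Q = P)}
              one_mem' := Or.inl ⟨one_smul _ _, one_smul _ _⟩
              mul_mem' := ?_
              inv_mem' := ?_ }, fun a => Iff.rfl⟩
    · rintro a b (⟨h1, h2⟩ | ⟨h1, h2⟩) (⟨h3, h4⟩ | ⟨h3, h4⟩)
      · left; exact ⟨by rw [mul_smul, h3, h1], by rw [mul_smul, h4, h2]⟩
      · right; exact ⟨by rw [mul_smul, h3, h2], by rw [mul_smul, h4, h1]⟩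
      · right; exact ⟨by rw [mul_smul, h3, h1], by rw [mul_smul, h4, h2]⟩
      · left; exact ⟨by rw [mul_smul, h3, h2], by rw [mul_smul, h4, h1]⟩
    · rintro a (⟨h1, h2⟩ | ⟨h1, h2⟩)
      · left; exact ⟨by rw [inv_smul_eq_iff, h1], by rw [inv_smul_eq_iff, h2]⟩
      · right; exact ⟨by rw [inv_smul_eq_iff, h2], by rw [inv_smul_eq_iff, h1]⟩
  obtain ⟨T, hTm⟩ : ∃ T : Subgroup G, ∀ a, a ∈ T ↔ (a • P = P ∧ a • Q = Q) :=
    ⟨MulAction.stabilizer G P ⊓ MulAction.stabilizer G Q, fun a => by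
      rw [Subgroup.mem_inf, MulAction.mem_stabilizer_iff, MulAction.mem_stabilizer_iff]⟩
  have hTcard : Nat.card T = 8 := by
    rw [← hT]
    exact Nat.card_congr (Equiv.subtypeEquivRight hTm)
  have hTS : T ≤ S := fun a ha => (hS a).2 (Or.inl ((hTm a).1 ha))
  have huS : u ∈ S := (hS u).2 (Or.inr ⟨huP, huQ⟩)
  have hUS : U ≤ S := by rw [hU, Subgroup.zpowers_le]; exact huS
  have hTidx : T.relIndex S = 2 := by
    rw [Subgroup.relIndex, Subgroup.index_eq_two_iff]
    refine ⟨⟨u, huS⟩, ?_⟩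
    rintro ⟨b, hbS⟩
    show Xor (b * u ∈ T) (b ∈ T)
    rcases (hS b).1 hbS with ⟨h1, h2⟩ | ⟨h1, h2⟩
    · right
      refine ⟨(hTm _).2 ⟨h1, h2⟩, fun hc => ?_⟩
      have h3 := ((hTm _).1 hc).1
      rw [mul_smul, huP, h2] at h3
      exact hPQ h3.symm
    · left
      refine ⟨(hTm _).2 ⟨by rw [mul_smul, huP, h2], by rw [mul_smul, huQ, h1]⟩, fun hc => ?_⟩
      have h3 := ((hTm _).1 hc).1
      rw [h1] at h3
      exact hPQ h3.symm
  have hScard : Nat.card S = 16 := by
    rw [Cfsg.Agent.Lib.Helper30.card_eq_card_mul_relIndex hTS, hTcard, hTidx]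
  have hUidx : (U.subgroupOf S).index = 2 := by
    have h1 := Cfsg.Agent.Lib.Helper30.card_eq_card_mul_relIndex hUS
    rw [hScard, hUcard] at h1
    show U.relIndex S = 2
    omega
  have hUn : (U.subgroupOf S).Normal := Subgroup.normal_of_index_eq_two hUidx
  have hN : ∀ a ∈ S, a⁻¹ * u * a ∈ U := by
    intro a ha
    have h1 := hUn.conj_mem ⟨u, huS⟩ (Subgroup.mem_subgroupOf.2 huU) (⟨a, ha⟩ : S)⁻¹
    rw [Subgroup.mem_subgroupOf] at h1
    simpa using h1
  have hc : ∀ a ∈ S, ∀ b ∈ S, a ∉ U → b ∉ U → a⁻¹ * b ∈ U := by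
    intro a ha b hb haU hbU
    have h1 : (⟨a, ha⟩ : S)⁻¹ * ⟨b, hb⟩ ∈ U.subgroupOf S := by
      rw [Subgroup.mul_mem_iff_of_index_two hUidx, inv_mem_iff]
      constructor
      · intro h2; exact absurd (Subgroup.mem_subgroupOf.1 h2) haU
      · intro h2; exact absurd (Subgroup.mem_subgroupOf.1 h2) hbU
    exact Subgroup.mem_subgroupOf.1 h1
  obtain ⟨t₀, ht₀S, ht₀U⟩ : ∃ t₀ ∈ S, t₀ ∉ U := by
    by_contra hcon
    push Not at hcon
    have h1 : S = U := le_antisymm hcon hUS
    rw [h1, hUcard] at hScard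
    omega
  -- conjugating a nontrivial power of `u` into `U` forces membership in `S`
  have hkey : ∀ a : G, ∀ j, 0 < j → j < 8 → a⁻¹ * u ^ j * a ∈ U → a ∈ S := by
    intro a j hj0 hj8 hw
    obtain ⟨e, he⟩ : ∃ e, j * e % 8 = 4 := by
      interval_cases j
      · exact ⟨4, rfl⟩
      · exact ⟨2, rfl⟩
      · exact ⟨4, rfl⟩
      · exact ⟨1, rfl⟩
      · exact ⟨4, rfl⟩
      · exact ⟨2, rfl⟩
      · exact ⟨4, rfl⟩
    have hje : (u ^ j) ^ e = z := by
      rw [← pow_mul, hzdef, ← pow_mod_orderOf, ho, he]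
    have hconj : ∀ (x : G) (n : ℕ), (a⁻¹ * x * a) ^ n = a⁻¹ * x ^ n * a := by
      intro x n
      have h1 := conj_pow (a := a⁻¹) (b := x) (i := n)
      simpa using h1
    have hmem : a⁻¹ * z * a ∈ U := by
      rw [← hje, ← hconj]; exact U.pow_mem hw e
    have hzz : a⁻¹ * z * a = z := by
      apply hinvU _ hmem
      · calc (a⁻¹ * z * a) * (a⁻¹ * z * a) = a⁻¹ * (z * z) * a := by group
          _ = 1 := by rw [hz2]; group
      · intro h1
        apply hz1
        calc z = a * (a⁻¹ * z * a) * a⁻¹ := by group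
          _ = 1 := by rw [h1]; group
    have hcomm : z * a = a * z := by
      calc z * a = a * (a⁻¹ * z * a) := by group
        _ = a * z := by rw [hzz]
    have hP' : z • (a • P) = a • P := by rw [← mul_smul, hcomm, mul_smul, hzP]
    have hQ' : z • (a • Q) = a • Q := by rw [← mul_smul, hcomm, mul_smul, hzQ]
    have hne : a • P ≠ a • Q := fun h => hPQ (MulAction.injective a h)
    rw [hS]
    rcases hzfix _ hP' with hp | hp <;> rcases hzfix _ hQ' with hq | hq
    · exact absurd (hp.trans hq.symm) hne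
    · exact Or.inl ⟨hp, hq⟩
    · exact Or.inr ⟨hp, hq⟩
    · exact absurd (hp.trans hq.symm) hne
  -- the action on the cosets of `U`
  have : Fintype (G ⧸ U) := Fintype.ofFinite _
  have hfixiff : ∀ (g a : G), g • (a : G ⧸ U) = (a : G ⧸ U) ↔ a⁻¹ * g * a ∈ U := by
    intro g a
    have h1 : g • (a : G ⧸ U) = ((g * a : G) : G ⧸ U) := rfl
    rw [h1, QuotientGroup.eq]
    have e : (g * a)⁻¹ * a = (a⁻¹ * g * a)⁻¹ := by group
    rw [e, inv_mem_iff]
  obtain ⟨φ, hφ⟩ : ∃ φ : G →* Equiv.Perm (G ⧸ U), φ = MulAction.toPermHom G (G ⧸ U) :=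
    ⟨_, rfl⟩
  have hσ : ∀ (j : ℕ) (q : G ⧸ U), ((φ u) ^ j) q = u ^ j • q := by
    intro j q
    rw [← map_pow, hφ]; rfl
  have hσ1 : ∀ q : G ⧸ U, (φ u) q = u • q := by
    intro q
    rw [hφ]; rfl
  have hfree : ∀ q : G ⧸ U, (φ u) q = q ∨ ∀ j, 0 < j → j < 8 → ((φ u) ^ j) q ≠ q := by
    intro q
    induction q using QuotientGroup.induction_on with
    | H a =>
      by_cases haS : a ∈ S
      · left
        rw [hσ1]
        exact (hfixiff u a).2 (hN a haS)
      · right
        intro j hj0 hj8 hcc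
        rw [hσ] at hcc
        exact haS (hkey a j hj0 hj8 ((hfixiff _ a).1 hcc))
  have hpow : ∀ q : G ⧸ U, ((φ u) ^ 8) q = q := by
    intro q
    rw [hσ, hu8, one_smul]
  have hfixset : Finset.univ.filter (fun q : G ⧸ U => (φ u) q = q)
      = {((1 : G) : G ⧸ U), ((t₀ : G) : G ⧸ U)} := by
    ext q
    simp only [Finset.mem_filter, Finset.mem_univ, true_and, Finset.mem_insert,
      Finset.mem_singleton]
    induction q using QuotientGroup.induction_on with
    | H a =>
      rw [hσ1]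
      constructor
      · intro hq
        have haS : a ∈ S := hkey a 1 one_pos (by norm_num)
          (by rw [pow_one]; exact (hfixiff u a).1 hq)
        by_cases haU : a ∈ U
        · left
          rw [QuotientGroup.eq]
          simpa using haU
        · right
          rw [eq_comm, QuotientGroup.eq]
          exact hc t₀ ht₀S a haS ht₀U haU
      · rintro (hq | hq)
        · rw [hq]; exact (hfixiff u 1).2 (by simpa using huU)
        · rw [hq]; exact (hfixiff u t₀).2 (hN t₀ ht₀S)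
  have hne12 : ((1 : G) : G ⧸ U) ≠ ((t₀ : G) : G ⧸ U) := by
    intro h1
    rw [QuotientGroup.eq] at h1
    exact ht₀U (by simpa using h1)
  have hfixcard : (Finset.univ.filter (fun q : G ⧸ U => (φ u) q = q)).card = 2 := by
    rw [hfixset, Finset.card_pair hne12]
  have hΨ : Fintype.card (G ⧸ U) = 90 := by
    have h2 := Subgroup.card_mul_index U
    rw [hUcard, h, Subgroup.index_eq_card, Nat.card_eq_fintype_card] at h2
    omega
  have hcard : (Finset.univ.filter (fun q : G ⧸ U => (φ u) q ≠ q)).card = 8 * 11 := by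
    have h3 : (Finset.univ.filter (fun q : G ⧸ U => (φ u) q = q)).card
        + (Finset.univ.filter (fun q : G ⧸ U => (φ u) q ≠ q)).card
        = (Finset.univ : Finset (G ⧸ U)).card :=
      Finset.card_filter_add_card_filter_not _
    rw [hfixcard, Finset.card_univ, hΨ] at h3
    omega
  have hsign := sign_of_uniform (φ u) 8 11 (by decide) (by norm_num) hfree hpow hcard
  -- but `G` is simple
  have hGnc : ¬ IsMulCommutative G :=
    Cfsg.Agent.Lib.Helper23.not_comm_of_simple_of_not_prime (by rw [h]; norm_num)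
  have hker : φ.ker ≠ ⊤ := by
    intro hk
    have h1 : t₀ ∈ φ.ker := by rw [hk]; exact Subgroup.mem_top _
    have h2 : φ t₀ = 1 := MonoidHom.mem_ker.1 h1
    have h3 : t₀ • ((1 : G) : G ⧸ U) = ((1 : G) : G ⧸ U) := by
      have h4 : (φ t₀) ((1 : G) : G ⧸ U) = t₀ • ((1 : G) : G ⧸ U) := by rw [hφ]; rfl
      rw [← h4, h2]; rfl
    rw [hfixiff] at h3
    exact ht₀U (by simpa using h3)
  have halt := (Cfsg.Agent.Lib.Helper23.simple_hom_perm_injective_alt hGnc φ hker).2 u
  rw [Equiv.Perm.mem_alternatingGroup, hsign] at halt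
  exact absurd halt (by decide)

end Cfsg.Agent.S496
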