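import Mathlib
import Cfsg.Prelude.Def_GeometricClasses
import Cfsg.Prelude.Def_LieClassical
import Cfsg.Agent.Lib.Helper71.Asch0
import Cfsg.Agent.Lib.Helper29.SPPTens
import Cfsg.Agent.Lib.Helper83.SPPHOMP

/-! Project SP12 (S5868, helper71), piece T2Sb (helper88): a tensor structure `f = f₁ ⊗ f₂` with
`f₂` an anisotropic symmetric form on `F²` yields a quadratic field subalgebra normalised by the
group, adjoint-closed but not self-adjoint. -/

set_option autoImplicit false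
set_option linter.unusedSectionVars false
set_option linter.unusedSimpArgs false

namespace Cfsg.Agent.Lib.Helper88.SP12T2Sb

open Matrix Cfsg.Geo Cfsg.Agent.Lib.Helper71.Asch Cfsg.Agent.Lib.Helper29.SPPTens
open scoped Kronecker

variable {n : ℕ} {F : Type*} [Field F] [Fintype F]

/-- the subalgebra `F + F ν` for `ν² = δ` -/
def quadAlg (ν : Matrix (Fin n) (Fin n) F) (δ : F)
    (hν : ν * ν = δ • (1 : Matrix (Fin n) (Fin n) F)) :
    Subalgebra F (Matrix (Fin n) (Fin n) F) where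
  carrier := {x | ∃ a b : F, x = a • (1 : Matrix (Fin n) (Fin n) F) + b • ν}
  mul_mem' := by
    rintro _ _ ⟨a, b, rfl⟩ ⟨a', b', rfl⟩
    refine ⟨a * a' + b * b' * δ, a * b' + b * a', ?_⟩
    simp only [add_mul, mul_add, smul_mul_assoc, mul_smul_comm, one_mul, mul_one, hν]
    module
  add_mem' := by
    rintro _ _ ⟨a, b, rfl⟩ ⟨a', b', rfl⟩
    exact ⟨a + a', b + b', by module⟩
  algebraMap_mem' := fun r =>
    ⟨r, 0, by rw [zero_smul, add_zero, Algebra.algebraMap_eq_smul_one]⟩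

theorem quadAlg_field (ν : Matrix (Fin n) (Fin n) F) (δ : F)
    (hν : ν * ν = δ • (1 : Matrix (Fin n) (Fin n) F)) (hδ : ∀ s : F, s * s ≠ δ) (i0 : Fin n) :
    IsFieldSubalgebra 2 (quadAlg ν δ hν) := by
  have hsc : ∀ c : F, c • (1 : Matrix (Fin n) (Fin n) F) = 0 → c = 0 := by
    intro c hc
    have h1 := congrFun (congrFun hc i0) i0
    simpa using h1
  have hinj : ∀ a b : F, a • (1 : Matrix (Fin n) (Fin n) F) + b • ν = 0 → a = 0 ∧ b = 0 := by
    intro a b hab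
    have hb : b = 0 := by
      by_contra hb
      have h1 : ν = (-(b⁻¹ * a)) • (1 : Matrix (Fin n) (Fin n) F) := by
        have h2 : b • ν = -(a • (1 : Matrix (Fin n) (Fin n) F)) := by
          rw [eq_neg_iff_add_eq_zero, add_comm]; exact hab
        have h3 : ν = b⁻¹ • (b • ν) := by rw [smul_smul, inv_mul_cancel₀ hb, one_smul]
        rw [h3, h2, smul_neg, smul_smul, neg_smul]
      have h5 : ν * ν = ((-(b⁻¹ * a)) * (-(b⁻¹ * a))) • (1 : Matrix (Fin n) (Fin n) F) := by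
        rw [h1, smul_mul_assoc, one_mul, smul_smul]
      rw [hν] at h5
      have h6 : δ - (-(b⁻¹ * a)) * (-(b⁻¹ * a)) = 0 := by
        apply hsc
        rw [sub_smul, h5, sub_self]
      exact hδ (-(b⁻¹ * a)) (sub_eq_zero.mp h6).symm
    rw [hb, zero_smul, add_zero] at hab
    exact ⟨hsc a hab, hb⟩
  refine ⟨?_, ?_, ?_⟩
  · rintro _ ⟨a, b, rfl⟩ _ ⟨a', b', rfl⟩
    simp only [add_mul, mul_add, smul_mul_assoc, mul_smul_comm, one_mul, mul_one]
    module
  · rintro _ ⟨a, b, rfl⟩ hx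
    have hN : a * a - b * b * δ ≠ 0 := by
      intro h0
      by_cases hb : b = 0
      · rw [hb] at h0 hx
        have ha : a = 0 := by
          have h7 : a * a = 0 := by simpa using h0
          exact mul_self_eq_zero.mp h7
        apply hx
        rw [ha, zero_smul, zero_smul, add_zero]
      · apply hδ (a / b)
        field_simp
        linear_combination h0
    refine ⟨(a * a - b * b * δ)⁻¹ • (a • (1 : Matrix (Fin n) (Fin n) F) + (-b) • ν),
      ⟨(a * a - b * b * δ)⁻¹ * a, (a * a - b * b * δ)⁻¹ * -b, by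
        rw [smul_add, smul_smul, smul_smul]⟩, ?_⟩
    have key : (a • (1 : Matrix (Fin n) (Fin n) F) + b • ν) *
        (a • (1 : Matrix (Fin n) (Fin n) F) + (-b) • ν) =
        (a * a - b * b * δ) • (1 : Matrix (Fin n) (Fin n) F) := by
      simp only [add_mul, mul_add, smul_mul_assoc, mul_smul_comm, one_mul, mul_one, hν]
      module
    rw [mul_smul_comm, key, smul_smul, inv_mul_cancel₀ hN, one_smul]
  · have hli : LinearIndependent F ![(1 : Matrix (Fin n) (Fin n) F), ν] := by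
      rw [LinearIndependent.pair_iff]
      intro s t hst
      exact hinj s t hst
    have hspan : Subalgebra.toSubmodule (quadAlg ν δ hν) =
        Submodule.span F (Set.range ![(1 : Matrix (Fin n) (Fin n) F), ν]) := by
      ext x
      rw [Matrix.range_cons_cons_empty, Submodule.mem_span_pair, Subalgebra.mem_toSubmodule]
      constructor
      · rintro ⟨a, b, rfl⟩
        exact ⟨a, b, rfl⟩
      · rintro ⟨a, b, rfl⟩
        exact ⟨a, b, rfl⟩
    rw [← Subalgebra.finrank_toSubmodule, hspan, finrank_span_eq_card hli]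
    simp

theorem quadAlg_adj (f : (Fin n → F) → (Fin n → F) → F) (hb : IsBilinearForm f)
    (ν : Matrix (Fin n) (Fin n) F) (δ : F)
    (hν : ν * ν = δ • (1 : Matrix (Fin n) (Fin n) F))
    (hsk : ∀ u v, f (ν *ᵥ u) v = - f u (ν *ᵥ v)) : IsAdjointClosedFor f (quadAlg ν δ hν) := by
  rintro _ ⟨a, b, rfl⟩
  refine ⟨a • (1 : Matrix (Fin n) (Fin n) F) + (-b) • ν, ⟨a, -b, rfl⟩, ?_⟩
  intro u v
  rw [Matrix.add_mulVec, Matrix.add_mulVec, Matrix.smul_mulVec, Matrix.smul_mulVec,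
    Matrix.smul_mulVec, Matrix.smul_mulVec, Matrix.one_mulVec, Matrix.one_mulVec,
    hb.add_left, hb.add_right, hb.smul_left, hb.smul_left, hb.smul_right, hb.smul_right, hsk]
  ring

theorem quadAlg_not_self (f : (Fin n → F) → (Fin n → F) → F) (hf : IsSymplecticForm f)
    (ν : Matrix (Fin n) (Fin n) F) (δ : F)
    (hν : ν * ν = δ • (1 : Matrix (Fin n) (Fin n) F)) (hδ : ∀ s : F, s * s ≠ δ) (i0 : Fin n)
    (h2 : (2 : F) ≠ 0) (hsk : ∀ u v, f (ν *ᵥ u) v = - f u (ν *ᵥ v)) :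
    ¬ IsSelfAdjointFor f (quadAlg ν δ hν) := by
  intro hsa
  have hνK : ν ∈ quadAlg ν δ hν := ⟨0, 1, by rw [zero_smul, zero_add, one_smul]⟩
  have h0 : ∀ u v, f (ν *ᵥ u) v = 0 := by
    intro u v
    have h1 := hsa ν hνK u v
    have h3 := hsk u v
    have h4 : (2 : F) * f (ν *ᵥ u) v = 0 := by linear_combination h1 + h3
    exact (mul_eq_zero.mp h4).resolve_left h2
  have hν0 : ∀ u, ν *ᵥ u = 0 := by
    intro u
    by_contra hne
    obtain ⟨x, hx⟩ := (hf.nondegenerate _ hne).2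
    exact hx (h0 u x)
  have hδ0 : δ = 0 := by
    have h5 : (ν * ν) *ᵥ (Pi.single i0 1) = 0 := by
      rw [← Matrix.mulVec_mulVec, hν0]
    rw [hν, Matrix.smul_mulVec, Matrix.one_mulVec] at h5
    have h6 := congrFun h5 i0
    simpa using h6
  exact hδ 0 (by rw [hδ0, mul_zero])

theorem quadAlg_norm (ν : Matrix (Fin n) (Fin n) F) (δ : F)
    (hν : ν * ν = δ • (1 : Matrix (Fin n) (Fin n) F)) (g : GL (Fin n) F) (μ : F) (hμ : μ ≠ 0)
    (hg : g.1 * ν = μ • (ν * g.1)) : g ∈ subalgebraNormalizer (quadAlg ν δ hν) := by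
  have hggi : g.1 * (g⁻¹ : GL (Fin n) F).1 = 1 := by
    rw [← Units.val_mul, mul_inv_cancel, Units.val_one]
  have hgig : (g⁻¹ : GL (Fin n) F).1 * g.1 = 1 := by
    rw [← Units.val_mul, inv_mul_cancel, Units.val_one]
  have h1 : g.1 * ν * (g⁻¹ : GL (Fin n) F).1 = μ • ν := by
    rw [hg, Matrix.smul_mul, Matrix.mul_assoc, hggi, Matrix.mul_one]
  have h2 : (g⁻¹ : GL (Fin n) F).1 * ν * g.1 = μ⁻¹ • ν := by
    have h3 : ν * g.1 = μ⁻¹ • (g.1 * ν) := by rw [hg, smul_smul, inv_mul_cancel₀ hμ, one_smul]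
    rw [Matrix.mul_assoc, h3, Matrix.mul_smul, ← Matrix.mul_assoc, hgig, Matrix.one_mul]
  show ∀ k : Matrix (Fin n) (Fin n) F,
    k ∈ quadAlg ν δ hν ↔ g.1 * k * (g⁻¹ : GL (Fin n) F).1 ∈ quadAlg ν δ hν
  intro k
  constructor
  · rintro ⟨a, b, rfl⟩
    refine ⟨a, b * μ, ?_⟩
    rw [Matrix.mul_add, Matrix.add_mul, Matrix.mul_smul, Matrix.smul_mul, Matrix.mul_one, hggi,
      Matrix.mul_smul, Matrix.smul_mul, h1, smul_smul]
  · rintro ⟨a, b, hab⟩
    refine ⟨a, b * μ⁻¹, ?_⟩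
    have h4 : k = (g⁻¹ : GL (Fin n) F).1 * (g.1 * k * (g⁻¹ : GL (Fin n) F).1) * g.1 := by
      rw [← Matrix.mul_assoc, ← Matrix.mul_assoc, hgig, Matrix.one_mul, Matrix.mul_assoc, hgig,
        Matrix.mul_one]
    rw [h4, hab, Matrix.mul_add, Matrix.add_mul, Matrix.mul_smul, Matrix.smul_mul,
      Matrix.mul_one, hgig, Matrix.mul_smul, Matrix.smul_mul, h2, smul_smul]

/-! ### The concrete matrices -/

theorem tmat_smul' {d k : ℕ} (e : Fin n ≃ Fin d × Fin k) (P : GL (Fin n) F)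
    (a : Matrix (Fin d) (Fin d) F) (b : Matrix (Fin k) (Fin k) F) (c : F) :
    tmat e P a (c • b) = c • tmat e P a b := by
  have h1 : Matrix.reindex e.symm e.symm (a ⊗ₖ (c • b)) =
      c • Matrix.reindex e.symm e.symm (a ⊗ₖ b) := by
    ext i j
    simp only [Matrix.reindex_apply, Matrix.submatrix_apply, Matrix.kroneckerMap_apply,
      Matrix.smul_apply, smul_eq_mul]
    ring
  unfold tmat
  rw [h1, Matrix.mul_smul, Matrix.smul_mul]

theorem tmat_one' {d k : ℕ} (e : Fin n ≃ Fin d × Fin k) (P : GL (Fin n) F) :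
    tmat e P (1 : Matrix (Fin d) (Fin d) F) (1 : Matrix (Fin k) (Fin k) F) = 1 := by
  unfold tmat
  rw [Matrix.one_kronecker_one]
  simp only [Matrix.reindex_apply, Matrix.submatrix_one_equiv, Matrix.mul_one]
  rw [← Units.val_mul, mul_inv_cancel, Units.val_one]

/-- the standard alternating `2 × 2` matrix -/
def Jm (F : Type*) [Field F] : Matrix (Fin 2) (Fin 2) F := !![0, 1; -1, 0]

theorem JG_sq (G : Matrix (Fin 2) (Fin 2) F) (hsym : G 1 0 = G 0 1) :
    (Jm F * G) * (Jm F * G) =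
      (G 0 1 * G 0 1 - G 0 0 * G 1 1) • (1 : Matrix (Fin 2) (Fin 2) F) := by
  ext i j
  fin_cases i <;> fin_cases j <;>
    simp [Jm, Matrix.mul_apply, Fin.sum_univ_two, Matrix.vecMul, dotProduct, hsym] <;> ring

theorem JG_skew (G : Matrix (Fin 2) (Fin 2) F) (hsym : G 1 0 = G 0 1) :
    (Jm F * G)ᵀ * G = -(G * (Jm F * G)) := by
  ext i j
  fin_cases i <;> fin_cases j <;>
    simp [Jm, Matrix.mul_apply, Fin.sum_univ_two, Matrix.vecMul, dotProduct, hsym]

theorem BJBt (B : Matrix (Fin 2) (Fin 2) F) :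
    B * Jm F * Bᵀ = B.det • Jm F := by
  ext i j
  fin_cases i <;> fin_cases j <;>
    simp [Jm, Matrix.mul_apply, Fin.sum_univ_two, Matrix.vecMul, dotProduct, Matrix.det_fin_two] <;> ring

theorem fog_eq {κ : Type} [Fintype κ] (M : Matrix κ κ F) (x y : κ → F) :
    formOfGram id M x y = x ⬝ᵥ (M *ᵥ y) := by
  unfold formOfGram
  simp only [dotProduct, Matrix.mulVec, Finset.mul_sum, mul_assoc, id]

theorem fog_skew {κ : Type} [Fintype κ] (M A : Matrix κ κ F) (hA : Aᵀ * M = -(M * A))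
    (x y : κ → F) :
    formOfGram id M (A *ᵥ x) y = - formOfGram id M x (A *ᵥ y) := by
  rw [fog_eq, fog_eq]
  have h1 : (A *ᵥ x) ⬝ᵥ (M *ᵥ y) = x ⬝ᵥ ((Aᵀ * M) *ᵥ y) := by
    rw [← Matrix.mulVec_mulVec, Matrix.dotProduct_mulVec x Aᵀ, Matrix.vecMul_transpose]
  rw [h1, hA, Matrix.neg_mulVec, dotProduct_neg, Matrix.mulVec_mulVec]

theorem T2Sb (hq : Odd (Fintype.card F)) (f : (Fin n → F) → (Fin n → F) → F)
    (hf : IsSymplecticForm f) (H : Subgroup (GL (Fin n) F)) (hfix : FixesForm (matrixSet H) f)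
    {d : ℕ} (hd : 1 ≤ d) (e : Fin n ≃ Fin d × Fin 2) (P : GL (Fin n) F)
    (f₁ : (Fin d → F) → (Fin d → F) → F) (f₂ : (Fin 2 → F) → (Fin 2 → F) → F)
    (h1 : IsSymplecticForm f₁) (h2 : IsSymmetricForm f₂)
    (ht : IsTensorFormStructure id f f₁ f₂ e P) (hH : H ≤ tensorProductSubgroup d 2 e P)
    (haniso : ∀ v, v ≠ 0 → f₂ v v ≠ 0) :
    ∃ K : Subalgebra F (Matrix (Fin n) (Fin n) F), IsFieldSubalgebra 2 K ∧
      IsAdjointClosedFor f K ∧ ¬ IsSelfAdjointFor f K ∧ H ≤ subalgebraNormalizer K := by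
  classical
  have hd0 : 0 < d := Nat.lt_of_lt_of_le Nat.zero_lt_one hd
  obtain ⟨G, hGdef⟩ : ∃ G : Matrix (Fin 2) (Fin 2) F, G = gramMatrix f₂ := ⟨_, rfl⟩
  have hsym : G 1 0 = G 0 1 := by
    rw [hGdef]
    exact h2.symm _ _
  have hform : ∀ v : Fin 2 → F,
      f₂ v v = G 0 0 * v 0 * v 0 + 2 * G 0 1 * v 0 * v 1 + G 1 1 * v 1 * v 1 := by
    intro v
    rw [tens_gram f₂ h2.bilinear, ← hGdef]
    simp only [Fin.sum_univ_two]
    rw [hsym]
    ring
  obtain ⟨δ, hδdef⟩ : ∃ δ : F, δ = G 0 1 * G 0 1 - G 0 0 * G 1 1 := ⟨_, rfl⟩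
  have hδ : ∀ s : F, s * s ≠ δ := by
    intro s hs
    by_cases hα : G 0 0 = 0
    · have h3 := haniso ![1, 0] (by
        intro h0
        have h4 := congrFun h0 0
        simp at h4)
      apply h3
      rw [hform]
      simp [hα]
    · have h3 := haniso ![s - G 0 1, G 0 0] (by
        intro h0
        have h4 := congrFun h0 1
        simp at h4
        exact hα h4)
      apply h3
      rw [hform]
      simp only [Matrix.cons_val_zero, Matrix.cons_val_one]
      rw [hδdef] at hs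
      linear_combination (G 0 0) * hs
  obtain ⟨N, hNdef⟩ : ∃ N : Matrix (Fin 2) (Fin 2) F, N = Jm F * G := ⟨_, rfl⟩
  have hNN : N * N = δ • (1 : Matrix (Fin 2) (Fin 2) F) := by
    rw [hNdef, hδdef]
    exact JG_sq G hsym
  have hNsk : Nᵀ * G = -(G * N) := by
    rw [hNdef]
    exact JG_skew G hsym
  obtain ⟨ν, hνdef⟩ : ∃ ν : Matrix (Fin n) (Fin n) F,
    ν = tmat e P (1 : Matrix (Fin d) (Fin d) F) N := ⟨_, rfl⟩
  have hν : ν * ν = δ • (1 : Matrix (Fin n) (Fin n) F) := by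
    rw [hνdef, Cfsg.Agent.Lib.Helper83.SPPHOMP.tmat_mul', hNN, Matrix.one_mul, tmat_smul',
      tmat_one']
  have i0 : Fin n := e.symm (⟨0, hd0⟩, 0)
  have hA : ((1 : Matrix (Fin d) (Fin d) F) ⊗ₖ N)ᵀ * (gramMatrix f₁ ⊗ₖ G) =
      -((gramMatrix f₁ ⊗ₖ G) * ((1 : Matrix (Fin d) (Fin d) F) ⊗ₖ N)) := by
    rw [← Matrix.kroneckerMap_transpose, Matrix.transpose_one, ← Matrix.mul_kronecker_mul,
      ← Matrix.mul_kronecker_mul, hNsk, Matrix.one_mul, Matrix.mul_one]
    ext ⟨i, j⟩ ⟨i', j'⟩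
    simp [Matrix.kroneckerMap_apply]
  have hsk : ∀ u v, f (ν *ᵥ u) v = - f u (ν *ᵥ v) := by
    obtain ⟨c, hc, hform2⟩ := ht
    intro u v
    obtain ⟨x, rfl⟩ := tT_surjective e P u
    obtain ⟨y, rfl⟩ := tT_surjective e P v
    rw [tT_apply, tT_apply, hνdef, tmat_mulVec, tmat_mulVec, hform2, hform2, ← hGdef,
      fog_skew _ _ hA]
    ring
  have h2F : (2 : F) ≠ 0 := by
    apply Ring.two_ne_zero
    intro hch
    have h3 := FiniteField.even_card_of_char_two hch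
    rw [Nat.odd_iff] at hq
    omega
  refine ⟨quadAlg ν δ hν, quadAlg_field ν δ hν hδ i0, quadAlg_adj f hf.bilinear ν δ hν hsk,
    quadAlg_not_self f hf ν δ hν hδ i0 h2F hsk, ?_⟩
  intro h hh
  obtain ⟨a, b, lam, hab, hlam, hsim⟩ := tens_factor f H hfix hd0 (by norm_num) e P f₁ f₂
    h1.bilinear h1.nondegenerate h2.bilinear h2.nondegenerate ht hH h hh
  have hdet : b.1.det ≠ 0 := ((Matrix.isUnit_iff_isUnit_det _).mp b.isUnit).ne_zero
  have hsim' : b.1ᵀ * G * b.1 = lam • G := by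
    ext i j
    have h3 := hsim (Pi.single i 1) (Pi.single j 1)
    rw [tens_gram f₂ h2.bilinear] at h3
    change _ = lam * (gramMatrix f₂ i j) at h3
    rw [← hGdef] at h3
    simp only [Matrix.mulVec_single_one, Matrix.col_apply, Fin.sum_univ_two] at h3
    simp only [Matrix.mul_apply, Matrix.transpose_apply, Matrix.smul_apply, smul_eq_mul,
      Fin.sum_univ_two]
    linear_combination h3
  have hbN : lam • (b.1 * N) = b.1.det • (N * b.1) := by
    rw [hNdef]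
    calc lam • (b.1 * (Jm F * G)) = b.1 * Jm F * (lam • G) := by
          rw [Matrix.mul_smul, Matrix.mul_assoc]
      _ = b.1 * Jm F * (b.1ᵀ * G * b.1) := by rw [hsim']
      _ = (b.1 * Jm F * b.1ᵀ) * G * b.1 := by simp only [Matrix.mul_assoc]
      _ = b.1.det • (Jm F * G * b.1) := by rw [BJBt, Matrix.smul_mul, Matrix.smul_mul]
  have hcomm : h.1 * ν = (lam⁻¹ * b.1.det) • (ν * h.1) := by
    have h5 : lam • (h.1 * ν) = b.1.det • (ν * h.1) := by
      rw [hab, hνdef, Cfsg.Agent.Lib.Helper83.SPPHOMP.tmat_mul',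
        Cfsg.Agent.Lib.Helper83.SPPHOMP.tmat_mul', Matrix.mul_one, Matrix.one_mul,
        ← tmat_smul', ← tmat_smul', hbN]
    rw [← smul_smul, ← h5, smul_smul, inv_mul_cancel₀ hlam, one_smul]
  exact quadAlg_norm ν δ hν h (lam⁻¹ * b.1.det) (mul_ne_zero (inv_ne_zero hlam) hdet) hcomm

end Cfsg.Agent.Lib.Helper88.SP12T2Sb
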