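import Cfsg.Agent.Lib.Helper98.T73Defs
import Cfsg.Agent.Lib.Helper64.SpTICntC
import Cfsg.Agent.Lib.Helper73.TiCntB

/-!
# Project T73 (S5973, helper98), piece CNTPB (helper88)

The number of totally singular `m`-spaces is prime to `p` (flag counting), given the count of
one-step extensions.  NOTE: the skeleton statement lacks `Q 0 = 0` (without it no subspace is
totally singular and the count is `0`); here it is proved with the extra hypothesis
`hQ : IsQuad Q B` (`not_dvd_card_ts`) resp. `h0 : Q 0 = 0` (`not_dvd_card_ts_zero`).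
-/

set_option autoImplicit false
set_option linter.unusedSectionVars false
set_option linter.unusedVariables false

namespace Cfsg.Agent.Lib.Helper98.T73

open Cfsg.Agent.Lib.Helper47 Module Polynomial

universe u

variable {F : Type u} [Field F] [Fintype F] {V : Type u} [AddCommGroup V] [Module F V]
  [FiniteDimensional F V] {Q : V → F} {B : V → V → F}

/-- CNTPB, with `Q 0 = 0` -/
theorem not_dvd_card_ts_zero (h0 : Q 0 = 0) (p : ℕ) [Fact p.Prime] [CharP F p] (d : ℕ)
    (hext : ∀ (U : Submodule F V), TS Q U → ∀ j : ℕ, finrank F U = j → j + 2 ≤ d →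
      Nat.card {W : Submodule F V // U ≤ W ∧ finrank F W = j + 1 ∧ TS Q W} ≡ 1 [MOD p])
    (m : ℕ) (hm : m + 1 ≤ d) :
    ¬ p ∣ Nat.card {W : Submodule F V // finrank F W = m ∧ TS Q W} := by
  classical
  have hp : p.Prime := Fact.out
  have hfinV : Finite V := Module.finite_of_finite F
  have key : ∀ j : ℕ, j + 1 ≤ d →
      Nat.card {W : Submodule F V // finrank F W = j ∧ TS Q W} ≡ 1 [MOD p] := by
    intro j
    induction j with
    | zero =>
      intro _
      have h1 : Nat.card {W : Submodule F V // finrank F W = 0 ∧ TS Q W} = 1 := by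
        rw [Nat.card_eq_one_iff_unique]
        refine ⟨⟨?_⟩, ⟨⟨⊥, finrank_bot F V, ?_⟩⟩⟩
        · rintro ⟨W, hW, -⟩ ⟨W', hW', -⟩
          apply Subtype.ext
          change W = W'
          rw [Submodule.finrank_eq_zero.mp hW, Submodule.finrank_eq_zero.mp hW']
        · intro w hw
          rw [Submodule.mem_bot] at hw
          rw [hw]
          exact h0
      rw [h1]
    | succ j ih =>
      intro hj
      have ih' := ih (by omega)
      let Fl := {q : Submodule F V × Submodule F V //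
        q.1 ≤ q.2 ∧ finrank F q.1 = j ∧ finrank F q.2 = j + 1 ∧ TS Q q.2}
      have e1 : Fl ≃ Σ W₁ : {W : Submodule F V // finrank F W = j + 1 ∧ TS Q W},
          {W₀ : Submodule F V // W₀ ≤ W₁.1 ∧ finrank F W₀ = j} :=
        { toFun := fun q => ⟨⟨q.1.2, q.2.2.2.1, q.2.2.2.2⟩, ⟨q.1.1, q.2.1, q.2.2.1⟩⟩
          invFun := fun s => ⟨(s.2.1, s.1.1), s.2.2.1, s.2.2.2, s.1.2.1, s.1.2.2⟩
          left_inv := fun q => rfl
          right_inv := fun s => rfl }
      have e2 : Fl ≃ Σ W₀ : {W : Submodule F V // finrank F W = j ∧ TS Q W},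
          {W₁ : Submodule F V // W₀.1 ≤ W₁ ∧ finrank F W₁ = j + 1 ∧ TS Q W₁} :=
        { toFun := fun q => ⟨⟨q.1.1, q.2.2.1,
              fun w hw => q.2.2.2.2 w (q.2.1 hw)⟩,
            ⟨q.1.2, q.2.1, q.2.2.2.1, q.2.2.2.2⟩⟩
          invFun := fun s => ⟨(s.1.1, s.2.1), s.2.2.1, s.1.2.1, s.2.2.2.1, s.2.2.2.2⟩
          left_inv := fun q => rfl
          right_inv := fun s => rfl }
      have c1 : Nat.card Fl ≡
          Nat.card {W : Submodule F V // finrank F W = j + 1 ∧ TS Q W} [MOD p] := by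
        rw [Nat.card_congr e1]
        exact Cfsg.Agent.Lib.Helper64.SpTICntC.card_sigma_modEq p
          (fun W₁ => Cfsg.Agent.Lib.Helper73.TiCntB.card_hyperplanes_modEq W₁.1 j W₁.2.1)
      have c2 : Nat.card Fl ≡
          Nat.card {W : Submodule F V // finrank F W = j ∧ TS Q W} [MOD p] := by
        rw [Nat.card_congr e2]
        exact Cfsg.Agent.Lib.Helper64.SpTICntC.card_sigma_modEq p
          (fun W₀ => hext W₀.1 W₀.2.2 j W₀.2.1 (by omega))
      exact (c1.symm.trans c2).trans ih'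
  intro hdvd
  have h1 := key m hm
  have h2 : Nat.card {W : Submodule F V // finrank F W = m ∧ TS Q W} ≡ 0 [MOD p] :=
    (Nat.modEq_zero_iff_dvd).mpr hdvd
  have h3 : (0 : ℕ) ≡ 1 [MOD p] := h2.symm.trans h1
  have h4 := (Nat.modEq_iff_dvd' (by norm_num : 0 ≤ 1)).mp h3
  exact hp.one_lt.ne' (Nat.dvd_one.mp h4)

/-- CNTPB (corrected: with `hQ : IsQuad Q B`) -/
theorem not_dvd_card_ts (hQ : IsQuad Q B) (p : ℕ) [Fact p.Prime] [CharP F p] (d : ℕ)
    (hext : ∀ (U : Submodule F V), TS Q U → ∀ j : ℕ, finrank F U = j → j + 2 ≤ d →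
      Nat.card {W : Submodule F V // U ≤ W ∧ finrank F W = j + 1 ∧ TS Q W} ≡ 1 [MOD p])
    (m : ℕ) (hm : m + 1 ≤ d) :
    ¬ p ∣ Nat.card {W : Submodule F V // finrank F W = m ∧ TS Q W} :=
  not_dvd_card_ts_zero hQ.map_zero p d hext m hm

end Cfsg.Agent.Lib.Helper98.T73
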