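import Cfsg.Agent.Lib.Helper98.T73Defs
import Cfsg.Prelude.Def_GeometricClasses
import Cfsg.Agent.Lib.Helper66.QuadSTD
import Cfsg.Agent.Lib.Helper31.T73WIBD

/-!
# Project T73 (S5987, helper98), piece CPXM (helper88)

An isometry `x` of the minus-type form in dimension `2k+2` with `x² = -1` (`2 ≠ 0`): `-1` is not
a square (the eigenspaces would be totally singular of total dimension `2k+2 > 2k`), and `k` is
even (the nonzero singular vectors split into classes `{a v + b x v} ∖ {0}` of size `q² - 1`).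
-/

set_option autoImplicit false
set_option linter.style.haveILetI false
set_option linter.unusedSectionVars false
set_option linter.unusedVariables false

namespace Cfsg.Agent.Lib.Helper98.T73

open Cfsg.Agent.Lib.Helper47 Module Polynomial

universe u

variable {F : Type u} [Field F] [Fintype F]

open Cfsg.Agent.Lib.Helper2.QuadMINUSTYP Cfsg.Agent.Lib.Helper4.Quad Cfsg.Agent.Lib.Helper5.QuadAC
  Cfsg.Agent.Lib.Helper23.Quad Cfsg.Agent.Lib.Helper26.QuadClassify
  Cfsg.Agent.Lib.Helper63 Cfsg.Agent.Lib.Helper66.QuadSTD Cfsg.Agent.Lib.Helper78.Quad in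
/-- the value counts of the standard minus-type form -/
theorem cpxm_typ (k : ℕ) (a b : F) (hab : IsAniso a b) :
    IsTyp (Cfsg.quadFormMinus k F a b) k (-1) :=
  isTyp_quadFormMinus_of k a b (fun Q₁ Q₂ _ _ _ _ h₁ h₂ => isTyp_prod Q₁ Q₂ h₁ h₂)
    isTyp_quadFormPlus (isTyp_aniso a b hab)

/-- arithmetic core -/
theorem cpxm_arith (q : ℤ) (hq : 2 ≤ q) (e : ℕ) (M : ℤ)
    (h : q ^ (2 * (2 * e + 1) + 1) + (q - 1) * (-1 * q ^ (2 * e + 1)) - 1 = (q ^ 2 - 1) * M) :
    False := by
  have h1 : q ^ 2 - 1 ∣ (q ^ 2) ^ (2 * e + 1) - 1 := by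
    have := sub_dvd_pow_sub_pow (q ^ 2) 1 (2 * e + 1)
    simpa using this
  have h2 : q ^ 2 - 1 ∣ (q ^ 2) ^ e - 1 := by
    have := sub_dvd_pow_sub_pow (q ^ 2) 1 e
    simpa using this
  have h3 : q ^ 2 - 1 ∣ 2 * q - 2 := by
    have e1 : 2 * q - 2 = (q ^ 2 - 1) * M - q * ((q ^ 2) ^ (2 * e + 1) - 1)
        + (q - 1) * q * ((q ^ 2) ^ e - 1) + (q ^ 2 - 1) := by
      rw [← h]
      ring
    rw [e1]
    exact dvd_add (dvd_add (dvd_sub (dvd_mul_right _ _) (Dvd.dvd.mul_left h1 _))
      (Dvd.dvd.mul_left h2 _)) (dvd_refl _)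
  have h4 : q ^ 2 - 1 ≤ 2 * q - 2 := Int.le_of_dvd (by linarith) h3
  nlinarith

/-- counting: the nonzero singular vectors of a quadratic space with an isometry `T`, `T² = -1`,
`-1` a nonsquare, come in classes of size `q² - 1` -/
theorem cpxm_count {V : Type*} [AddCommGroup V] [Module F V] [Finite V] (h2 : (2 : F) ≠ 0)
    (hns : ¬ IsSquare (-1 : F)) {Q : V → F} {B : V → V → F} (hQ : IsQuad Q B)
    (T : V →ₗ[F] V) (hTT : ∀ v, T (T v) = -v) (hTQ : ∀ v, Q (T v) = Q v) :
    ∃ M : ℤ, (Nat.card {v : V // Q v = 0} : ℤ) - 1 = ((Fintype.card F : ℤ) ^ 2 - 1) * M := by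
  classical
  haveI : Fintype V := Fintype.ofFinite V
  have hBT : ∀ v, B v (T v) = 0 := by
    intro v
    have h3 := hQ.isometry hQ T hTQ v (T v)
    rw [hTT, hQ.form.neg_right] at h3
    have h4 := hQ.form.symm v (T v)
    simp only [RingHom.id_apply, one_mul] at h4
    rw [h4] at h3
    have h5 : (2 : F) * B v (T v) = 0 := by linear_combination -h3
    rcases mul_eq_zero.mp h5 with h6 | h6
    · exact absurd h6 h2
    · exact h6
  have hQab : ∀ (a b : F) v, Q (a • v + b • T v) = (a ^ 2 + b ^ 2) * Q v := by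
    intro a b v
    rw [hQ.polar, hQ.smul, hQ.smul, hTQ, hQ.form.smul_left, hQ.form.smul_right, hBT]
    simp only [RingHom.id_apply]
    ring
  have hsq : ∀ a b : F, a ^ 2 + b ^ 2 = 0 → a = 0 ∧ b = 0 := by
    intro a b hab
    by_cases hb : b = 0
    · rw [hb] at hab
      simp at hab
      exact ⟨hab, hb⟩
    · exfalso
      apply hns
      refine ⟨a / b, ?_⟩
      field_simp
      linear_combination -hab
  let f : V → Finset V := fun v => Finset.univ.image (fun ab : F × F => ab.1 • v + ab.2 • T v)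
  have hfmem : ∀ v w, w ∈ f v ↔ ∃ a b : F, a • v + b • T v = w := by
    intro v w
    simp only [f, Finset.mem_image, Finset.mem_univ, true_and, Prod.exists]
  have hfsub : ∀ v w, w ∈ f v → f w ⊆ f v := by
    intro v w hw u hu
    obtain ⟨a, b, rfl⟩ := (hfmem v w).mp hw
    obtain ⟨c, g, rfl⟩ := (hfmem _ u).mp hu
    rw [hfmem]
    refine ⟨c * a - g * b, c * b + g * a, ?_⟩
    rw [map_add, map_smul, map_smul, hTT]
    module
  have hfeq : ∀ v w, w ∈ f v → w ≠ 0 → f w = f v := by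
    intro v w hw hw0
    apply Finset.Subset.antisymm (hfsub v w hw)
    apply hfsub
    obtain ⟨a, b, rfl⟩ := (hfmem v w).mp hw
    have hne : a ^ 2 + b ^ 2 ≠ 0 := by
      intro h0
      obtain ⟨ha, hb⟩ := hsq a b h0
      apply hw0
      rw [ha, hb]
      simp
    rw [hfmem]
    refine ⟨a / (a ^ 2 + b ^ 2), -b / (a ^ 2 + b ^ 2), ?_⟩
    rw [map_add, map_smul, map_smul, hTT]
    have h3 : (a / (a ^ 2 + b ^ 2)) • (a • v + b • T v) +
        (-b / (a ^ 2 + b ^ 2)) • (a • T v + b • -v)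
        = ((a ^ 2 + b ^ 2) / (a ^ 2 + b ^ 2)) • v := by
      module
    rw [h3, div_self hne, one_smul]
  have hfcard : ∀ v, v ≠ 0 → (f v).card = Fintype.card F ^ 2 := by
    intro v hv
    have hinj : Function.Injective (fun ab : F × F => ab.1 • v + ab.2 • T v) := by
      rintro ⟨a, b⟩ ⟨a', b'⟩ hab
      simp only at hab
      have h3 : (a - a') • v + (b - b') • T v = 0 := by
        rw [sub_smul, sub_smul]
        have h4 : a • v - a' • v + (b • T v - b' • T v)
            = (a • v + b • T v) - (a' • v + b' • T v) := by abel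
        rw [h4, hab, sub_self]
      have h5 := congrArg T h3
      rw [map_add, map_smul, map_smul, hTT, map_zero] at h5
      have h6 : ((a - a') ^ 2 + (b - b') ^ 2) • v = 0 := by
        have h7 : ((a - a') ^ 2 + (b - b') ^ 2) • v
            = (a - a') • ((a - a') • v + (b - b') • T v)
              - (b - b') • ((a - a') • T v + (b - b') • -v) := by
          module
        rw [h7, h3, h5, smul_zero, smul_zero, sub_zero]
      rcases smul_eq_zero.mp h6 with h8 | h8
      · obtain ⟨h9, h10⟩ := hsq _ _ h8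
        rw [sub_eq_zero.mp h9, sub_eq_zero.mp h10]
      · exact absurd h8 hv
    show (Finset.univ.image (fun ab : F × F => ab.1 • v + ab.2 • T v)).card = _
    rw [Finset.card_image_of_injective _ hinj, Finset.card_univ, Fintype.card_prod, sq]
  let S : Finset V := (Finset.univ.filter (fun v => Q v = 0)).erase 0
  have hSmem : ∀ v, v ∈ S ↔ v ≠ 0 ∧ Q v = 0 := by
    intro v
    simp only [S, Finset.mem_erase, Finset.mem_filter, Finset.mem_univ, true_and]
  have hfiber : ∀ v ∈ S, (S.filter (fun w => f w = f v)).card = Fintype.card F ^ 2 - 1 := by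
    intro v hv
    obtain ⟨hv0, hvQ⟩ := (hSmem v).mp hv
    have h3 : S.filter (fun w => f w = f v) = (f v).erase 0 := by
      ext w
      rw [Finset.mem_filter, hSmem, Finset.mem_erase]
      constructor
      · rintro ⟨⟨hw0, hwQ⟩, hfw⟩
        refine ⟨hw0, ?_⟩
        rw [← hfw, hfmem]
        exact ⟨1, 0, by simp⟩
      · rintro ⟨hw0, hw⟩
        refine ⟨⟨hw0, ?_⟩, hfeq v w hw hw0⟩
        obtain ⟨a, b, rfl⟩ := (hfmem v w).mp hw
        rw [hQab, hvQ, mul_zero]
    rw [h3, Finset.card_erase_of_mem, hfcard v hv0]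
    rw [hfmem]
    exact ⟨0, 0, by simp⟩
  have hScard : S.card = (S.image f).card * (Fintype.card F ^ 2 - 1) := by
    rw [Finset.card_eq_sum_card_image f S]
    rw [Finset.sum_const_nat (m := Fintype.card F ^ 2 - 1)]
    intro c hc
    obtain ⟨v, hv, rfl⟩ := Finset.mem_image.mp hc
    exact hfiber v hv
  have h0mem : (0 : V) ∈ Finset.univ.filter (fun v : V => Q v = 0) := by
    rw [Finset.mem_filter]
    exact ⟨Finset.mem_univ _, hQ.map_zero⟩
  have hS1 : S.card + 1 = (Finset.univ.filter (fun v : V => Q v = 0)).card := by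
    show ((Finset.univ.filter (fun v => Q v = 0)).erase 0).card + 1 = _
    rw [Finset.card_erase_of_mem h0mem]
    have := Finset.card_pos.mpr ⟨_, h0mem⟩
    omega
  refine ⟨((S.image f).card : ℤ), ?_⟩
  have hcnt : Nat.card {v : V // Q v = 0} = (Finset.univ.filter (fun v : V => Q v = 0)).card := by
    rw [Nat.card_eq_fintype_card, Fintype.card_subtype]
  rw [hcnt, ← hS1, hScard]
  have h5 : 1 ≤ Fintype.card F ^ 2 := Nat.one_le_pow _ _ Fintype.card_pos
  push_cast [Nat.cast_sub h5]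
  ring

/-- CPXM -/
theorem cpx_minus_facts (h2 : (2 : F) ≠ 0) (k : ℕ) (a b : F)
    (hab : ∀ x y : F, x ^ 2 + a * x * y + b * y ^ 2 = 0 → x = 0 ∧ y = 0)
    (x : GL ((Fin k ⊕ Fin k) ⊕ Fin 2) F)
    (hx : x ∈ Cfsg.Geo.omegaGL (Cfsg.quadFormMinus k F a b))
    (hx2 : (x : Matrix ((Fin k ⊕ Fin k) ⊕ Fin 2) ((Fin k ⊕ Fin k) ⊕ Fin 2) F)
        * (x : Matrix ((Fin k ⊕ Fin k) ⊕ Fin 2) ((Fin k ⊕ Fin k) ⊕ Fin 2) F)
      = (-1 : F) • (1 : Matrix ((Fin k ⊕ Fin k) ⊕ Fin 2) ((Fin k ⊕ Fin k) ⊕ Fin 2) F)) :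
    ¬ IsSquare (-1 : F) ∧ Even k := by
  classical
  have hQ := Cfsg.Agent.Lib.Helper66.QuadSTD.quadFormMinus_isQuad (F := F) k a b
  have hnd := Cfsg.Agent.Lib.Helper66.QuadSTD.minusB_nondeg (F := F) k a b hab
  have htyp := cpxm_typ (F := F) k a b hab
  have hiso : ∀ v, Cfsg.quadFormMinus k F a b
      ((x : Matrix ((Fin k ⊕ Fin k) ⊕ Fin 2) ((Fin k ⊕ Fin k) ⊕ Fin 2) F).mulVec v)
        = Cfsg.quadFormMinus k F a b v := by
    obtain ⟨y, hy, hyx⟩ := hx
    intro v
    have h3 := y.2 v v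
    rw [← hyx]
    exact h3
  obtain ⟨A, hA⟩ : ∃ A : Matrix ((Fin k ⊕ Fin k) ⊕ Fin 2) ((Fin k ⊕ Fin k) ⊕ Fin 2) F,
    A = (x : Matrix ((Fin k ⊕ Fin k) ⊕ Fin 2) ((Fin k ⊕ Fin k) ⊕ Fin 2) F) := ⟨_, rfl⟩
  rw [← hA] at hx2 hiso
  have hAA : ∀ v : (Fin k ⊕ Fin k) ⊕ Fin 2 → F, A.mulVec (A.mulVec v) = -v := by
    intro v
    rw [Matrix.mulVec_mulVec, hx2, Matrix.smul_mulVec, Matrix.one_mulVec, neg_one_smul]
  have hns : ¬ IsSquare (-1 : F) := by
    rintro ⟨c, hc'⟩
    have hc : c ^ 2 = -1 := by rw [pow_two, ← hc']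
    have hcn : (-c) ^ 2 = -1 := by rw [neg_sq, hc]
    have hc0 : c ≠ 0 := by
      rintro rfl
      rw [zero_pow (by norm_num)] at hc
      have h1 : (1 : F) = 0 := by linear_combination hc
      exact one_ne_zero h1
    have h2c : (2 : F) * c ≠ 0 := mul_ne_zero h2 hc0
    have hmemE : ∀ (s : F) (v : (Fin k ⊕ Fin k) ⊕ Fin 2 → F),
        v ∈ LinearMap.ker (Matrix.toLin' A - s • LinearMap.id) ↔ A.mulVec v = s • v := by
      intro s v
      rw [LinearMap.mem_ker, LinearMap.sub_apply, LinearMap.smul_apply, LinearMap.id_apply,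
        Matrix.toLin'_apply, sub_eq_zero]
    have htop : LinearMap.ker (Matrix.toLin' A - c • LinearMap.id) ⊔
        LinearMap.ker (Matrix.toLin' A - (-c) • LinearMap.id) = ⊤ := by
      rw [eq_top_iff]
      intro v _
      have hv : v = (2 * c)⁻¹ • (A.mulVec v + c • v) + (-(2 * c)⁻¹) • (A.mulVec v - c • v) := by
        have e : (2 * c)⁻¹ • (A.mulVec v + c • v) + (-(2 * c)⁻¹) • (A.mulVec v - c • v) =
            ((2 * c)⁻¹ * (2 * c)) • v := by module
        rw [e, inv_mul_cancel₀ h2c, one_smul]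
      rw [hv]
      refine Submodule.add_mem _ (Submodule.smul_mem _ _ (Submodule.mem_sup_left ?_))
        (Submodule.smul_mem _ _ (Submodule.mem_sup_right ?_))
      · rw [hmemE, Matrix.mulVec_add, Matrix.mulVec_smul, hAA]
        have e : c • A.mulVec v + (c ^ 2) • v = c • (A.mulVec v + c • v) := by module
        rw [← e, hc]
        module
      · rw [hmemE, Matrix.mulVec_sub, Matrix.mulVec_smul, hAA]
        have e : (-c) • A.mulVec v + (c ^ 2) • v = (-c) • (A.mulVec v - c • v) := by module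
        rw [← e, hc]
        module
    have hsing : ∀ s : F, s ^ 2 = -1 →
        TS (Cfsg.quadFormMinus k F a b) (LinearMap.ker (Matrix.toLin' A - s • LinearMap.id)) := by
      intro s hs v hv
      have h1 := hiso v
      rw [(hmemE s v).mp hv, hQ.smul, hs] at h1
      have h3 : (2 : F) * Cfsg.quadFormMinus k F a b v = 0 := by linear_combination -h1
      exact (mul_eq_zero.mp h3).resolve_left h2
    obtain ⟨p, hp⟩ := CharP.exists F
    haveI := hp
    haveI : Fact p.Prime := ⟨CharP.char_is_prime F p⟩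
    have hf : QFacts F := qfacts p
    have hdimV : finrank F ((Fin k ⊕ Fin k) ⊕ Fin 2 → F) = 2 * k + 2 := by
      rw [Module.finrank_fintype_fun_eq_card, Fintype.card_sum, Fintype.card_sum,
        Fintype.card_fin, Fintype.card_fin]
      ring
    have hb1 := wi_bound hf hQ hnd k hdimV (-1) htyp _ (hsing c hc)
    have hb2 := wi_bound hf hQ hnd k hdimV (-1) htyp _ (hsing (-c) hcn)
    have hwi : wi k (-1) = k := by
      unfold wi
      simp
    have h1 := Submodule.finrank_add_le_finrank_add_finrank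
      (LinearMap.ker (Matrix.toLin' A - c • LinearMap.id))
      (LinearMap.ker (Matrix.toLin' A - (-c) • LinearMap.id))
    rw [htop, finrank_top, hdimV] at h1
    rw [hwi] at hb1 hb2
    omega
  refine ⟨hns, ?_⟩
  by_contra hodd
  rw [Nat.not_even_iff_odd] at hodd
  obtain ⟨e, rfl⟩ := hodd
  obtain ⟨M, hM⟩ := cpxm_count h2 hns hQ (Matrix.toLin' A)
    (by
      intro v
      rw [Matrix.toLin'_apply, Matrix.toLin'_apply]
      exact hAA v)
    (by
      intro v
      rw [Matrix.toLin'_apply]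
      exact hiso v)
  have hq2 : 2 ≤ (Fintype.card F : ℤ) := by
    have := Fintype.one_lt_card (α := F)
    exact_mod_cast this
  have h3 := htyp.1
  exact cpxm_arith (Fintype.card F : ℤ) hq2 e M (by rw [← hM, h3])

end Cfsg.Agent.Lib.Helper98.T73
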