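import Mathlib

/-! S5980 (helper98), piece TD2-INV4: a nonscalar symplectic involution `M` with
`rank (M - 1) ≤ 2`. -/

set_option autoImplicit false

namespace Cfsg.Agent.Lib.Helper98.TD2

open Matrix Polynomial
open scoped Kronecker

/-! ### TD2-INV4 -/
theorem exists_sp_diag_neg {F : Type*} [Field F] (h2 : (2 : F) ≠ 0) (d : ℕ) (hd : 2 ≤ d) :
    ∃ M : Matrix (Fin d ⊕ Fin d) (Fin d ⊕ Fin d) F, M ∈ Matrix.symplecticGroup (Fin d) F ∧
      M ^ 2 = 1 ∧ (M - 1).rank ≤ 2 ∧
      ∀ z : F, M ≠ z • (1 : Matrix (Fin d ⊕ Fin d) (Fin d ⊕ Fin d) F) := by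
  classical
  obtain ⟨i0, i1, h01⟩ : ∃ i0 i1 : Fin d, i0 ≠ i1 :=
    ⟨⟨0, by omega⟩, ⟨1, by omega⟩, by simp [Fin.ext_iff]⟩
  obtain ⟨v, hv⟩ : ∃ v : Fin d → F, v = fun i => if i = i0 then (-1 : F) else 1 := ⟨_, rfl⟩
  have hvv : ∀ i, v i * v i = 1 := by
    intro i
    rw [hv]
    dsimp only
    split_ifs <;> simp
  have hv0 : v i0 = -1 := by rw [hv]; simp
  have hvne : ∀ i, i ≠ i0 → v i = 1 := by
    intro i hi
    rw [hv]; simp [hi]
  have hv1 : v i1 = 1 := hvne i1 (Ne.symm h01)
  have hDD : diagonal v * diagonal v = (1 : Matrix (Fin d) (Fin d) F) := by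
    rw [diagonal_mul_diagonal, ← diagonal_one]
    congr 1
    funext i
    exact hvv i
  refine ⟨fromBlocks (diagonal v) 0 0 (diagonal v), ?_, ?_, ?_, ?_⟩
  · rw [SymplecticGroup.mem_iff, Matrix.J, fromBlocks_transpose, fromBlocks_multiply,
      fromBlocks_multiply]
    simp only [diagonal_transpose, transpose_zero, mul_zero, zero_mul, add_zero, zero_add,
      mul_neg, mul_one, neg_mul, hDD, neg_zero]
  · rw [pow_two, fromBlocks_multiply]
    simp [hDD, fromBlocks_one]
  · rw [fromBlocks_diagonal, ← diagonal_one, diagonal_sub, rank_diagonal, Fintype.card_subtype]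
    refine (Finset.card_le_card (t := {Sum.inl i0, Sum.inr i0}) ?_).trans Finset.card_le_two
    intro i hi
    rw [Finset.mem_filter] at hi
    rcases i with i | i
    · by_cases hi0 : i = i0
      · rw [hi0]; simp
      · exfalso
        apply hi.2
        simp [hvne i hi0]
    · by_cases hi0 : i = i0
      · rw [hi0]; simp
      · exfalso
        apply hi.2
        simp [hvne i hi0]
  · intro z hz
    have ha := congrFun (congrFun hz (Sum.inl i0)) (Sum.inl i0)
    have hb := congrFun (congrFun hz (Sum.inl i1)) (Sum.inl i1)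
    simp [hv0] at ha
    simp [hv1] at hb
    apply h2
    linear_combination hb - ha

end Cfsg.Agent.Lib.Helper98.TD2
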