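import Mathlib
import Cfsg.Agent.Lib.Helper26.TwF4Defs
import Cfsg.Agent.S1080

/-!
# TF4 (helper26, S2363 / S1090), piece SIGEX

The twisting endomorphism of `F₄(K)`, `|K| = 2^(2m+1)`, exists: the exceptional graph
automorphism (characteristic 2) composed with the field automorphism `t ↦ t^(2^m)`.
-/

set_option autoImplicit false

namespace Cfsg.Agent.Lib.Helper26.TF4

open Cfsg.Lie Matrix Cfsg.Agent.Lib.Helper24

private theorem sigex_charP_two {K : Type*} [Field K] [Fintype K] {n : ℕ} (hn : n ≠ 0)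
    (hK : Fintype.card K = 2 ^ n) : CharP K 2 := by
  obtain ⟨p, hp⟩ := CharP.exists K
  have := hp
  obtain ⟨k, hpn, hcard⟩ := FiniteField.card K p
  have h3 : (2 : ℕ) ∣ p ^ (k : ℕ) := by
    rw [← hcard, hK]
    exact dvd_pow_self 2 hn
  have : p = 2 :=
    ((Nat.prime_dvd_prime_iff_eq Nat.prime_two hpn).1 (Nat.prime_two.dvd_of_dvd_pow h3)).symm
  rw [← this]
  exact hp

private theorem sigex_rho_lt : ∀ r < chevF4.nroots, rho r < chevF4.nroots := by
  decide +kernel

theorem exists_sig (K : Type*) [Field K] [Fintype K] (m : ℕ)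
    (hK : Fintype.card K = 2 ^ (2 * m + 1)) :
    ∃ σ : ↥(chevF4.group K) →* ↥(chevF4.group K), IsSig K (2 ^ m) σ := by
  have : CharP K 2 := sigex_charP_two (by omega) hK
  have : Fact (Nat.Prime 2) := ⟨Nat.prime_two⟩
  have hperf : ∀ x : K, ∃ y : K, y ^ 2 = x := by
    intro x
    obtain ⟨y, hy⟩ := (Finite.injective_iff_surjective.1 (frobenius K 2).injective) x
    exact ⟨y, by rw [← hy, frobenius_def]⟩
  obtain ⟨α, hα⟩ := Gr.graph_aut_F4 hperf
  let f : K ≃+* K := RingEquiv.ofBijective (iterateFrobenius K 2 m)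
    (Finite.injective_iff_bijective.1 (iterateFrobenius K 2 m).injective)
  have hf : ∀ t, f t = t ^ 2 ^ m := fun t => rfl
  obtain ⟨β, hβ⟩ := Cfsg.Agent.S1080.result chevF4 (by simp) f
  refine ⟨(α.trans β).toMonoidHom, fun r hr t => ?_⟩
  have h1 := hα (xG chevF4 hF4 r t) r t hr (xGL_val chevF4 hF4 r t)
  have h2 := hβ (α (xG chevF4 hF4 r t)) (rho r)
    (t ^ (if Gr.shF4.contains r then 2 else 1)) (sigex_rho_lt r hr) h1
  apply Subtype.ext
  apply Units.ext
  show ((β (α (xG chevF4 hF4 r t)) : GL chevF4.Idx K) : Matrix chevF4.Idx chevF4.Idx K) = _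
  rw [h2, hf, ← pow_mul]
  have h3 : (if Gr.shF4.contains r then 2 else 1) * 2 ^ m = pw (2 ^ m) r := by
    unfold pw
    split_ifs
    · rfl
    · rw [one_mul]
  rw [h3]
  exact (xGL_val chevF4 hF4 (rho r) (t ^ pw (2 ^ m) r)).symm

end Cfsg.Agent.Lib.Helper26.TF4
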