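import Mathlib
import Cfsg.Prelude.Def_GeometricClasses
import Cfsg.Prelude.Def_ClassicalGeometry
import Cfsg.Prelude.Def_LieClassical
import Cfsg.Agent.Lib.Helper98.U84Defs
import Cfsg.Agent.Lib.Helper47.GUPrime

/-! S5984 (helper98, project U84), piece GUEX: a unitary matrix of order dividing `r` with a
prescribed self-dual characteristic polynomial (adapted from `Helper47.GUPrime`). -/

set_option autoImplicit false

namespace Cfsg.Agent.Lib.Helper98.U84

open Matrix Polynomial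

theorem exists_gu_cyc {F : Type*} [Field F] [Fintype F] {p q : ℕ} [Fact p.Prime] [CharP F p]
    (hF : Fintype.card F = q ^ 2) {r : ℕ} (hr : r.Prime) (hr2 : r ≠ 2) (hrp : r ≠ p) (n : ℕ)
    (σ : F →+* F) (hσq : ∀ x, σ x = x ^ q) (t : Multiset F[X])
    (ht : ∀ f ∈ t, Cfsg.Agent.Lib.Helper47.IsCycFactor r f)
    (hdual : t.map (Cfsg.Agent.Lib.Helper47.dualP σ) = t) (hdeg : t.prod.natDegree ≤ n) :
    ∃ M : Matrix (Fin n) (Fin n) F,
      (∀ u w, Cfsg.hermForm n F q (M *ᵥ u) (M *ᵥ w) = Cfsg.hermForm n F q u w) ∧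
      M ^ r = 1 ∧ M.charpoly = (X - 1) ^ (n - t.prod.natDegree) * t.prod := by
  classical
  obtain ⟨σ', hσ'q, hσ', -, -, x₀, -, -, -, hx₀⟩ :=
    Cfsg.Agent.Lib.Helper47.exists_unitary_data F q hF
  have hσ : ∀ x, σ (σ x) = x := by
    intro x
    rw [hσq, hσq, ← hσ'q, ← hσ'q, hσ']
  have hne : ∃ c, σ c ≠ c := ⟨x₀, by rw [hσq, ← hσ'q]; exact hx₀⟩
  have hcopr : r.Coprime p := (Nat.coprime_primes hr Fact.out).mpr hrp
  have hrF : (r : F) ≠ 0 := Cfsg.Agent.Lib.Helper47.natCast_ne_zero_of_coprime p hcopr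
  have hform : ∀ u v : Fin n → F,
      Cfsg.hermForm n F q u v = Cfsg.Agent.Lib.Helper47.uForm σ u v :=
    fun u v => Cfsg.Agent.Lib.Helper47.hermForm_eq q σ hσq n u v
  have htm : t.prod.Monic := by
    have := monic_multiset_prod_of_monic t id (fun f hf => (ht f hf).1)
    simpa using this
  have hdeg' : ((X - 1 : F[X]) ^ (n - t.prod.natDegree) * t.prod).natDegree = n := by
    have hm1 : (X - 1 : F[X]).Monic := Cfsg.Agent.Lib.Helper47.monic_X_sub_one
    rw [(hm1.pow _).natDegree_mul htm, hm1.natDegree_pow]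
    have h1 : (X - 1 : F[X]).natDegree = 1 := by
      have := natDegree_X_sub_C (1 : F)
      simpa using this
    rw [h1]
    omega
  obtain ⟨M, hMc, hMr⟩ :=
    Cfsg.Agent.Lib.Helper47.exists_matrix_of_factors p hr _ t ht hdeg'
  have hMdet : IsUnit M.det := by
    have h1 : M.det ^ r = 1 := by rw [← Matrix.det_pow, hMr, Matrix.det_one]
    exact IsUnit.of_pow_eq_one h1 hr.ne_zero
  obtain ⟨N, hN⟩ : ∃ N : Matrix (Fin n) (Fin n) F,
      N = (Cfsg.Agent.Lib.Helper47.sT σ M)⁻¹ := ⟨_, rfl⟩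
  have hsdet : IsUnit (Cfsg.Agent.Lib.Helper47.sT σ M).det := by
    rw [Cfsg.Agent.Lib.Helper47.det_sT]
    exact hMdet.map σ
  have hNc : N.charpoly = M.charpoly := by
    rw [hN, Cfsg.Agent.Lib.Helper47.charpoly_sT_inv M hMdet, hMc,
      Cfsg.Agent.Lib.Helper47.dualP_mul, Cfsg.Agent.Lib.Helper47.dualP_pow,
      Cfsg.Agent.Lib.Helper47.dualP_X_sub_one, Cfsg.Agent.Lib.Helper47.dualP_multiset_prod, hdual]
  have hNr : N ^ r = 1 := by
    rw [hN, Matrix.inv_pow', ← Cfsg.Agent.Lib.Helper47.sT_pow, hMr,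
      Cfsg.Agent.Lib.Helper47.sT_one, inv_one]
  have hMs := Cfsg.Agent.Lib.Helper47.isSemisimple_toLin'_of_pow_eq_one M r hrF hMr
  have hNs := Cfsg.Agent.Lib.Helper47.isSemisimple_toLin'_of_pow_eq_one N r hrF hNr
  obtain ⟨P₀, hPdet, hPM⟩ := Cfsg.Agent.Lib.Helper47.exists_conj_matrix M N hMs hNs hNc.symm
  have hkey : Cfsg.Agent.Lib.Helper47.sT σ M * P₀ * M = P₀ := by
    rw [mul_assoc, hPM, ← mul_assoc, hN, Matrix.mul_nonsing_inv _ hsdet, one_mul]
  obtain ⟨y, B, hyU, hyMB, hBB⟩ := Cfsg.Agent.Lib.Helper47.exists_unitary_similar p hσ hne M P₀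
    ((Matrix.isUnit_iff_isUnit_det M).mpr hMdet)
    ((Matrix.isUnit_iff_isUnit_det P₀).mpr hPdet) hkey
  have hydet : IsUnit y.det := (Matrix.isUnit_iff_isUnit_det y).mp hyU
  have hBr : B ^ r = 1 := by
    have h1 : B ^ r * y = y * M ^ r := Cfsg.Agent.Lib.Helper47.pow_intertwine hyMB.symm r
    rw [hMr, mul_one] at h1
    calc B ^ r = B ^ r * (y * y⁻¹) := by rw [Matrix.mul_nonsing_inv y hydet, mul_one]
      _ = y * y⁻¹ := by rw [← mul_assoc, h1]
      _ = 1 := Matrix.mul_nonsing_inv y hydet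
  have hBc : B.charpoly = M.charpoly :=
    (Cfsg.Agent.Lib.Helper47.charpoly_eq_of_mul_eq y M B hydet hyMB).symm
  refine ⟨B, ?_, hBr, ?_⟩
  · intro u v
    rw [hform, hform]
    exact Cfsg.Agent.Lib.Helper47.unitary_of_sT_mul_self hσ hBB u v
  · rw [hBc, hMc]

end Cfsg.Agent.Lib.Helper98.U84
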